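/-
Overgroups of the `11^(1+2)` normaliser in `SL₁₁(q)`: vocabulary.
-/
import Mathlib
import Cfsg.Prelude.Def_GeometricClasses

set_option autoImplicit false

namespace Cfsg.Agent.E11C

open Matrix Cfsg.Geo

variable {F : Type*} [Field F]

local notation "M11" => Matrix (Fin 11) (Fin 11) F
local notation "M5" => Matrix (Fin 5) (Fin 5) F

/-- The clock matrix. -/
def ckM (ω : F) : M11 := diagonal fun i => ω ^ (i : ℕ)

variable (F) in
/-- The shift `e j ↦ e (j + 1)`. -/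
def shM : M11 := of fun i j => if i = j + 1 then 1 else 0

/-- The diagonal matrix with entries `ω ^ i ^ 2`. -/
def dqM (ω : F) : M11 := diagonal fun i => ω ^ ((i : ℕ) ^ 2)

variable (F) in
/-- The involution `e j ↦ - e (- j)`. -/
def zM : M11 := of fun i j => if i = -j then -1 else 0

variable (F) in
/-- The multiplier `e j ↦ e (s * j)`. -/
def pmM (s : Fin 11) : M11 := of fun i j => if i = s * j then 1 else 0

/-- The Fourier matrix. -/
def wM (ω : F) : M11 := of fun i j => ω ^ (2 * (i : ℕ) * (j : ℕ))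

variable (F) in
/-- The field conditions. -/
def Fld [Fintype F] (p : ℕ) : Prop :=
  p.Prime ∧ CharP F p ∧ ((Fintype.card F = p ∧ p % 11 = 1) ∨
    (Fintype.card F = p ^ 5 ∧ (p % 11 = 3 ∨ p % 11 = 4 ∨ p % 11 = 5 ∨ p % 11 = 9)))

/-- `M ≤ SL₁₁(F)` contains the clock, the shift and the generators of the Weil representation. -/
structure Std [Fintype F] (p : ℕ) (ω : F) (x y u z w : GL (Fin 11) F)
    (M : Subgroup (GL (Fin 11) F)) : Prop where
  fld : Fld F p
  om : IsPrimitiveRoot ω 11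
  hx : (x : M11) = ckM ω
  hy : (y : M11) = shM F
  hu : (u : M11) = dqM ω
  hz : (z : M11) = zM F
  hw : ∃ γ : F, 11 * γ ^ 2 = -1 ∧ (w : M11) = γ • wM ω
  hh : ∀ s : Fin 11, s ≠ 0 → ∃ h ∈ M, ∃ e : F, e * e = 1 ∧ (h : M11) = e • pmM F s
  xm : x ∈ M
  ym : y ∈ M
  um : u ∈ M
  zm : z ∈ M
  wm : w ∈ M
  sl : M ≤ specialLinear (Fin 11) F

/-- `M` contains an element with matrix `A`. -/
def In (M : Subgroup (GL (Fin 11) F)) (A : M11) : Prop := ∃ g ∈ M, (g : M11) = A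

/-- The elements of `M` commuting with `z`. -/
abbrev Cz (M : Subgroup (GL (Fin 11) F)) (z : GL (Fin 11) F) : Subgroup (GL (Fin 11) F) :=
  M ⊓ Subgroup.centralizer {z}

/-- The elements of `M` commuting with `u` are monomial on each block `⟨e j, e (-j)⟩`. -/
def Mon (M : Subgroup (GL (Fin 11) F)) (u : GL (Fin 11) F) : Prop :=
  ∀ b ∈ M, Commute b u → ∀ j : Fin 11, j ≠ 0 →
    ((b : M11) j (-j) = 0 ∧ (b : M11) (-j) j = 0) ∨ ((b : M11) j j = 0 ∧ (b : M11) (-j) (-j) = 0)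

/-- The coordinates `1, …, 5`. -/
def ix (a : Fin 5) : Fin 11 := ⟨a + 1, by omega⟩

/-- The action on the odd vectors `e j - e (-j)` of a matrix commuting with the involution. -/
def r5 (g : M11) : M5 := of fun a b => g (ix a) (ix b) - g (ix a) (-ix b)

/-- `π` is the action on the odd vectors. -/
def IsP {M : Subgroup (GL (Fin 11) F)} {z : GL (Fin 11) F} (π : ↥(Cz M z) →* GL (Fin 5) F) : Prop :=
  ∀ c : ↥(Cz M z), (π c : M5) = r5 ((c : GL (Fin 11) F) : M11)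

/-- A scalar, or a scalar times the involution. -/
def H0 (g : GL (Fin 11) F) : Prop := ∃ c : F, (g : M11) = c • (1 : M11) ∨ (g : M11) = c • zM F

/-- Only `1` and `z` act trivially on the odd vectors. -/
def KT (M : Subgroup (GL (Fin 11) F)) (z : GL (Fin 11) F) : Prop :=
  ∀ c ∈ Cz M z, r5 (c : M11) = 1 → c = 1 ∨ c = z

/-- Consequences of `Mon`. -/
structure Rig (M : Subgroup (GL (Fin 11) F)) (u z : GL (Fin 11) F) : Prop where
  kk : ∀ c ∈ Cz M z, (∃ a : F, r5 (c : M11) = a • (1 : M5)) → H0 c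
  lf : ∀ c ∈ Cz M z, ∀ g ∈ Cz M z, g ^ 11 = 1 → Commute (r5 (c : M11)) (r5 (g : M11)) → Commute c g
  d11 : ∀ d ∈ M, (d : M11).IsDiag → d ^ 11 = 1
  sq : ∀ c ∈ Cz M z, Commute c u → ((c * c : GL (Fin 11) F) : M11).IsDiag

/-- The elements of `SL₅(F)` induced, up to scalars, on the odd vectors. -/
def X5 {M : Subgroup (GL (Fin 11) F)} {z : GL (Fin 11) F} (π : ↥(Cz M z) →* GL (Fin 5) F) :
    Subgroup (GL (Fin 5) F) :=
  (π.range ⊔ scalars (Fin 5) F) ⊓ specialLinear (Fin 5) F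

/-- Standing hypotheses in dimension five. -/
structure T5 [Fintype F] (X : Subgroup (GL (Fin 5) F)) (u w h : GL (Fin 5) F) : Prop where
  odd : Odd (Fintype.card F)
  nsq : ¬ IsSquare (Fintype.card F)
  ne11 : (11 : F) ≠ 0
  sl : X ≤ specialLinear (Fin 5) F
  um : u ∈ X
  wm : w ∈ X
  hm : h ∈ X
  u11 : u ^ 11 = 1
  ww : w * w = 1
  w1 : w ≠ 1
  fpf : ∀ a : Fin 5 → F, (u : M5) *ᵥ a = a → a = 0
  hu : h * u * h⁻¹ = u ^ 3
  nr : ∀ g ∈ X, g * u * g⁻¹ ≠ u⁻¹
  cen : ∀ g ∈ X, Commute g u → Commute g (w * u * w⁻¹) → g ∈ scalars (Fin 5) F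
  irr : ∀ W : Submodule F (Fin 5 → F), W ≠ ⊥ → W ≠ ⊤ → ¬ X ≤ subspaceStabilizer W
  prim : ∀ D : Fin 5 → Submodule F (Fin 5 → F), IsMDecomposition 1 D →
    ¬ X ≤ decompositionStabilizer D

/-- One class of involutions. -/
def One {G : Type*} [Group G] (X : Subgroup G) : Prop :=
  ∀ a ∈ X, ∀ b ∈ X, a * a = 1 → b * b = 1 → a ≠ 1 → b ≠ 1 → ∃ g ∈ X, g * a * g⁻¹ = b

/-- Extension of scalars followed by a change of basis. -/
def up (F₀ : Subfield F) (P : GL (Fin 5) F) : GL (Fin 5) F₀ →* GL (Fin 5) F :=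
  (MulAut.conj P).toMonoidHom.comp (GeneralLinearGroup.map (F₀.subtype : F₀ →+* F))

end Cfsg.Agent.E11C
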