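/-
Overgroups of the `11^(1+2)` normaliser in `SL₁₁(q)`: shifting, multiplying and averaging
diagonal elements.
-/
import Mathlib
import Cfsg.Agent.E11C.Defs

set_option autoImplicit false

namespace Cfsg.Agent.E11C

open Matrix Cfsg.Geo

variable {F : Type*} [Field F] [Fintype F] {p : ℕ} {ω : F} {x y u z w : GL (Fin 11) F}
  {M : Subgroup (GL (Fin 11) F)}

local notation "M11" => Matrix (Fin 11) (Fin 11) F
local notation "M5" => Matrix (Fin 5) (Fin 5) F

namespace AV

omit [Fintype F] in
theorem conj {A B : M11} (hA : In M A) {g : GL (Fin 11) F} (hg : g ∈ M)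
    (e : A * (g : M11) = (g : M11) * B) : In M B := by
  obtain ⟨a, ha, rfl⟩ := hA
  refine ⟨g⁻¹ * a * g, M.mul_mem (M.mul_mem (M.inv_mem hg) ha) hg, ?_⟩
  rw [Units.val_mul, Units.val_mul, mul_assoc, e, ← mul_assoc, Units.inv_mul, one_mul]

omit [Fintype F] in
theorem prod {ι : Type*} [DecidableEq ι] (S : Finset ι) (f : ι → Fin 11 → F)
    (hf : ∀ s ∈ S, In M (diagonal (f s))) : In M (diagonal fun i => ∏ s ∈ S, f s i) := by
  induction S using Finset.induction_on with
  | empty => exact ⟨1, M.one_mem, by simp⟩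
  | insert a S ha ih =>
    obtain ⟨g, hg, e⟩ := hf a (Finset.mem_insert_self _ _)
    obtain ⟨g', hg', e'⟩ := ih fun s hs => hf s (Finset.mem_insert_of_mem hs)
    refine ⟨g * g', M.mul_mem hg hg', ?_⟩
    rw [Units.val_mul, e, e', diagonal_mul_diagonal]
    congr 1
    funext i
    rw [Finset.prod_insert ha]

theorem shift1 (h : Std p ω x y u z w M) {f : Fin 11 → F} (hf : In M (diagonal f)) :
    In M (diagonal fun i => f (i + 1)) := by
  refine conj hf h.ym ?_
  rw [h.hy]
  ext i j
  rw [diagonal_mul, mul_diagonal, shM, of_apply]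
  split_ifs with hij
  · rw [hij, mul_one, one_mul]
  · rw [mul_zero, zero_mul]

theorem det_one (h : Std p ω x y u z w M) {f : Fin 11 → F} (hf : In M (diagonal f)) :
    ∏ i, f i = 1 := by
  obtain ⟨g, hg, e⟩ := hf
  have h1 : GeneralLinearGroup.det g = 1 := h.sl hg
  have h2 := congrArg Units.val h1
  rw [GeneralLinearGroup.val_det_apply, e, det_diagonal] at h2
  exact h2

theorem mul_inj {i : Fin 11} (hi : i ≠ 0) : Function.Injective fun s : Fin 11 => s * i := by
  revert i
  decide

theorem mul_ne {i : Fin 11} (hi : i ≠ 0) (s : Fin 11) : s * i = 0 ↔ s = 0 := by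
  revert i s
  decide

end AV

theorem Std.shift (h : Std p ω x y u z w M) {f : Fin 11 → F} (hf : In M (diagonal f)) (k : Fin 11) :
    In M (diagonal fun i => f (i + k)) := by
  have key : ∀ n : ℕ, In M (diagonal fun i => f (i + n • (1 : Fin 11))) := by
    intro n
    induction n with
    | zero => simpa using hf
    | succ n ih =>
      have := AV.shift1 h ih
      simpa only [succ_nsmul', add_assoc] using this
  have e : (k : ℕ) • (1 : Fin 11) = k := by
    revert k
    decide
  simpa only [e] using key k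

theorem Std.mult (h : Std p ω x y u z w M) {f : Fin 11 → F} (hf : In M (diagonal f)) {s : Fin 11} (hs : s ≠ 0) :
    In M (diagonal fun i => f (s * i)) := by
  obtain ⟨g, hg, e, -, hge⟩ := h.hh s hs
  refine AV.conj hf hg ?_
  rw [hge]
  ext i j
  rw [diagonal_mul, mul_diagonal, Matrix.smul_apply, pmM, of_apply]
  split_ifs with hij
  · rw [hij, mul_comm]
  · rw [smul_zero, mul_zero, zero_mul]

theorem Std.av (h : Std p ω x y u z w M) {f : Fin 11 → F} (hf : In M (diagonal f)) (a : Fin 11) :
    In M (diagonal fun i => if i = 0 then f a ^ 10 else (f a)⁻¹) := by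
  have hg := h.shift hf a
  have hd := AV.det_one h hg
  have hp := AV.prod (M := M) (Finset.univ.erase (0 : Fin 11)) (fun s i => f (s * i + a))
    fun s hs => h.mult hg (Finset.ne_of_mem_erase hs)
  convert hp using 3 with i
  split_ifs with hi
  · subst hi
    simp
  · have e1 : ∏ s ∈ Finset.univ.erase (0 : Fin 11), f (s * i + a) =
        ∏ j ∈ Finset.univ.erase (0 : Fin 11), f (j + a) := by
      refine Finset.prod_bijective (fun s => s * i)
        (Finite.injective_iff_bijective.1 (AV.mul_inj hi)) (fun s => ?_) fun _ _ => rfl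
      simp [AV.mul_ne hi]
    rw [e1]
    rw [← Finset.mul_prod_erase _ _ (Finset.mem_univ (0 : Fin 11)), zero_add] at hd
    exact (eq_inv_of_mul_eq_one_right hd).symm

end Cfsg.Agent.E11C
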