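/-
Overgroups of the `11^(1+2)` normaliser in `SL₁₁(q)`: basic relations.
-/
import Mathlib
import Cfsg.Agent.E11C.Defs
import Cfsg.Agent.Cl.MaxGroup

set_option autoImplicit false
set_option linter.unusedSectionVars false

namespace Cfsg.Agent.E11C

open Matrix Cfsg.Geo Cfsg.Agent.Cl.Max

variable {F : Type*} [Field F] {ω : F}

local notation "M11" => Matrix (Fin 11) (Fin 11) F
local notation "SL11" => specialLinear (Fin 11) F
local notation "Z11" => scalars (Fin 11) F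

namespace GB

theorem pw (h : ω ^ 11 = 1) {m n : ℕ} (e : m % 11 = n % 11) : ω ^ m = ω ^ n := by
  rw [pow_eq_pow_mod m h, pow_eq_pow_mod n h, e]

theorem pw_inj (h : IsPrimitiveRoot ω 11) {m n : ℕ} (e : ω ^ m = ω ^ n) : m % 11 = n % 11 :=
  h.pow_inj (Nat.mod_lt _ (by norm_num)) (Nat.mod_lt _ (by norm_num))
    (by rw [← pow_eq_pow_mod m h.pow_eq_one, ← pow_eq_pow_mod n h.pow_eq_one, e])

theorem mul_sh (A : M11) (i j : Fin 11) : (A * shM F) i j = A i (j + 1) := by
  simp [shM, mul_apply]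

theorem sh_mul (A : M11) (i j : Fin 11) : (shM F * A) i j = A (i - 1) j := by
  simp [shM, mul_apply, ← sub_eq_iff_eq_add]

theorem mul_z (A : M11) (i j : Fin 11) : (A * zM F) i j = -A i (-j) := by
  simp [zM, mul_apply]

theorem z_mul (A : M11) (i j : Fin 11) : (zM F * A) i j = -A (-i) j := by
  simp [zM, mul_apply, ← neg_eq_iff_eq_neg]

theorem mul_pm (A : M11) (s i j : Fin 11) : (A * pmM F s) i j = A i (s * j) := by
  simp [pmM, mul_apply]

theorem pm_mul (A : M11) {s t : Fin 11} (h : t * s = 1) (i j : Fin 11) :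
    (pmM F s * A) i j = A (t * i) j := by
  have e : ∀ k, i = s * k ↔ t * i = k := fun k =>
    ⟨fun e => by rw [e, ← mul_assoc, h, one_mul],
      fun e => by rw [← e, ← mul_assoc, mul_comm s, h, one_mul]⟩
  simp [pmM, mul_apply, e]

theorem mul_ck (A : M11) (i j : Fin 11) : (A * ckM ω) i j = A i j * ω ^ (j : ℕ) := by
  simp [ckM]

theorem ck_mul (A : M11) (i j : Fin 11) : (ckM ω * A) i j = ω ^ (i : ℕ) * A i j := by
  simp [ckM]

theorem mul_dq (A : M11) (i j : Fin 11) : (A * dqM ω) i j = A i j * ω ^ ((j : ℕ) ^ 2) := by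
  simp [dqM]

theorem dq_mul (A : M11) (i j : Fin 11) : (dqM ω * A) i j = ω ^ ((i : ℕ) ^ 2) * A i j := by
  simp [dqM]

theorem sh_pow_mul (A : M11) (n : ℕ) (i j : Fin 11) :
    (shM F ^ n * A) i j = A (i - Fin.ofNat 11 n) j := by
  induction n generalizing i with
  | zero => simp
  | succ n ih =>
    rw [pow_succ', mul_assoc, sh_mul, ih]
    congr 1
    rw [sub_sub, add_comm]
    congr 1
    ext; simp [Fin.val_add]

theorem ck_pow (n : ℕ) : ckM ω ^ n = diagonal fun i : Fin 11 => ω ^ ((i : ℕ) * n) := by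
  rw [ckM, diagonal_pow]
  congr 1
  ext i
  simp [pow_mul]

theorem ck_sh (h : ω ^ 11 = 1) : ckM ω * shM F = ω • (shM F * ckM ω) := by
  ext i j
  rw [ck_mul, Matrix.smul_apply, mul_ck, smul_eq_mul, shM, of_apply]
  split_ifs with e
  · rw [mul_one, one_mul, ← pow_succ']
    exact pw h (by subst e; revert j; decide)
  · simp

theorem ck_z_ck (h : ω ^ 11 = 1) : ckM ω * zM F * ckM ω = zM F := by
  ext i j
  rw [mul_ck, ck_mul, zM, of_apply]
  split_ifs with e
  · rw [mul_right_comm, ← pow_add, pw h (n := 0) (by subst e; revert j; decide)]; simp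
  · simp

theorem sh_z_sh : shM F * zM F * shM F = zM F := by
  ext i j
  rw [mul_sh, sh_mul, zM, of_apply, of_apply]
  congr 1
  revert i j; decide

theorem z_z : zM F * zM F = 1 := by
  ext i j
  rw [mul_z, zM, of_apply, neg_neg, one_apply]
  split_ifs <;> simp

theorem dq_sh (h : ω ^ 11 = 1) : dqM ω * shM F = ω • (shM F * ckM ω * ckM ω * dqM ω) := by
  ext i j
  rw [dq_mul, Matrix.smul_apply, mul_dq, mul_ck, mul_ck, smul_eq_mul, shM, of_apply]
  split_ifs with e
  · rw [mul_one, one_mul, ← pow_add, ← pow_add, ← pow_succ']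
    exact pw h (by subst e; revert j; decide)
  · simp

theorem dq_ck : dqM ω * ckM ω = ckM ω * dqM ω := by
  rw [dqM, ckM, diagonal_mul_diagonal, diagonal_mul_diagonal]; simp only [mul_comm]

theorem dq_z (h : ω ^ 11 = 1) : dqM ω * zM F = zM F * dqM ω := by
  ext i j
  rw [dq_mul, mul_dq, zM, of_apply]
  split_ifs with e
  · rw [mul_comm, pw h (n := (j : ℕ) ^ 2) (by subst e; revert j; decide)]
  · simp

theorem w_ck (h : ω ^ 11 = 1) : wM ω * ckM ω = shM F ^ 5 * wM ω := by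
  ext i j
  rw [mul_ck, sh_pow_mul, wM, of_apply, of_apply, ← pow_add]
  exact pw h (by revert i j; decide)

theorem w_sh (h : ω ^ 11 = 1) : wM ω * shM F = ckM ω * ckM ω * wM ω := by
  ext i j
  rw [mul_sh, mul_assoc, ck_mul, ck_mul, wM, of_apply, of_apply, ← pow_add, ← pow_add]
  exact pw h (by revert i j; decide)

theorem sum_pow (h : IsPrimitiveRoot ω 11) (n : ℕ) :
    ∑ k : Fin 11, ω ^ (n * (k : ℕ)) = if n % 11 = 0 then 11 else 0 := by
  split_ifs with e
  · rw [Finset.sum_congr rfl fun k _ => pw h.pow_eq_one (n := 0) (by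
      rw [Nat.mul_mod, e]; simp)]
    simp
  · have h1 : IsPrimitiveRoot (ω ^ n) 11 := h.pow_of_coprime n
      (((Nat.Prime.coprime_iff_not_dvd (by norm_num)).2 fun d => e (Nat.mod_eq_zero_of_dvd d)).symm)
    simp only [pow_mul]
    rw [Fin.sum_univ_eq_sum_range (fun k => (ω ^ n) ^ k)]
    exact h1.geom_sum_eq_zero (by norm_num)

theorem w_w (h : IsPrimitiveRoot ω 11) : wM ω * wM ω = (-11 : F) • zM F := by
  ext i j
  rw [mul_apply, Matrix.smul_apply, zM, of_apply]
  have e : ∀ k : Fin 11, wM ω i k * wM ω k j = ω ^ ((2 * (i + j)) * (k : ℕ)) := fun k => by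
    rw [wM, of_apply, of_apply, ← pow_add]; congr 1; ring
  simp only [e]
  rw [sum_pow h]
  have : (2 * ((i : ℕ) + j)) % 11 = 0 ↔ i = -j := by clear e; revert i j; decide
  by_cases h1 : i = -j
  · rw [if_pos (this.2 h1), if_pos h1]; simp
  · rw [if_neg fun e => h1 (this.1 e), if_neg h1]; simp

theorem pm_ck (h : ω ^ 11 = 1) {s t : Fin 11} (e : t * s = 1) :
    pmM F s * ckM ω = ckM ω ^ (t : ℕ) * pmM F s := by
  ext i j
  rw [mul_ck, ck_pow, diagonal_mul, pmM, of_apply]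
  split_ifs with e1
  · rw [mul_one, one_mul]
    exact pw h (by subst e1; revert s t j; decide)
  · simp

theorem pm_sh (s : Fin 11) : pmM F s * shM F = shM F ^ (s : ℕ) * pmM F s := by
  ext i j
  rw [mul_sh, sh_pow_mul, pmM, of_apply, of_apply]
  congr 1
  revert s i j; decide

theorem ck_eleven (h : ω ^ 11 = 1) : ckM ω ^ 11 = 1 := by
  rw [ck_pow, ← diagonal_one]
  congr 1
  ext i
  rw [mul_comm, pow_mul, h, one_pow]

theorem sh_eleven : shM F ^ 11 = 1 := by
  ext i j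
  rw [← mul_one (shM F ^ 11), sh_pow_mul, show Fin.ofNat 11 11 = 0 from rfl, sub_zero]

theorem dq_eleven (h : ω ^ 11 = 1) : dqM ω ^ 11 = 1 := by
  rw [dqM, diagonal_pow, ← diagonal_one]
  congr 1
  ext i
  rw [Pi.pow_apply, ← pow_mul, mul_comm, pow_mul, h, one_pow]

theorem diag_of_ck (h : IsPrimitiveRoot ω 11) {A : M11} (e : A * ckM ω = ckM ω * A) :
    A.IsDiag := fun i j hij => by
  have h1 := congrFun (congrFun e i) j
  rw [mul_ck, ck_mul, mul_comm] at h1
  by_contra h0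
  have := pw_inj h (mul_right_cancel₀ h0 h1)
  exact hij (Fin.ext (by omega))

theorem scalar_of (h : IsPrimitiveRoot ω 11) {A : M11} (e : A * ckM ω = ckM ω * A)
    (e' : A * shM F = shM F * A) : A = A 0 0 • (1 : M11) := by
  have h1 := diag_of_ck h e
  have h2 : ∀ i, A (i + 1) (i + 1) = A i i := fun i => by
    have := congrFun (congrFun e' (i + 1)) i
    rwa [mul_sh, sh_mul, add_sub_cancel_right] at this
  have h3 : ∀ i, A i i = A 0 0 := fun i => by
    induction i using Fin.induction with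
    | zero => rfl
    | succ i ih => rw [← ih, ← h2 i.castSucc, Fin.coeSucc_eq_succ]
  ext i j
  by_cases hij : i = j
  · subst hij; simp [h3]
  · simp [hij, h1 hij]

theorem gen [Fintype F] {p : ℕ} (hF : Fld F p) (h : IsPrimitiveRoot ω 11) (k : Subfield F)
    (hk : ω ∈ k) : k = ⊤ := by
  obtain ⟨hp, hc, h1⟩ := hF
  have := Fact.mk hp
  have h2 : 11 ∣ Nat.card k - 1 := by
    have h3 : IsPrimitiveRoot (⟨ω, hk⟩ : k) 11 :=
      IsPrimitiveRoot.of_map_of_injective (f := k.subtype) h Subtype.val_injective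
    have := Fintype.ofFinite k
    have h4 := FiniteField.pow_card_sub_one_eq_one (⟨ω, hk⟩ : k) (h3.ne_zero (by norm_num))
    rw [Nat.card_eq_fintype_card]
    exact (h3.pow_eq_one_iff_dvd _).1 h4
  have h3 : Nat.card F = Nat.card k ^ Module.finrank k F := Module.natCard_eq_pow_finrank
  have h5 : 1 < Nat.card k := Finite.one_lt_card
  have key : Module.finrank k F = 1 → k = ⊤ := fun e => by
    have := AddSubgroup.eq_top_of_card_eq k.toAddSubgroup (by rw [h3, e, pow_one]; rfl)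
    exact top_unique fun a _ => show a ∈ k.toAddSubgroup from this ▸ trivial
  rw [Nat.card_eq_fintype_card] at h3
  rcases h1 with ⟨h4, -⟩ | ⟨h4, h6⟩
  · exact key ((Nat.Prime.pow_eq_iff hp).1 (h3.symm.trans h4)).2
  · obtain ⟨d, -, hd⟩ := (Nat.dvd_prime_pow hp).1 (show Nat.card k ∣ p ^ 5 from by
      rw [← h4, h3]; exact dvd_pow_self _ Module.finrank_pos.ne')
    rw [h4, hd, ← pow_mul] at h3
    have h7 := Nat.pow_right_injective hp.two_le h3
    rcases (Nat.dvd_prime Nat.prime_five).1 (Dvd.intro _ h7.symm) with e | e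
    · rw [hd, e, pow_one] at h2
      have := hp.two_le
      omega
    · exact key (by rw [e] at h7; omega)

variable {x y g : GL (Fin 11) F}

theorem sc_comm (c : Fˣ) (g : GL (Fin 11) F) : sc (Fin 11) c * g = g * sc (Fin 11) c :=
  mul_comm_of_mem_scalars (sc_mem c) g

theorem conj_scalar (hg : g ∈ Z11) (a : GL (Fin 11) F) : a * g * a⁻¹ ∈ Z11 := by
  rwa [conj_of_mem_scalars hg]

theorem x11 (h : ω ^ 11 = 1) (hx : (x : M11) = ckM ω) : x ^ 11 = 1 :=
  Units.ext (by rw [Units.val_pow_eq_pow_val, hx, ck_eleven h, Units.val_one])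

theorem y11 (hy : (y : M11) = shM F) : y ^ 11 = 1 :=
  Units.ext (by rw [Units.val_pow_eq_pow_val, hy, sh_eleven, Units.val_one])

theorem coe_comm (h : ω ^ 11 = 1) (hx : (x : M11) = ckM ω) (hy : (y : M11) = shM F) :
    ((x * y * x⁻¹ * y⁻¹ : GL (Fin 11) F) : M11) = ω • (1 : M11) := by
  rw [mul_assoc, ← _root_.mul_inv_rev, Units.val_mul, Units.val_mul, hx, hy, ck_sh h, ← hx, ← hy,
    ← Units.val_mul, smul_mul_assoc, Units.mul_inv]

theorem comm_mem (h : ω ^ 11 = 1) (hx : (x : M11) = ckM ω) (hy : (y : M11) = shM F) :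
    x * y * x⁻¹ * y⁻¹ ∈ Z11 := mem_scalars_of_eq_smul (coe_comm h hx hy)

theorem pow_of_sl (hg : g ∈ Z11) (hs : g ∈ SL11) : g ^ 11 = 1 := by
  obtain ⟨c, -, hc⟩ := coe_eq_smul_of_mem_scalars hg
  rw [mem_specialLinear_iff, hc, det_smul, det_one, mul_one, Fintype.card_fin] at hs
  exact Units.ext (by rw [Units.val_pow_eq_pow_val, hc, smul_pow, hs]; simp)

/-- A scalar of exponent eleven is a power of the commutator. -/
theorem eq_comm_pow (h : IsPrimitiveRoot ω 11) (hx : (x : M11) = ckM ω) (hy : (y : M11) = shM F)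
    (hg : g ∈ Z11) (h11 : g ^ 11 = 1) : ∃ k < 11, g = (x * y * x⁻¹ * y⁻¹) ^ k := by
  obtain ⟨c, -, hc⟩ := coe_eq_smul_of_mem_scalars hg
  have h1 := congrArg (fun a : GL (Fin 11) F => (a : M11) 0 0) h11
  simp only [Units.val_pow_eq_pow_val, hc, smul_pow, one_pow, Units.val_one, Matrix.smul_apply,
    one_apply_eq, smul_eq_mul, mul_one] at h1
  obtain ⟨k, hk, e⟩ := h.eq_pow_of_pow_eq_one h1
  exact ⟨k, hk, Units.ext (by
    rw [Units.val_pow_eq_pow_val, coe_comm h.pow_eq_one hx hy, smul_pow, one_pow, e, hc])⟩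

theorem sc_mem_R (h : IsPrimitiveRoot ω 11) (hx : (x : M11) = ckM ω) (hy : (y : M11) = shM F)
    (hg : g ∈ Z11) (h11 : g ^ 11 = 1) : g ∈ Subgroup.closure {x, y} := by
  obtain ⟨k, -, rfl⟩ := eq_comm_pow h hx hy hg h11
  have a : x ∈ Subgroup.closure {x, y} := Subgroup.subset_closure (by simp)
  have b : y ∈ Subgroup.closure {x, y} := Subgroup.subset_closure (by simp)
  exact pow_mem (mul_mem (mul_mem (mul_mem a b) (inv_mem a)) (inv_mem b)) k

theorem mem_sc_of (h : IsPrimitiveRoot ω 11) (hx : (x : M11) = ckM ω) (hy : (y : M11) = shM F)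
    (e : g * x = x * g) (e' : g * y = y * g) : g ∈ Z11 :=
  mem_scalars_of_eq_smul (scalar_of h (by rw [← hx, ← Units.val_mul, e, Units.val_mul])
    (by rw [← hy, ← Units.val_mul, e', Units.val_mul]))

theorem x_ns (h : IsPrimitiveRoot ω 11) (hx : (x : M11) = ckM ω) {n : ℕ} (hn : n % 11 ≠ 0) :
    x ^ n ∉ Z11 := fun e => by
  obtain ⟨c, -, hc⟩ := coe_eq_smul_of_mem_scalars e
  rw [Units.val_pow_eq_pow_val, hx, ck_pow] at hc
  have h0 := congrFun (congrFun hc 0) 0
  have h1 := congrFun (congrFun hc 1) 1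
  simp only [diagonal_apply_eq, Matrix.smul_apply, one_apply_eq] at h0 h1
  have := pw_inj h (h1.trans h0.symm)
  simp at this
  omega

theorem comm_pow11 {a : GL (Fin 11) F} (h : g * a * g⁻¹ * a⁻¹ ∈ Z11) (ha : a ^ 11 = 1) :
    (g * a * g⁻¹ * a⁻¹) ^ 11 = 1 := by
  have h1 : (g * a * g⁻¹ * a⁻¹ * a) ^ 11 = 1 := by
    rw [inv_mul_cancel_right, conj_pow, ha, mul_one, mul_inv_cancel]
  rwa [Commute.mul_pow (mul_comm_of_mem_scalars h a), ha, mul_one] at h1

/-- An element centralising the Heisenberg group modulo scalars. -/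
theorem exists_mul (h : IsPrimitiveRoot ω 11) (hx : (x : M11) = ckM ω) (hy : (y : M11) = shM F)
    (e : g * x * g⁻¹ * x⁻¹ ∈ Z11) (e' : g * y * g⁻¹ * y⁻¹ ∈ Z11) :
    ∃ i j : ℕ, (x ^ i)⁻¹ * (y ^ j * g) ∈ Z11 := by
  have hc := comm_mem h.pow_eq_one hx hy
  obtain ⟨j, -, hj⟩ := eq_comm_pow h hx hy e (comm_pow11 e (x11 h.pow_eq_one hx))
  obtain ⟨i, -, hi⟩ := eq_comm_pow h hx hy e' (comm_pow11 e' (y11 hy))
  generalize hcc : x * y * x⁻¹ * y⁻¹ = c at hc hi hj
  have cc : ∀ (n : ℕ) a, c ^ n * a = a * c ^ n := fun n => mul_comm_of_mem_scalars (pow_mem hc n)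
  have r1 : x * y = c * (y * x) := by rw [← hcc]; group
  have r2 : ∀ n : ℕ, x * y ^ n = c ^ n * (y ^ n * x) := fun n => by
    induction n with
    | zero => simp
    | succ n ih =>
      rw [pow_succ, ← mul_assoc, ih, mul_assoc, mul_assoc, r1, pow_succ, ← mul_assoc (y ^ n),
        ← pow_one c, ← cc, pow_one]
      simp only [mul_assoc]
  have r3 : ∀ n : ℕ, x ^ n * y = c ^ n * (y * x ^ n) := fun n => by
    induction n with
    | zero => simp
    | succ n ih =>
      rw [pow_succ', mul_assoc, ih, ← mul_assoc, ← cc, mul_assoc, ← mul_assoc x, r1, pow_succ]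
      simp only [mul_assoc]
  have g1 : g * x = c ^ j * (x * g) := by rw [← hj]; group
  have g2 : g * y = c ^ i * (y * g) := by rw [← hi]; group
  refine ⟨i, j, mem_sc_of h hx hy ?_ ?_⟩
  · have : y ^ j * g * x = x * (y ^ j * g) := by
      rw [mul_assoc, g1, ← mul_assoc x, r2, ← mul_assoc, ← cc]
      simp only [mul_assoc]
    rw [mul_assoc, this]
    group
  · rw [mul_assoc, inv_mul_eq_iff_eq_mul, ← mul_assoc (x ^ i), r3, mul_assoc (y ^ j), g2,
      ← mul_assoc, ← cc]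
    group

theorem mem_R (h : IsPrimitiveRoot ω 11) (hx : (x : M11) = ckM ω) (hy : (y : M11) = shM F)
    (hx1 : x ∈ SL11) (hy1 : y ∈ SL11) (hg : g ∈ SL11)
    (e : g * x * g⁻¹ * x⁻¹ ∈ Z11) (e' : g * y * g⁻¹ * y⁻¹ ∈ Z11) :
    g ∈ Subgroup.closure {x, y} := by
  obtain ⟨i, j, h1⟩ := exists_mul h hx hy e e'
  have a : x ∈ Subgroup.closure {x, y} := Subgroup.subset_closure (by simp)
  have b : y ∈ Subgroup.closure {x, y} := Subgroup.subset_closure (by simp)
  have h2 := sc_mem_R h hx hy h1 (pow_of_sl h1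
    (mul_mem (inv_mem (pow_mem hx1 i)) (mul_mem (pow_mem hy1 j) hg)))
  rwa [Subgroup.mul_mem_cancel_left _ (inv_mem (pow_mem a i)),
    Subgroup.mul_mem_cancel_left _ (pow_mem b j)] at h2

end GB

open GB

namespace Std

variable [Fintype F] {p : ℕ} {x y u z w : GL (Fin 11) F} {M : Subgroup (GL (Fin 11) F)}
  (h : Std p ω x y u z w M)
include h

theorem o11 : ω ^ 11 = 1 := h.om.pow_eq_one

theorem g_xy : ((x * y * x⁻¹ * y⁻¹ : GL (Fin 11) F) : M11) = ω • (1 : M11) :=
  coe_comm h.o11 h.hx h.hy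

theorem g_zz : z * z = 1 := Units.ext (by rw [Units.val_mul, h.hz, z_z, Units.val_one])

theorem g_zx : z * x * z⁻¹ = x⁻¹ := by
  have : x * z * x = z :=
    Units.ext (by rw [Units.val_mul, Units.val_mul, h.hz, h.hx, ck_z_ck h.o11])
  rw [mul_inv_eq_iff_eq_mul, eq_inv_mul_iff_mul_eq, ← mul_assoc, this]

theorem g_zy : z * y * z⁻¹ = y⁻¹ := by
  have : y * z * y = z := Units.ext (by rw [Units.val_mul, Units.val_mul, h.hz, h.hy, sh_z_sh])
  rw [mul_inv_eq_iff_eq_mul, eq_inv_mul_iff_mul_eq, ← mul_assoc, this]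

theorem g_ux : u * x = x * u :=
  Units.ext (by rw [Units.val_mul, Units.val_mul, h.hu, h.hx, dq_ck])

theorem g_uz : u * z = z * u :=
  Units.ext (by rw [Units.val_mul, Units.val_mul, h.hu, h.hz, dq_z h.o11])

theorem g_uy : u * y = x * y * x⁻¹ * y⁻¹ * (y * x * x * u) :=
  Units.ext (by
    rw [Units.val_mul (x * y * x⁻¹ * y⁻¹), h.g_xy]
    simp only [Units.val_mul, h.hu, h.hx, h.hy, dq_sh h.o11, smul_mul_assoc, one_mul])

theorem g_wx : w * x = y ^ 5 * w := by
  obtain ⟨γ, -, e⟩ := h.hw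
  exact Units.ext (by
    rw [Units.val_mul, Units.val_mul, Units.val_pow_eq_pow_val, e, h.hx, h.hy, smul_mul_assoc,
      mul_smul_comm, w_ck h.o11])

theorem g_wy : w * y = x * x * w := by
  obtain ⟨γ, -, e⟩ := h.hw
  exact Units.ext (by
    rw [Units.val_mul, Units.val_mul, Units.val_mul, e, h.hx, h.hy, smul_mul_assoc,
      mul_smul_comm, w_sh h.o11])

theorem g_ww : w * w = z := by
  obtain ⟨γ, e0, e⟩ := h.hw
  refine Units.ext ?_
  rw [Units.val_mul, e, smul_mul_smul_comm, w_w h.om, smul_smul, h.hz,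
    show γ * γ * -11 = 1 by linear_combination -e0, one_smul]

theorem g_x11 : x ^ 11 = 1 := x11 h.o11 h.hx

theorem g_y11 : y ^ 11 = 1 := y11 h.hy

theorem g_u11 : u ^ 11 = 1 :=
  Units.ext (by rw [Units.val_pow_eq_pow_val, h.hu, dq_eleven h.o11, Units.val_one])

theorem g_gen (k : Subfield F) (hk : ω ∈ k) : k = ⊤ := gen h.fld h.om k hk

theorem g_two : (2 : F) ≠ 0 := fun e => by
  obtain ⟨hp, hc, h1⟩ := h.fld
  have := (Nat.prime_dvd_prime_iff_eq hp Nat.prime_two).1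
    ((CharP.cast_eq_zero_iff F p 2).1 (by exact_mod_cast e))
  omega

theorem g_z1 : z ≠ 1 := fun e => by
  have := congrArg (fun a : GL (Fin 11) F => (a : M11) 1 1) e
  simp [h.hz, zM, show (1 : Fin 11) ≠ -1 by decide] at this

theorem g_diag {g : GL (Fin 11) F} (e : g * x = x * g) : (g : M11).IsDiag :=
  diag_of_ck h.om (by rw [← h.hx, ← Units.val_mul, e, Units.val_mul])

theorem g_sc {g : GL (Fin 11) F} (e : g * x = x * g) (e' : g * y = y * g) : g ∈ Z11 :=
  mem_sc_of h.om h.hx h.hy e e'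

theorem g_memR {g : GL (Fin 11) F} (hg : g ∈ SL11) (e : g * x * g⁻¹ * x⁻¹ ∈ Z11)
    (e' : g * y * g⁻¹ * y⁻¹ ∈ Z11) : g ∈ Subgroup.closure {x, y} :=
  mem_R h.om h.hx h.hy (h.sl h.xm) (h.sl h.ym) hg e e'

theorem g_mono {M' : Subgroup (GL (Fin 11) F)} (h1 : M ≤ M') (h2 : M' ≤ SL11) :
    Std p ω x y u z w M' :=
  ⟨h.fld, h.om, h.hx, h.hy, h.hu, h.hz, h.hw,
    fun s hs => let ⟨g, hg, e⟩ := h.hh s hs; ⟨g, h1 hg, e⟩,
    h1 h.xm, h1 h.ym, h1 h.um, h1 h.zm, h1 h.wm, h2⟩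

end Std

end Cfsg.Agent.E11C
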