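/-
Overgroups of the `11^(1+2)` normaliser in `SL₁₁(q)`: basic facts (plan in stubs/Cfsg/Agent/E11C/PLAN.md, section Bas).
-/
import Mathlib
import Cfsg.Agent.E11C.Defs
import Cfsg.Agent.E11C.GB

set_option autoImplicit false
set_option linter.unusedVariables false

namespace Cfsg.Agent.E11C

open Matrix Cfsg.Geo

variable {F : Type*} [Field F] [Fintype F] {p : ℕ} {ω : F} {x y u z w : GL (Fin 11) F}
  {M : Subgroup (GL (Fin 11) F)}

local notation "M11" => Matrix (Fin 11) (Fin 11) F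
local notation "M5" => Matrix (Fin 5) (Fin 5) F

theorem Std.gen (h : Std p ω x y u z w M) (k : Subfield F) (hk : ω ∈ k) : k = ⊤ := h.g_gen k hk

theorem Std.p_ne_two (h : Std p ω x y u z w M) : p ≠ 2 := by
  rintro rfl
  rcases h.fld.2.2 with ⟨-, e⟩ | ⟨-, e⟩ <;> omega

theorem Std.two_ne (h : Std p ω x y u z w M) : (2 : F) ≠ 0 := h.g_two

theorem Std.eleven_ne (h : Std p ω x y u z w M) : (11 : F) ≠ 0 := by
  obtain ⟨γ, e, -⟩ := h.hw
  intro h0
  rw [h0, zero_mul, eq_comm, neg_eq_zero] at e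
  exact one_ne_zero e

theorem Std.zz (h : Std p ω x y u z w M) : z * z = 1 := h.g_zz

theorem Std.z_ne (h : Std p ω x y u z w M) (c : F) : zM F ≠ c • (1 : M11) := fun e => by
  have h1 := congrFun (congrFun e 1) (-1)
  rw [zM, of_apply, if_pos (neg_neg _).symm, Matrix.smul_apply, one_apply_ne (by decide), smul_zero,
    neg_eq_zero] at h1
  exact one_ne_zero h1

theorem Std.ww (h : Std p ω x y u z w M) : w * w = z := h.g_ww
theorem Std.x11 (h : Std p ω x y u z w M) : x ^ 11 = 1 := h.g_x11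
theorem Std.y11 (h : Std p ω x y u z w M) : y ^ 11 = 1 := h.g_y11
theorem Std.u11 (h : Std p ω x y u z w M) : u ^ 11 = 1 := h.g_u11
theorem Std.zx (h : Std p ω x y u z w M) : z * x * z⁻¹ = x⁻¹ := h.g_zx
theorem Std.zy (h : Std p ω x y u z w M) : z * y * z⁻¹ = y⁻¹ := h.g_zy

theorem Std.comm_z (h : Std p ω x y u z w M) (g : GL (Fin 11) F) :
    Commute g z ↔ ∀ i j, (g : M11) (-i) (-j) = (g : M11) i j := by
  rw [Commute, SemiconjBy, Units.ext_iff, Units.val_mul, Units.val_mul, h.hz]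
  constructor
  · intro e i j
    have h1 := congrFun (congrFun e (-i)) j
    rwa [GB.mul_z, GB.z_mul, neg_neg, neg_inj] at h1
  · intro e
    ext i j
    rw [GB.mul_z, GB.z_mul, ← e i (-j), neg_neg]

theorem Std.mem_cz (h : Std p ω x y u z w M) (g : GL (Fin 11) F) :
    g ∈ Cz M z ↔ g ∈ M ∧ ∀ i j, (g : M11) (-i) (-j) = (g : M11) i j := by
  rw [Subgroup.mem_inf, Subgroup.mem_centralizer_singleton_iff, ← h.comm_z]
  rfl

theorem Std.u_cz (h : Std p ω x y u z w M) : u ∈ Cz M z :=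
  ⟨h.um, Subgroup.mem_centralizer_singleton_iff.2 h.g_uz⟩

theorem Std.w_cz (h : Std p ω x y u z w M) : w ∈ Cz M z :=
  ⟨h.wm, Subgroup.mem_centralizer_singleton_iff.2 (by rw [← h.ww, mul_assoc])⟩

theorem Std.z_cz (h : Std p ω x y u z w M) : z ∈ Cz M z :=
  ⟨h.zm, Subgroup.mem_centralizer_singleton_iff.2 rfl⟩

theorem Std.comm_u (h : Std p ω x y u z w M) (b : GL (Fin 11) F) :
    Commute b u ↔ ∀ i j, j ≠ i → j ≠ -i → (b : M11) i j = 0 := by
  have k : ∀ i j : Fin 11, (j : ℕ) ^ 2 % 11 = (i : ℕ) ^ 2 % 11 ↔ j = i ∨ j = -i := by decide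
  rw [Commute, SemiconjBy, Units.ext_iff, Units.val_mul, Units.val_mul, h.hu]
  constructor
  · intro e i j h1 h2
    have h3 := congrFun (congrFun e i) j
    rw [GB.mul_dq, GB.dq_mul, mul_comm] at h3
    by_contra h0
    exact ((k i j).1 (GB.pw_inj h.om (mul_right_cancel₀ h0 h3))).elim h1 h2
  · intro e
    ext i j
    rw [GB.mul_dq, GB.dq_mul, mul_comm]
    by_cases h1 : j = i ∨ j = -i
    · rw [GB.pw h.o11 ((k i j).2 h1)]
    · rw [e i j (fun a => h1 (.inl a)) fun a => h1 (.inr a), mul_zero, mul_zero]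

theorem Std.scal (h : Std p ω x y u z w M) {g : GL (Fin 11) F} (hg : g ∈ M) {c : F}
    (hc : (g : M11) = c • (1 : M11) ∨ (g : M11) = c • zM F) : c ^ 11 = 1 := by
  have h1 := (Cl.Max.mem_specialLinear_iff _).1 (h.sl hg)
  have h2 := (Cl.Max.mem_specialLinear_iff _).1 (h.sl h.zm)
  rw [h.hz] at h2
  rcases hc with e | e
  · rwa [e, det_smul, det_one, mul_one, Fintype.card_fin] at h1
  · rwa [e, det_smul, h2, mul_one, Fintype.card_fin] at h1

theorem Std.h0_comm (h : Std p ω x y u z w M) {k : GL (Fin 11) F} (hk : H0 k) {c : GL (Fin 11) F} (hc : c ∈ Cz M z) :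
    Commute k c := by
  have h1 := Subgroup.mem_centralizer_singleton_iff.1 hc.2
  rw [Units.ext_iff, Units.val_mul, Units.val_mul, h.hz] at h1
  rw [Commute, SemiconjBy, Units.ext_iff, Units.val_mul, Units.val_mul]
  obtain ⟨a, e | e⟩ := hk
  · rw [e, smul_mul_assoc, mul_smul_comm, one_mul, mul_one]
  · rw [e, smul_mul_assoc, mul_smul_comm, h1]

theorem Std.sum_u (h : Std p ω x y u z w M) :
    ∑ i : Fin 11, ω ^ (9 * (i : ℕ)) • ((u ^ (i : ℕ) : GL (Fin 11) F) : M11) = 0 := by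
  ext a b
  simp only [Matrix.sum_apply, Matrix.smul_apply, Units.val_pow_eq_pow_val, h.hu, dqM, diagonal_pow,
    diagonal_apply, Pi.pow_apply, smul_eq_mul, Matrix.zero_apply]
  split_ifs with e
  · simp only [← pow_mul, ← pow_add, ← add_mul]
    rw [GB.sum_pow h.om, if_neg (by clear e; revert a; decide)]
  · simp

end Cfsg.Agent.E11C
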