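/-
A fixed point free element of order `11` of `GL₅(p)` has a large centraliser in `SL₅(p)`.
-/
import Mathlib
import Cfsg.Agent.E11C.Defs

set_option autoImplicit false

namespace Cfsg.Agent.E11C

open Matrix Cfsg.Geo

variable {F : Type*} [Field F] [Fintype F] {X : Subgroup (GL (Fin 5) F)} {u w h : GL (Fin 5) F}

local notation "M5" => Matrix (Fin 5) (Fin 5) F

namespace BigP

theorem irr {p : ℕ} (hc : Fintype.card F = p)
    (h11 : p % 11 = 3 ∨ p % 11 = 4 ∨ p % 11 = 5 ∨ p % 11 = 9) (u11 : u ^ 11 = 1)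
    (fpf : ∀ a : Fin 5 → F, (u : M5) *ᵥ a = a → a = 0) (W : Submodule F (Fin 5 → F))
    (hW : ∀ v ∈ W, (u : M5) *ᵥ v ∈ W) : W = ⊥ ∨ W = ⊤ := by
  classical
  haveI : Fact (Nat.Prime 11) := ⟨by norm_num⟩
  haveI : Fintype W := Fintype.ofFinite W
  let f : Function.End W := fun v => ⟨(u : M5) *ᵥ v, hW v v.2⟩
  have hf : ∀ (n : ℕ) (v : W), ((f ^ n) v : Fin 5 → F) = ((u ^ n : GL (Fin 5) F) : M5) *ᵥ v := by
    intro n
    induction n with
    | zero => intro v; simp; rfl
    | succ n ih =>
      intro v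
      rw [pow_succ, pow_succ, Units.val_mul, ← mulVec_mulVec]
      exact ih (f v)
  have h1 : f ^ 11 ^ 1 = 1 := by
    funext v
    apply Subtype.ext
    rw [pow_one, hf, u11]
    simp
    rfl
  have h2 := Equiv.Perm.card_fixedPoints_modEq h1
  have h3 : Fintype.card (Function.fixedPoints f) = 1 := by
    rw [Fintype.card_eq_one_iff]
    refine ⟨⟨0, Subtype.ext (by simp [f])⟩, fun v => Subtype.ext (Subtype.ext ?_)⟩
    exact fpf _ (congrArg Subtype.val v.2)
  rw [h3, Module.card_eq_pow_finrank (K := F), hc] at h2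
  have h4 : Module.finrank F W ≤ 5 := by simpa using W.finrank_le
  generalize hd : Module.finrank F W = d at h2 h4
  rw [Nat.ModEq, Nat.pow_mod] at h2
  have h5 : d = 0 ∨ d = 5 := by
    rcases h11 with e | e | e | e <;> rw [e] at h2 <;> interval_cases d <;> simp_all
  rcases h5 with rfl | rfl
  · exact Or.inl (Submodule.finrank_eq_zero.1 hd)
  · exact Or.inr (Submodule.eq_top_of_finrank_eq (by simpa using hd))

end BigP

theorem exists_big {p : ℕ} (hp : p.Prime) (hc : Fintype.card F = p)
    (h11 : p % 11 = 3 ∨ p % 11 = 4 ∨ p % 11 = 5 ∨ p % 11 = 9) (u11 : u ^ 11 = 1)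
    (fpf : ∀ a : Fin 5 → F, (u : M5) *ᵥ a = a → a = 0) :
    ∃ a ∈ specialLinear (Fin 5) F, Commute a u ∧ a ^ 110 ≠ 1 := by
  classical
  have irr := BigP.irr hc h11 u11 fpf
  let K : Subalgebra F M5 := Algebra.adjoin F {(u : M5)}
  have uK : (u : M5) ∈ K := Algebra.subset_adjoin rfl
  have comm : ∀ a b : K, (a : M5) * b = b * a := fun a b => congrArg Subtype.val (mul_comm a b)
  have unit : ∀ a : K, a ≠ 0 → IsUnit (a : M5) := fun a ha => by
    rcases irr (LinearMap.ker (Matrix.mulVecLin (a : M5))) (fun v hv => by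
      rw [LinearMap.mem_ker, mulVecLin_apply] at hv ⊢
      rw [mulVec_mulVec, comm a ⟨u, uK⟩, ← mulVec_mulVec, hv, mulVec_zero]) with e | e
    · exact mulVec_injective_iff_isUnit.1 (LinearMap.ker_eq_bot.1 e)
    · refine (ha (Subtype.ext (Matrix.ext_of_mulVec_single fun i => ?_))).elim
      have : Pi.single i (1 : F) ∈ LinearMap.ker (Matrix.mulVecLin (a : M5)) := e ▸ Submodule.mem_top
      rw [LinearMap.mem_ker, mulVecLin_apply] at this
      rw [this]
      exact (zero_mulVec _).symm
  haveI : NoZeroDivisors K := ⟨fun {a b} e => by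
    by_contra hn
    push Not at hn
    have := (unit a hn.1).mul (unit b hn.2)
    rw [← Subalgebra.coe_mul, e] at this
    exact not_isUnit_zero this⟩
  haveI : IsDomain K := NoZeroDivisors.to_isDomain K
  haveI : Fintype K := Fintype.ofFinite K
  -- the algebra has at least `p ^ 5` elements
  have hK : p ^ 5 ≤ Fintype.card K := by
    let e : Fin 5 → F := Pi.single 0 1
    let φ : K →ₗ[F] (Fin 5 → F) :=
      { toFun := fun a => (a : M5) *ᵥ e
        map_add' := fun a b => by rw [Subalgebra.coe_add, add_mulVec]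
        map_smul' := fun c a => by simp [smul_mulVec] }
    rcases irr (LinearMap.range φ) (by
      rintro _ ⟨a, rfl⟩
      exact ⟨⟨u, uK⟩ * a, by simp [φ]⟩) with c | c
    · have : e ∈ LinearMap.range φ := ⟨1, by simp [φ]⟩
      rw [c, Submodule.mem_bot] at this
      simpa [e] using congrFun this 0
    · have := Fintype.card_le_of_surjective φ (LinearMap.range_eq_top.1 c)
      simpa [hc] using this
  have p3 : 3 ≤ p := by
    have := hp.two_le
    omega
  obtain ⟨y, -, hy⟩ := Finset.exists_lt_card_fiber_of_mul_lt_card_of_maps_to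
    (s := (Finset.univ : Finset K).erase 0) (t := (Finset.univ : Finset F).erase 0)
    (f := fun a => (a : M5).det) (n := 110)
    (fun a ha => by
      have := (Matrix.isUnit_iff_isUnit_det _).1 (unit a (Finset.ne_of_mem_erase ha))
      simpa using this.ne_zero)
    (by
      rw [Finset.card_erase_of_mem (Finset.mem_univ _), Finset.card_erase_of_mem (Finset.mem_univ _),
        Finset.card_univ, Finset.card_univ, hc]
      obtain ⟨q, rfl⟩ : ∃ q, p = q + 3 := ⟨p - 3, by omega⟩
      have : (q + 2) * 110 + 1 < (q + 3) ^ 5 := by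
        have : (q + 3) ^ 5 = q ^ 5 + 15 * q ^ 4 + 90 * q ^ 3 + 270 * q ^ 2 + 405 * q + 243 := by ring
        omega
      have e : q + 3 - 1 = q + 2 := rfl
      rw [e]
      omega)
  set T : Finset K := ((Finset.univ : Finset K).erase 0).filter fun a : K => (a : M5).det = y
    with hT
  obtain ⟨b, hb⟩ : T.Nonempty := Finset.card_pos.1 (by omega)
  have mem : ∀ a ∈ T, a ≠ 0 ∧ (a : M5).det = y := fun a ha =>
    ⟨Finset.ne_of_mem_erase (Finset.mem_filter.1 ha).1, (Finset.mem_filter.1 ha).2⟩
  obtain ⟨a, ha, hab⟩ : ∃ a ∈ T, a ^ 110 ≠ b ^ 110 := by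
    by_contra hn
    push Not at hn
    have h1 : T ⊆ (Polynomial.nthRoots 110 (b ^ 110)).toFinset := fun a ha => by
      rw [Multiset.mem_toFinset, Polynomial.mem_nthRoots (by norm_num)]
      exact hn a ha
    have := (Finset.card_le_card h1).trans ((Multiset.toFinset_card_le _).trans
      (Polynomial.card_nthRoots _ _))
    omega
  obtain ⟨a', ea⟩ := unit a (mem a ha).1
  obtain ⟨b', eb⟩ := unit b (mem b hb).1
  have ca : Commute a' u := Units.ext (by
    rw [Units.val_mul, Units.val_mul, ea]; exact comm a ⟨u, uK⟩)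
  have cb : Commute b' u := Units.ext (by
    rw [Units.val_mul, Units.val_mul, eb]; exact comm b ⟨u, uK⟩)
  have cab : Commute a' b' := Units.ext (by
    rw [Units.val_mul, Units.val_mul, ea, eb]; exact comm a b)
  refine ⟨a' * b'⁻¹, ?_, ca.mul_left cb.inv_left, fun c => hab (Subtype.ext ?_)⟩
  · rw [specialLinear, MonoidHom.mem_ker, map_mul, map_inv, mul_inv_eq_one]
    apply Units.ext
    rw [GeneralLinearGroup.val_det_apply, GeneralLinearGroup.val_det_apply, ea, eb,
      (mem a ha).2, (mem b hb).2]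
  · rw [cab.inv_right.mul_pow, inv_pow, mul_inv_eq_one] at c
    have c' := congrArg Units.val c
    rw [Units.val_pow_eq_pow_val, Units.val_pow_eq_pow_val, ea, eb] at c'
    exact (SubmonoidClass.coe_pow a 110).trans (c'.trans (SubmonoidClass.coe_pow b 110).symm)

end Cfsg.Agent.E11C
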