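/-
Overgroups of the `11^(1+2)` normaliser in `SL₁₁(q)`: the action on the odd vectors.
-/
import Mathlib
import Cfsg.Agent.E11C.Defs
import Cfsg.Agent.E11C.Bas

set_option autoImplicit false

namespace Cfsg.Agent.E11C

open Matrix Cfsg.Geo

variable {F : Type*} [Field F] [Fintype F] {p : ℕ} {ω : F} {x y u z w : GL (Fin 11) F}
  {M : Subgroup (GL (Fin 11) F)}

local notation "M11" => Matrix (Fin 11) (Fin 11) F
local notation "M5" => Matrix (Fin 5) (Fin 5) F

namespace R5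

theorem ix_eq (a b : Fin 5) : ix a = ix b ↔ a = b := by revert a b; decide

theorem ix_ne (a b : Fin 5) : ix a ≠ -ix b := by revert a b; decide

omit [Fintype F] in
theorem split (f : Fin 11 → F) :
    ∑ m, f m = f 0 + ∑ c : Fin 5, (f (ix c) + f (-ix c)) := by
  rw [Fin.sum_univ_five]
  simp only [Fin.sum_univ_succ, Fin.sum_univ_zero]
  show f 0 + (f 1 + (f 2 + (f 3 + (f 4 + (f 5 + (f 6 + (f 7 + (f 8 + (f 9 + (f 10 + 0)))))))))) =
    f 0 + (f 1 + f 10 + (f 2 + f 9) + (f 3 + f 8) + (f 4 + f 7) + (f 5 + f 6))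
  ring

omit [Fintype F] in
theorem pm_left {s t : Fin 11} (hst : ∀ i m : Fin 11, i = s * m ↔ m = t * i) (A : M11)
    (i k : Fin 11) : (pmM F s * A) i k = A (t * i) k := by
  simp [pmM, mul_apply, hst]

omit [Fintype F] in
theorem pm_right (s : Fin 11) (A : M11) (i k : Fin 11) : (A * pmM F s) i k = A i (s * k) := by
  simp [pmM, mul_apply]

omit [Fintype F] in
theorem pm_neg (s : Fin 11) (i j : Fin 11) : pmM F s (-i) (-j) = pmM F s i j := by
  have : -i = s * -j ↔ i = s * j := by revert s i j; decide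
  simp only [pmM, of_apply, this]

omit [Fintype F] in
theorem pw (hω : IsPrimitiveRoot ω 11) {a b : ℕ} (h : a % 11 = b % 11) : ω ^ a = ω ^ b := by
  rw [pow_eq_pow_mod a hω.pow_eq_one, pow_eq_pow_mod b hω.pow_eq_one, h]

end R5

omit [Fintype F] in
theorem r5_one : r5 (1 : M11) = 1 := by
  ext a b
  simp [r5, one_apply, R5.ix_eq, R5.ix_ne]

omit [Fintype F] in
theorem r5_smul (c : F) (g : M11) : r5 (c • g) = c • r5 g := by
  ext a b
  simp [r5, mul_sub]

omit [Fintype F] in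
theorem r5_z : r5 (zM F) = 1 := by
  ext a b
  by_cases h : a = b <;> simp [r5, zM, one_apply, R5.ix_eq, R5.ix_ne, h]

omit [Fintype F] in
theorem r5_diagonal (f : Fin 11 → F) : r5 (diagonal f) = diagonal fun a => f (ix a) := by
  ext a b
  simp [r5, diagonal_apply, R5.ix_eq, R5.ix_ne]

omit [Fintype F] in
theorem r5_mul (a : M11) {b : M11} (hb : ∀ i j, b (-i) (-j) = b i j) :
    r5 (a * b) = r5 a * r5 b := by
  ext i k
  simp only [r5, mul_apply, of_apply]
  rw [R5.split, R5.split fun m => a (ix i) m * b m (-ix k)]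
  have h0 : b 0 (-ix k) = b 0 (ix k) := by simpa using hb 0 (ix k)
  have h1 : ∀ c, b (-ix c) (ix k) = b (ix c) (-ix k) := fun c => by
    simpa using hb (ix c) (-ix k)
  simp only [h0, h1, hb]
  rw [add_sub_add_left_eq_sub, ← Finset.sum_sub_distrib]
  exact Finset.sum_congr rfl fun c _ => by ring

theorem Std.exists_p (h : Std p ω x y u z w M) : ∃ π : ↥(Cz M z) →* GL (Fin 5) F, IsP π := by
  let f : ↥(Cz M z) →* M5 :=
    { toFun := fun c => r5 ((c : GL (Fin 11) F) : M11)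
      map_one' := r5_one
      map_mul' := fun a b => r5_mul _ ((h.mem_cz _).1 b.2).2 }
  exact ⟨f.toHomUnits, fun c => rfl⟩

theorem Std.r5_w_ne (h : Std p ω x y u z w M) (a b : Fin 5) : r5 (w : M11) a b ≠ 0 := by
  obtain ⟨γ, hγ, hw⟩ := h.hw
  have h0 : γ ≠ 0 := by
    rintro rfl
    simp at hγ
  rw [hw, r5_smul, Matrix.smul_apply, smul_eq_mul]
  refine mul_ne_zero h0 fun e => ?_
  simp only [r5, wM, of_apply, sub_eq_zero] at e
  rw [pow_eq_pow_mod _ h.om.pow_eq_one, pow_eq_pow_mod (2 * _ * ((-ix b : Fin 11) : ℕ))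
    h.om.pow_eq_one] at e
  have e' := h.om.pow_inj (Nat.mod_lt _ (by norm_num)) (Nat.mod_lt _ (by norm_num)) e
  clear e
  revert a b
  decide

theorem Std.exists_h (h : Std p ω x y u z w M) : ∃ a ∈ Cz M z, (r5 (a : M11)).det ^ 2 = 1 ∧
    (a * w * a⁻¹ * w⁻¹) * u * (a * w * a⁻¹ * w⁻¹)⁻¹ = u ^ 3 := by
  obtain ⟨a, ha, e, he, hae⟩ := h.hh 3 (by decide)
  obtain ⟨γ, -, hw⟩ := h.hw
  refine ⟨a, (h.mem_cz a).2 ⟨ha, fun i j => ?_⟩, ?_, ?_⟩
  · rw [hae, Matrix.smul_apply, Matrix.smul_apply, R5.pm_neg]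
  · have h1 : r5 (pmM F 4) = (r5 (pmM F 3))ᵀ := by
      ext i j
      have e1 : ∀ i j : Fin 11, i = 4 * j ↔ j = 3 * i := by decide
      have e2 : ∀ i j : Fin 11, i = 4 * -j ↔ j = 3 * -i := by decide
      simp only [r5, pmM, of_apply, transpose_apply]
      rw [if_congr (e1 _ _) rfl rfl, if_congr (e2 _ _) rfl rfl]
    have h2 : pmM F 3 * pmM F 4 = 1 := by
      ext i j
      have e1 : ∀ i j : Fin 11, i = 3 * (4 * j) ↔ i = j := by decide
      rw [R5.pm_right]
      simp only [pmM, of_apply, e1, one_apply]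
    have h3 := r5_mul (pmM F 3) (R5.pm_neg (F := F) 4)
    rw [h2, r5_one, h1] at h3
    have h4 := congrArg det h3
    rw [det_one, det_mul, det_transpose] at h4
    rw [hae, r5_smul, det_smul, Fintype.card_fin]
    have h5 : e ^ 10 = 1 := by
      rw [show e ^ 10 = (e * e) ^ 5 by ring, he, one_pow]
    linear_combination (r5 (pmM F 3)).det ^ 2 * h5 - h4
  · have h1 : pmM F 3 * wM ω = pmM F 9 * wM ω * pmM F 3 := by
      ext i k
      rw [R5.pm_right, R5.pm_left (t := 4) (by decide), R5.pm_left (t := 5) (by decide)]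
      simp only [wM, of_apply]
      apply R5.pw h.om
      revert i k
      decide
    have h2 : ((a * w : GL (Fin 11) F) : M11) = pmM F 9 * ((w * a : GL (Fin 11) F) : M11) := by
      rw [Units.val_mul, Units.val_mul, hae, hw]
      simp only [smul_mul_assoc, mul_smul_comm]
      rw [h1, mul_assoc, smul_comm]
    have h3 : ((a * w * a⁻¹ * w⁻¹ : GL (Fin 11) F) : M11) = pmM F 9 := by
      rw [mul_assoc (a * w), ← _root_.mul_inv_rev, Units.val_mul, h2, mul_assoc, Units.mul_inv,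
        mul_one]
    rw [mul_inv_eq_iff_eq_mul]
    apply Units.ext
    rw [Units.val_mul, Units.val_mul (u ^ 3), h3, Units.val_pow_eq_pow_val, h.hu, dqM,
      diagonal_pow]
    ext i k
    rw [mul_diagonal, diagonal_mul, Pi.pow_apply]
    by_cases hik : i = 9 * k
    · subst hik
      rw [mul_comm, ← pow_mul]
      congr 1
      apply R5.pw h.om
      revert k
      decide
    · simp [pmM, hik]

omit [Fintype F] in
theorem mem_X5 {π : ↥(Cz M z) →* GL (Fin 5) F} (hπ : IsP π) {g : GL (Fin 5) F} :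
    g ∈ X5 π ↔ (g : M5).det = 1 ∧ ∃ c ∈ Cz M z, ∃ l : F, (g : M5) = l • r5 (c : M11) := by
  have hs : g ∈ specialLinear (Fin 5) F ↔ (g : M5).det = 1 := by
    rw [specialLinear, MonoidHom.mem_ker, ← Units.val_inj, GeneralLinearGroup.val_det_apply,
      Units.val_one]
  rw [X5, Subgroup.mem_inf, hs, and_comm]
  refine and_congr_right fun hd => ?_
  rw [Subgroup.mem_sup_of_normal_right]
  constructor
  · rintro ⟨_, ⟨c, rfl⟩, s, hs', rfl⟩
    obtain ⟨l, hl⟩ := (mem_scalars_iff s).1 hs'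
    exact ⟨c, c.2, l, by rw [Units.val_mul, hl, hπ c, mul_smul_comm, mul_one]⟩
  · rintro ⟨c, hc, l, hl⟩
    have hl0 : l ≠ 0 := by
      rintro rfl
      rw [hl, zero_smul, det_zero] at hd
      exact zero_ne_one hd
    refine ⟨π ⟨c, hc⟩, ⟨_, rfl⟩, (π ⟨c, hc⟩)⁻¹ * g, ?_, mul_inv_cancel_left _ _⟩
    refine (mem_scalars_iff _).2 ⟨Units.mk0 l hl0, ?_⟩
    have h1 : r5 (c : M11) = (π ⟨c, hc⟩ : M5) := (hπ ⟨c, hc⟩).symm
    rw [Units.val_mul, hl, h1, mul_smul_comm, Units.inv_mul, Units.val_mk0]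

end Cfsg.Agent.E11C
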