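/-
The group induced on the odd vectors is not the whole of `SL₅(F)`.
-/
import Mathlib
import Cfsg.Agent.E11C.Defs
import Cfsg.Agent.E11C.R5
import Cfsg.Agent.Cl.LinearBasic

set_option autoImplicit false

namespace Cfsg.Agent.E11C

open Matrix Cfsg.Geo

variable {F : Type*} [Field F] [Fintype F] {p : ℕ} {ω : F} {x y u z w : GL (Fin 11) F}
  {M : Subgroup (GL (Fin 11) F)}

local notation "M11" => Matrix (Fin 11) (Fin 11) F
local notation "M5" => Matrix (Fin 5) (Fin 5) F

namespace BigQ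

omit [Fintype F] in
theorem lift {π : ↥(Cz M z) →* GL (Fin 5) F} (hπ : IsP π) (hX : X5 π = specialLinear (Fin 5) F)
    (A : M5) (hA : A.det = 1) : ∃ c ∈ Cz M z, ∃ l : F, l ≠ 0 ∧ A = l • r5 (c : M11) := by
  have hne : A.det ≠ 0 := by rw [hA]; exact one_ne_zero
  have hg : GeneralLinearGroup.mkOfDetNeZero A hne ∈ X5 π := by
    rw [hX]
    refine MonoidHom.mem_ker.2 (Units.ext ?_)
    simpa using hA
  obtain ⟨-, c, hc, l, hl⟩ := (mem_X5 hπ).1 hg
  have hl' : A = l • r5 (c : M11) := hl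
  refine ⟨c, hc, l, ?_, hl'⟩
  rintro rfl
  rw [zero_smul] at hl'
  rw [hl'] at hne
  simp at hne

theorem ix_cases (i : Fin 11) (hi : i ≠ 0) : ∃ a : Fin 5, i = ix a ∨ i = -ix a := by
  revert i
  decide

omit [Fintype F] in
theorem prod_sym (f : Fin 11 → F) (hf : ∀ i, f (-i) = f i) :
    ∏ i, f i = f 0 * (∏ a : Fin 5, f (ix a)) ^ 2 := by
  have h10 : f 10 = f 1 := hf 1
  have h9 : f 9 = f 2 := hf 2
  have h8 : f 8 = f 3 := hf 3
  have h7 : f 7 = f 4 := hf 4
  have h6 : f 6 = f 5 := hf 5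
  have e : ∏ i, f i = f 0 * (f 1 * (f 2 * (f 3 * (f 4 * (f 5 * (f 6 * (f 7 * (f 8 * (f 9 *
      f 10))))))))) := by
    simp only [Fin.prod_univ_succ, Finset.univ_eq_empty, Finset.prod_empty, mul_one]
    rfl
  have e' : ∏ a : Fin 5, f (ix a) = f 1 * f 2 * f 3 * f 4 * f 5 := by
    rw [Fin.prod_univ_five]
    rfl
  rw [e, e', h10, h9, h8, h7, h6]
  ring

omit [Fintype F] in
theorem comm_of_smul {A B : M5} {l : F} (hl : l ≠ 0) (h : Commute (l • A) B) : Commute A B := by
  have := h.smul_left l⁻¹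
  rwa [smul_smul, inv_mul_cancel₀ hl, one_smul] at this

/-- A diagonal element of `C` whose entry at `0` is isolated and whose entries on the odd vectors
agree outside `j`. -/
theorem exists_d (h : Std p ω x y u z w M) (hr : Rig M u z) {π : ↥(Cz M z) →* GL (Fin 5) F}
    (hπ : IsP π) (hX : X5 π = specialLinear (Fin 5) F) (j : Fin 5) :
    ∃ d ∈ Cz M z, d ^ 11 = 1 ∧ ∃ f : Fin 11 → F, (d : M11) = diagonal f ∧
      (∀ i, i ≠ 0 → f i ≠ f 0) ∧ ∀ a b, a ≠ j → b ≠ j → f (ix a) = f (ix b) := by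
  have hω : ω ^ 11 = 1 := h.om.pow_eq_one
  have hω0 : ω ≠ 0 := h.om.ne_zero (by norm_num)
  set g : Fin 5 → F := fun b => ω * if b = j then ω ^ 6 else 1 with hg
  have hdet : (diagonal g).det = 1 := by
    rw [det_diagonal, hg, Finset.prod_mul_distrib, Finset.prod_ite_eq']
    simp only [Finset.prod_const, Finset.card_univ, Fintype.card_fin, Finset.mem_univ, if_true]
    rw [← pow_add, hω]
  obtain ⟨c, hc, l, hl, hA⟩ := lift hπ hX _ hdet
  have hcu : Commute c u := by
    refine hr.lf c hc u h.u_cz h.u11 (comm_of_smul hl ?_)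
    rw [← hA, h.hu, dqM, r5_diagonal]
    exact commute_diagonal _ _
  have hdiag := hr.sq c hc hcu
  have hd : c * c ∈ Cz M z := mul_mem hc hc
  have hd11 := hr.d11 _ hd.1 hdiag
  set f : Fin 11 → F := diag ((c * c : GL (Fin 11) F) : M11) with hf
  have hdf : ((c * c : GL (Fin 11) F) : M11) = diagonal f := (isDiag_iff_diagonal_diag _).1 hdiag |>.symm
  have hsym : ∀ i, f (-i) = f i := fun i => ((h.mem_cz _).1 hd).2 i i
  have hf11 : ∀ i, f i ^ 11 = 1 := by
    intro i
    have h1 : ((c * c : GL (Fin 11) F) : M11) ^ 11 = 1 := by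
      rw [← Units.val_pow_eq_pow_val, hd11, Units.val_one]
    rw [hdf, diagonal_pow] at h1
    have := congrFun (congrFun h1 i) i
    simpa using this
  have hr5 : ∀ a, l * l * f (ix a) = g a * g a := by
    intro a
    have h1 : r5 ((c * c : GL (Fin 11) F) : M11) = r5 (c : M11) * r5 (c : M11) := by
      rw [Units.val_mul, r5_mul _ ((h.mem_cz _).1 hc).2]
    have h2 : diagonal g * diagonal g = (l * l) • r5 ((c * c : GL (Fin 11) F) : M11) := by
      rw [h1, hA, smul_mul_smul_comm]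
    rw [hdf, r5_diagonal, diagonal_mul_diagonal] at h2
    have := congrFun (congrFun h2 a) a
    simpa using this.symm
  set α : F := (l * l)⁻¹ * ω ^ 2 with hα
  have hll : l * l ≠ 0 := mul_ne_zero hl hl
  have hfa : ∀ a, f (ix a) = α * if a = j then ω else 1 := by
    intro a
    apply mul_left_cancel₀ hll
    rw [hr5, hα, ← mul_assoc (l * l), ← mul_assoc (l * l), mul_inv_cancel₀ hll, hg]
    by_cases ha : a = j
    · simp only [ha, if_true]
      linear_combination (ω ^ 3) * hω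
    · simp only [ha, if_false]
      ring
  have hα11 : α ^ 11 = 1 := by
    obtain ⟨b, hb⟩ := exists_ne j
    have := hf11 (ix b)
    rwa [hfa, if_neg hb, mul_one] at this
  have hdet1 : f 0 * (α ^ 5 * ω) ^ 2 = 1 := by
    have h1 : ((c * c : GL (Fin 11) F) : M11).det = 1 := by
      have := congrArg Units.val (MonoidHom.mem_ker.1 (h.sl hd.1))
      simpa using this
    rw [hdf, det_diagonal, prod_sym f hsym] at h1
    simp only [hfa, Finset.prod_mul_distrib, Finset.prod_ite_eq', Finset.prod_const,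
      Finset.card_univ, Fintype.card_fin, Finset.mem_univ, if_true] at h1
    exact h1
  have h2 : ω ^ 2 ≠ 1 := h.om.pow_ne_one_of_pos_of_lt (by norm_num) (by norm_num)
  have h3 : ω ^ 3 ≠ 1 := h.om.pow_ne_one_of_pos_of_lt (by norm_num) (by norm_num)
  have hix : ∀ a, f (ix a) ≠ f 0 := by
    intro a ha
    rw [← ha, hfa] at hdet1
    by_cases haj : a = j
    · rw [if_pos haj] at hdet1
      apply h3
      linear_combination hdet1 - ω ^ 3 * hα11
    · rw [if_neg haj] at hdet1
      apply h2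
      linear_combination hdet1 - ω ^ 2 * hα11
  refine ⟨c * c, hd, hd11, f, hdf, ?_, ?_⟩
  · intro i hi
    obtain ⟨a, rfl | rfl⟩ := ix_cases i hi
    · exact hix a
    · rw [hsym]; exact hix a
  · intro a b ha hb
    rw [hfa, hfa, if_neg ha, if_neg hb]

omit [Fintype F] in
theorem comm_tv (g : Fin 5 → F) {i k : Fin 5} (hg : g i = g k) (t : F) :
    Commute (transvection i k t : M5) (diagonal g) := by
  unfold transvection
  refine Commute.add_left (Commute.one_left _) ?_
  ext a b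
  rw [mul_diagonal, diagonal_mul]
  by_cases hab : i = a ∧ k = b
  · obtain ⟨rfl, rfl⟩ := hab
    rw [hg, mul_comm]
  · rw [single_apply_of_ne _ _ _ _ _ hab, zero_mul, mul_zero]

/-- Induced by an element of `C` fixing the line through `e 0`. -/
def Good (M : Subgroup (GL (Fin 11) F)) (z : GL (Fin 11) F) (A : Matrix (Fin 5) (Fin 5) F) : Prop :=
  ∃ c ∈ Cz M z, (∀ i, i ≠ 0 → (c : Matrix (Fin 11) (Fin 11) F) i 0 = 0) ∧
    ∃ l : F, A = l • r5 (c : Matrix (Fin 11) (Fin 11) F)

theorem good_tv (h : Std p ω x y u z w M) (hr : Rig M u z) {π : ↥(Cz M z) →* GL (Fin 5) F}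
    (hπ : IsP π) (hX : X5 π = specialLinear (Fin 5) F) {i k : Fin 5} (hik : i ≠ k) (t : F) :
    Good M z (transvection i k t) := by
  obtain ⟨j, hji, hjk⟩ : ∃ j : Fin 5, i ≠ j ∧ k ≠ j := by
    revert i k
    decide
  obtain ⟨d, hd, hd11, f, hdf, hf0, hfj⟩ := exists_d h hr hπ hX j
  obtain ⟨c, hc, l, hl, hA⟩ := lift hπ hX _ (det_transvection_of_ne i k hik t)
  have hcd : Commute c d := by
    refine hr.lf c hc d hd hd11 (comm_of_smul hl ?_)
    rw [← hA, hdf, r5_diagonal]
    exact comm_tv _ (hfj i k hji hjk) t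
  refine ⟨c, hc, ?_, l, hA⟩
  intro a ha
  have h1 : (c : M11) * diagonal f = diagonal f * (c : M11) := by
    rw [← hdf, ← Units.val_mul, ← Units.val_mul, hcd.eq]
  have h2 := congrFun (congrFun h1 a) 0
  rw [mul_diagonal, diagonal_mul] at h2
  have h3 : (c : M11) a 0 * (f a - f 0) = 0 := by linear_combination -h2
  exact (mul_eq_zero.1 h3).resolve_right (sub_ne_zero.2 (hf0 a ha))

theorem good_mul (h : Std p ω x y u z w M) {A B : M5} (hA : Good M z A) (hB : Good M z B) :
    Good M z (A * B) := by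
  obtain ⟨c, hc, hc0, l, rfl⟩ := hA
  obtain ⟨c', hc', hc0', l', rfl⟩ := hB
  refine ⟨c * c', mul_mem hc hc', ?_, l * l', ?_⟩
  · intro i hi
    rw [Units.val_mul, mul_apply]
    refine Finset.sum_eq_zero fun m _ => ?_
    by_cases hm : m = 0
    · rw [hm, hc0 i hi, zero_mul]
    · rw [hc0' m hm, mul_zero]
  · rw [Units.val_mul, r5_mul _ ((h.mem_cz _).1 hc').2, smul_mul_smul_comm]

theorem good_all (h : Std p ω x y u z w M) (hr : Rig M u z) {π : ↥(Cz M z) →* GL (Fin 5) F}
    (hπ : IsP π) (hX : X5 π = specialLinear (Fin 5) F) (A : M5) (hA : A.det = 1) : Good M z A := by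
  refine Cl.sl_transvection_induction (fun B : SpecialLinearGroup (Fin 5) F => Good M z (B : M5))
    ?_ ?_ ?_ ⟨A, hA⟩
  · refine ⟨1, one_mem _, ?_, 1, ?_⟩
    · intro i hi
      rw [Units.val_one, one_apply_ne hi]
    · rw [Units.val_one, r5_one, one_smul]
      rfl
  · intro i k hik t
    exact good_tv h hr hπ hX hik t
  · intro A B hA hB
    exact good_mul h hA hB

end BigQ

theorem Std.bigq (h : Std p ω x y u z w M) (hr : Rig M u z) {π : ↥(Cz M z) →* GL (Fin 5) F} (hπ : IsP π) :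
    X5 π ≠ specialLinear (Fin 5) F := by
  intro hX
  set ε : F := (r5 (w : M11)).det with hε
  have hεε : ε * ε = 1 := by
    rw [hε, ← det_mul, ← r5_mul _ ((h.mem_cz _).1 h.w_cz).2, ← Units.val_mul, h.ww, h.hz, r5_z,
      det_one]
  have hdet : (ε • r5 (w : M11)).det = 1 := by
    rw [det_smul, Fintype.card_fin, ← hε]
    linear_combination (ε ^ 4 + ε ^ 2 + 1) * hεε
  obtain ⟨c, hc, hc0, l, hA⟩ := BigQ.good_all h hr hπ hX _ hdet
  have hw : r5 (w : M11) = (ε * l) • r5 (c : M11) := by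
    rw [← smul_smul, ← hA, smul_smul, hεε, one_smul]
  have hci : c⁻¹ ∈ Cz M z := inv_mem hc
  have hk : r5 ((w * c⁻¹ : GL (Fin 11) F) : M11) = (ε * l) • (1 : M5) := by
    rw [Units.val_mul, r5_mul _ ((h.mem_cz _).1 hci).2, hw, smul_mul_assoc,
      ← r5_mul _ ((h.mem_cz _).1 hci).2, ← Units.val_mul, mul_inv_cancel, Units.val_one, r5_one]
  obtain ⟨s, hs⟩ := hr.kk _ (mul_mem h.w_cz hci) ⟨_, hk⟩
  have hwc : (w : M11) = ((w * c⁻¹ : GL (Fin 11) F) : M11) * (c : M11) := by
    rw [← Units.val_mul, inv_mul_cancel_right]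
  have h10 : (w : M11) 1 0 = 0 := by
    rw [hwc, mul_apply]
    refine Finset.sum_eq_zero fun m _ => ?_
    by_cases hm : m = 0
    · subst hm
      rcases hs with hs | hs
      · rw [hs, Matrix.smul_apply, one_apply_ne (by decide), smul_zero, zero_mul]
      · rw [hs, Matrix.smul_apply, zM, of_apply, if_neg (by decide), smul_zero, zero_mul]
    · rw [hc0 m hm, mul_zero]
  obtain ⟨γ, hγ, hwγ⟩ := h.hw
  rw [hwγ, Matrix.smul_apply, wM, of_apply] at h10
  have : γ = 0 := by simpa using h10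
  rw [this] at hγ
  norm_num at hγ

end Cfsg.Agent.E11C
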