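/-
Centralisers of the diagonal Weil generator in the monomial case.
-/
import Mathlib
import Cfsg.Agent.E11C.Defs
import Cfsg.Agent.E11C.Bas

set_option autoImplicit false

namespace Cfsg.Agent.E11C

open Matrix Cfsg.Geo

variable {F : Type*} [Field F] [Fintype F] {p : ℕ} {ω : F} {x y u z w : GL (Fin 11) F}
  {M : Subgroup (GL (Fin 11) F)}

local notation "M11" => Matrix (Fin 11) (Fin 11) F
local notation "M5" => Matrix (Fin 5) (Fin 5) F

namespace CEN

theorem ne_neg : ∀ i : Fin 11, i ≠ 0 → i ≠ -i := by decide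

theorem ex_ix : ∀ i : Fin 11, i ≠ 0 → ∃ a : Fin 5, i = ix a ∨ i = -ix a := by decide

omit [Fintype F] in
theorem left {A : M11} (hA : ∀ i j, j ≠ i → j ≠ -i → A i j = 0) (B : M11) {i : Fin 11}
    (hi : i ≠ 0) (k : Fin 11) : (A * B) i k = A i i * B i k + A i (-i) * B (-i) k := by
  rw [mul_apply, Finset.sum_eq_add i (-i) (ne_neg i hi)
    (fun c _ hc => by rw [hA i c hc.1 hc.2, zero_mul]) (by simp) (by simp)]

omit [Fintype F] in
theorem left0 {A : M11} (hA : ∀ i j, j ≠ i → j ≠ -i → A i j = 0) (B : M11) (k : Fin 11) :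
    (A * B) 0 k = A 0 0 * B 0 k := by
  rw [mul_apply, Finset.sum_eq_single 0
    (fun c _ hc => by rw [hA 0 c hc (by simpa using hc), zero_mul]) (by simp)]

omit [Fintype F] in
theorem right {B : M11} (hB : ∀ i j, j ≠ i → j ≠ -i → B i j = 0) (A : M11) (i : Fin 11)
    {k : Fin 11} (hk : k ≠ 0) : (A * B) i k = A i k * B k k + A i (-k) * B (-k) k := by
  rw [mul_apply, Finset.sum_eq_add k (-k) (ne_neg k hk)
    (fun c _ hc => by
      rw [hB c k hc.1.symm (fun e => hc.2 (by rw [e, neg_neg])), mul_zero]) (by simp) (by simp)]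

end CEN

theorem Std.sq_diag (h : Std p ω x y u z w M) (hm : Mon M u) {c : GL (Fin 11) F} (hc : c ∈ Cz M z) (hu : Commute c u) :
    ((c * c : GL (Fin 11) F) : M11).IsDiag := by
  have hA := (h.comm_u c).1 hu
  intro i j hij
  rw [Units.val_mul]
  by_cases hi : i = 0
  · subst hi
    rw [CEN.left0 hA, hA 0 j hij.symm (by simpa using hij.symm), mul_zero]
  rw [CEN.left hA _ hi]
  by_cases hj : j = -i
  · subst hj
    rcases hm c hc.1 hu i hi with ⟨h1, -⟩ | ⟨h1, h2⟩
    · simp [h1]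
    · simp [h1, h2]
  · rw [hA i j hij.symm hj, hA (-i) j hj (by simpa using hij.symm)]
    simp

theorem Std.k0 (h : Std p ω x y u z w M) (hm : Mon M u) {k : GL (Fin 11) F} (hk : k ∈ Cz M z) (h1 : r5 (k : M11) = 1)
    (hu : Commute k u) : k * k = 1 := by
  have hA := (h.comm_u k).1 hu
  have hs := ((h.mem_cz k).1 hk).2
  have hd := h.sq_diag hm hk hu
  have h2 : ∀ i : Fin 11, i ≠ 0 → (k : M11) i i - (k : M11) i (-i) = 1 := fun i hi => by
    obtain ⟨a, ha⟩ := CEN.ex_ix i hi
    have h3 : (k : M11) (ix a) (ix a) - (k : M11) (ix a) (-ix a) = 1 := by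
      simpa [r5] using congrFun (congrFun h1 a) a
    rcases ha with rfl | rfl
    · exact h3
    · rwa [hs, hs]
  have h3 : ∀ i : Fin 11, i ≠ 0 → ((k * k : GL (Fin 11) F) : M11) i i = 1 := fun i hi => by
    have h4 := h2 i hi
    have h5 : (k : M11) (-i) i = (k : M11) i (-i) := by rw [← hs i (-i), neg_neg]
    rw [Units.val_mul, CEN.left hA _ hi, h5]
    rcases hm k hk.1 hu i hi with ⟨h6, -⟩ | ⟨h6, -⟩
    · rw [h6, sub_zero] at h4
      simp [h4, h6]
    · rw [h6, zero_sub, neg_eq_iff_eq_neg] at h4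
      simp [h4, h6]
  have h4 : ((k * k : GL (Fin 11) F) : M11).det = 1 := by
    rw [← GeneralLinearGroup.val_det_apply, MonoidHom.mem_ker.1 (h.sl (mul_mem hk.1 hk.1)),
      Units.val_one]
  rw [← hd.diagonal_diag, det_diagonal, Finset.prod_eq_single (f := diag _) 0
    (fun i _ hi => h3 i hi) (by simp)] at h4
  refine Units.ext (hd.diagonal_diag.symm.trans ?_)
  rw [Units.val_one, ← diagonal_one]
  congr 1
  funext i
  by_cases hi : i = 0
  · rw [hi]; exact h4
  · exact h3 i hi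

theorem Std.cen (h : Std p ω x y u z w M) (hm : Mon M u) {c : GL (Fin 11) F} (hc : c ∈ Cz M z) (hu : Commute c u)
    (hv : Commute c (w * u * w⁻¹)) : H0 c := by
  have hA := (h.comm_u c).1 hu
  have hu' : Commute (w⁻¹ * c * w) u := by
    have h1 := hv.eq
    calc w⁻¹ * c * w * u = w⁻¹ * (c * (w * u * w⁻¹)) * w := by group
      _ = u * (w⁻¹ * c * w) := by rw [h1]; group
  have hB := (h.comm_u _).1 hu'
  have hsB := ((h.mem_cz _).1 (mul_mem (mul_mem (inv_mem h.w_cz) hc) h.w_cz)).2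
  have hsw := ((h.mem_cz _).1 h.w_cz).2
  have hcw : (c : M11) * (w : M11) = (w : M11) * ((w⁻¹ * c * w : GL (Fin 11) F) : M11) := by
    rw [← Units.val_mul, ← Units.val_mul]; congr 1; group
  generalize ((w⁻¹ * c * w : GL (Fin 11) F) : M11) = B at hB hsB hcw
  obtain ⟨γ, hγ, hw⟩ := h.hw
  have hγ0 : γ ≠ 0 := by rintro rfl; simp at hγ
  have hw1 : ∀ i : Fin 11, (w : M11) i 1 = γ * ω ^ (2 * (i : ℕ)) := fun i => by simp [hw, wM]
  have hw2 : ∀ i : Fin 11, (w : M11) i (-1) = γ * ω ^ (20 * (i : ℕ)) := fun i => by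
    rw [hw, Matrix.smul_apply, wM, of_apply, smul_eq_mul, show ((-1 : Fin 11) : ℕ) = 10 from rfl]
    ring
  have hp : ∀ i : Fin 11, (w : M11) i 1 + (w : M11) i (-1) ≠ 0 := fun i e => by
    rw [hw1, hw2, ← mul_add, mul_eq_zero, or_iff_right hγ0, add_eq_zero_iff_eq_neg] at e
    have h1 := congrArg (· ^ 11) e
    simp only [Odd.neg_pow (show Odd 11 by decide), ← pow_mul, mul_comm _ 11] at h1
    simp only [pow_mul, h.om.pow_eq_one, one_pow] at h1
    exact h.two_ne (by linear_combination h1)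
  have hn : ∀ i : Fin 11, i ≠ 0 → (w : M11) i 1 - (w : M11) i (-1) ≠ 0 := fun i hi e => by
    rw [hw1, hw2, ← mul_sub, mul_eq_zero, or_iff_right hγ0, sub_eq_zero,
      show 20 * (i : ℕ) = 2 * i + 18 * i by ring, pow_add,
      left_eq_mul₀ (pow_ne_zero _ (h.om.ne_zero (by norm_num))), h.om.pow_eq_one_iff_dvd] at e
    revert hi e
    revert i
    decide
  have e1 := fun i => CEN.right hB (w : M11) i (k := 1) (by decide)
  have e2 := fun i => CEN.right hB (w : M11) i (k := -1) (by decide)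
  have s1 : B (-1) 1 = B 1 (-1) := by rw [← hsB 1 (-1), neg_neg]
  simp only [neg_neg, hsB, s1, ← hcw] at e1 e2
  have h0 : (c : M11) 0 0 = B 1 1 + B 1 (-1) := by
    refine mul_right_cancel₀ (hp 0) ?_
    have a1 := e1 0
    have a2 := e2 0
    rw [CEN.left0 hA] at a1 a2
    linear_combination a1 + a2
  have h1 : ∀ i : Fin 11, i ≠ 0 → (c : M11) i i = B 1 1 ∧ (c : M11) i (-i) = B 1 (-1) :=
    fun i hi => by
      have a1 := e1 i
      have a2 := e2 i
      rw [CEN.left hA _ hi] at a1 a2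
      rw [show (w : M11) (-i) 1 = (w : M11) i (-1) by rw [← hsw i (-1), neg_neg]] at a1
      rw [hsw] at a2
      have b1 : (c : M11) i i + (c : M11) i (-i) = B 1 1 + B 1 (-1) :=
        mul_right_cancel₀ (hp i) (by linear_combination a1 + a2)
      have b2 : (c : M11) i i - (c : M11) i (-i) = B 1 1 - B 1 (-1) :=
        mul_right_cancel₀ (hn i hi) (by linear_combination a1 - a2)
      exact ⟨mul_left_cancel₀ h.two_ne (by linear_combination b1 + b2),
        mul_left_cancel₀ h.two_ne (by linear_combination b1 - b2)⟩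
  rcases hm c hc.1 hu 1 (by decide) with ⟨h2, -⟩ | ⟨h2, -⟩
  · rw [(h1 1 (by decide)).2] at h2
    refine ⟨B 1 1, Or.inl (Matrix.ext fun i j => ?_)⟩
    rw [Matrix.smul_apply, Matrix.one_apply]
    split_ifs with hij
    · subst hij
      by_cases hi : i = 0
      · simp [hi, h0, h2]
      · simp [(h1 i hi).1]
    · by_cases hj : j = -i
      · subst hj
        simp [(h1 i (by rintro rfl; simp at hij)).2, h2]
      · simp [hA i j (Ne.symm hij) hj]
  · rw [(h1 1 (by decide)).1] at h2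
    refine ⟨-B 1 (-1), Or.inr (Matrix.ext fun i j => ?_)⟩
    rw [Matrix.smul_apply, zM, of_apply]
    split_ifs with hij
    · obtain rfl : j = -i := by rw [hij, neg_neg]
      by_cases hi : i = 0
      · simp [hi, h0, h2]
      · simp [(h1 i hi).2]
    · by_cases hj : j = i
      · subst hj
        simp [(h1 j (by rintro rfl; simp at hij)).1, h2]
      · simp [hA i j hj (fun e => hij (by rw [e, neg_neg]))]

end Cfsg.Agent.E11C
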