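/-
Overgroups of the `11^(1+2)` normaliser in `SL₁₁(q)`: the five-dimensional group is not in the
field-extension class and there is no unitary form.
-/
import Mathlib
import Cfsg.Agent.E11C.Defs
import Cfsg.Agent.Cl.D5T1

set_option autoImplicit false

namespace Cfsg.Agent.E11C

open Matrix Cfsg.Geo

variable {F : Type*} [Field F] [Fintype F] {X : Subgroup (GL (Fin 5) F)} {u w h : GL (Fin 5) F}

local notation "M5" => Matrix (Fin 5) (Fin 5) F

theorem D5a.w_ne (t : T5 X u w h) : w ∉ scalars (Fin 5) F := by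
  intro hw
  obtain ⟨c, hc⟩ := (mem_scalars_iff _).1 hw
  have h2 : (c : F) * c = 1 := by
    have e := congrArg (fun g : GL (Fin 5) F => (g : M5) 0 0) t.ww
    simpa [hc] using e
  have h5 : (c : F) ^ 5 = 1 := by
    have e : GeneralLinearGroup.det w = 1 := t.sl t.wm
    have e' := congrArg Units.val e
    rw [GeneralLinearGroup.val_det_apply, hc] at e'
    simpa using e'
  have h1 : (c : F) = 1 := by linear_combination h5 - (c ^ 3 + c : F) * h2
  exact t.w1 (Units.ext (by rw [hc, h1, one_smul]; rfl))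

theorem D5a.isSquare (σ : F ≃+* F) (h1 : σ ≠ RingEquiv.refl F) (h2 : ∀ a, σ (σ a) = a) :
    IsSquare (Fintype.card F) := by
  classical
  let G := Subgroup.zpowers σ
  have ho : orderOf σ = 2 := orderOf_eq_prime (RingEquiv.ext fun a => by
    rw [pow_two]
    exact h2 a) h1
  have : Finite G := by
    apply Nat.finite_of_card_ne_zero
    rw [Nat.card_zpowers, ho]
    norm_num
  let _ : Fintype G := Fintype.ofFinite G
  have hr := FixedPoints.finrank_eq_card G F
  rw [← Nat.card_eq_fintype_card, Nat.card_zpowers, ho] at hr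
  have hc := Module.card_eq_pow_finrank (K := FixedPoints.subfield G F) (V := F)
  rw [hr] at hc
  exact ⟨_, hc.trans (pow_two _)⟩

theorem T5.not_field (t : T5 X u w h) (K : Subalgebra F M5) (hK : IsFieldSubalgebra 5 K) :
    ¬ X ≤ subalgebraNormalizer K := fun hX =>
  D5a.w_ne t (Cl.D5T.scalar_of_invol hK (hX t.wm) t.ww)

theorem T5.not_uni (t : T5 X u w h) (σ : F ≃+* F) (f : (Fin 5 → F) → (Fin 5 → F) → F) :
    ¬ IsUnitaryForm σ f := fun hf =>
  t.nsq (D5a.isSquare σ hf.ne_refl hf.involutive)

theorem T5.u_ne (t : T5 X u w h) : u ∉ scalars (Fin 5) F := by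
  intro hu
  obtain ⟨c, hc⟩ := (mem_scalars_iff _).1 hu
  have h1 : Commute w u := Units.ext (by
    rw [Units.val_mul, Units.val_mul, hc]
    simp)
  refine D5a.w_ne t (t.cen w t.wm h1 ?_)
  rw [h1.eq, mul_inv_cancel_right]
  exact h1

end Cfsg.Agent.E11C
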