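/-
An element of order eleven without fixed vectors in dimension five lies neither in the normaliser
of an extraspecial group nor in an orthogonal similarity group.
-/
import Mathlib
import Cfsg.Agent.E11C.Defs
import Cfsg.Agent.E11C.D5a
import Cfsg.Agent.Cl.D5T2
import Cfsg.Agent.Cl.MaxFormC

set_option autoImplicit false

namespace Cfsg.Agent.E11C

open Matrix Cfsg.Geo

variable {F : Type*} [Field F] [Fintype F] {X : Subgroup (GL (Fin 5) F)} {u w h : GL (Fin 5) F}

local notation "M5" => Matrix (Fin 5) (Fin 5) F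

theorem T5.not_c6 (t : T5 X u w h) (R : Subgroup (GL (Fin 5) F)) (hR : IsLinearSymplecticTypeData 5 R) :
    ¬ X ≤ subgroupNormalizer R := fun hle => by
  have h1 := (Cl.D5T.hei_of hR.symplecticType hR.absIrred).le_three (r := 11) (by norm_num)
    (by norm_num) (hle t.um) (by rw [t.u11]; exact one_mem _) t.u_ne
  omega

theorem T5.not_quad (t : T5 X u w h) (Q : (Fin 5 → F) → F) (hQ : IsNondegenerateQuadraticForm Q) :
    ¬ X ≤ quadSimilarityGroup Q := fun hle => by
  have h2 : (2 : F) ≠ 0 := by
    intro e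
    have := FiniteField.even_card_of_char_two (F := F) (by
      have : CharP F 2 := CharTwo.of_one_ne_zero_of_two_eq_zero one_ne_zero e
      exact ringChar.eq F 2)
    have := Nat.odd_iff.1 t.odd
    omega
  have hf := Cl.Max.hform_of_quad hQ
  obtain ⟨c, hc⟩ := Cl.Max.quadSim_le_sim (hle t.um)
  obtain ⟨B, hB⟩ : ∃ B : M5, B = gramMatrix (QuadraticMap.polar Q) := ⟨_, rfl⟩
  have hd : B.det ≠ 0 := hB ▸ hf.isUnit_det.ne_zero
  have hg : ∀ x y, QuadraticMap.polar Q x y = x ⬝ᵥ (B *ᵥ y) := fun x y => hB ▸ hf.eq_gram x y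
  have hU : (u : M5).det = 1 := by
    have := congrArg Units.val (MonoidHom.mem_ker.1 (t.sl t.um))
    simpa using this
  have h11 : (u : M5) ^ 11 = 1 := by
    rw [← Units.val_pow_eq_pow_val, t.u11, Units.val_one]
  have hfp := t.fpf
  generalize (u : M5) = U at hc hU h11 hfp
  have e1 : Uᵀ * B * U = (c : F) • B :=
    Cl.Max.eq_of_dot_mulVec (σ := RingHom.id F) (fun _ => rfl) fun x y => by
      have := hc x y
      rw [hg, hg] at this
      change x ⬝ᵥ ((Uᵀ * B * U) *ᵥ y) = x ⬝ᵥ (((c : F) • B) *ᵥ y)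
      rw [smul_mulVec, dotProduct_smul, smul_eq_mul, ← this, ← mulVec_mulVec, ← mulVec_mulVec,
        dotProduct_mulVec x Uᵀ, vecMul_transpose]
  have e2 : ∀ k : ℕ, (U ^ k)ᵀ * B * U ^ k = (c : F) ^ k • B := fun k => by
    induction k with
    | zero => simp
    | succ k ih =>
      calc (U ^ (k + 1))ᵀ * B * U ^ (k + 1) = Uᵀ * ((U ^ k)ᵀ * B * U ^ k) * U := by
            rw [pow_succ, transpose_mul]; simp only [mul_assoc]
        _ = _ := by rw [ih, mul_smul_comm, smul_mul_assoc, e1, smul_smul, pow_succ]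
  have e3 : (c : F) ^ 5 = 1 := by
    have := congrArg det e1
    rw [det_mul, det_mul, det_transpose, hU, det_smul, Fintype.card_fin] at this
    exact mul_right_cancel₀ hd (by linear_combination -this)
  have e4 : (c : F) ^ 11 = 1 := by
    have h3 := e2 11
    rw [h11, transpose_one, one_mul, mul_one] at h3
    have h4 : ((c : F) ^ 11 - 1) • B = 0 := by rw [sub_smul, one_smul, ← h3, sub_self]
    rcases smul_eq_zero.1 h4 with h5 | h5
    · exact sub_eq_zero.1 h5
    · exact absurd (by rw [h5]; exact det_zero) hd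
  have e5 : (c : F) = 1 := by linear_combination e4 - (c : F) * ((c : F) ^ 5 + 1) * e3
  rw [e5, one_smul] at e1
  have e6 : Uᵀ * B * (U - 1) = (-(U - 1))ᵀ * B := by
    rw [mul_sub, e1, mul_one, neg_sub, transpose_sub, transpose_one, sub_mul, one_mul]
  have e7 : (U - 1).det = 0 := by
    have := congrArg det e6
    rw [det_mul, det_mul, det_mul, det_transpose, det_transpose, hU, det_neg,
      Fintype.card_fin] at this
    exact mul_left_cancel₀ h2 (mul_left_cancel₀ hd (by linear_combination this))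
  obtain ⟨a, ha, e8⟩ := exists_mulVec_eq_zero_iff.2 e7
  rw [sub_mulVec, one_mulVec, sub_eq_zero] at e8
  exact ha (hfp a e8)

end Cfsg.Agent.E11C
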