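/-
Dickson's theorem for a subgroup of `GL₂(F)` containing a diagonal element of order eleven.
-/
import Mathlib
import Cfsg.Agent.E11C.Defs
import Cfsg.Agent.Cl.PSL2Fields
import Cfsg.Agent.Cl.LinearBasic

set_option autoImplicit false

namespace Cfsg.Agent.E11C

open Matrix Cfsg.Geo

variable {F : Type*} [Field F] [Fintype F]

namespace DK

open Cfsg.Agent.Cl.L2
open scoped MatrixGroups commutatorElement

theorem top_of_mem {p : ℕ} (hf : Fld F p) {α : F} (hα : IsPrimitiveRoot α 11) (k : Subfield F)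
    (hk : (α + α⁻¹) ^ 2 ∈ k) : k = ⊤ := by
  obtain ⟨hp, _, hq⟩ := hf
  have := Fact.mk hp
  obtain ⟨m, m1, hm⟩ := card_subfield_pow k
  have top : Nat.card k = Nat.card F → k = ⊤ := fun e =>
    eq_top_iff.2 fun a _ => (AddSubgroup.eq_top_of_card_eq k.toAddSubgroup e).ge (AddSubgroup.mem_top a)
  rcases hq with ⟨hq, -⟩ | ⟨hq, h11⟩
  · rw [Nat.card_eq_fintype_card (α := F), hq] at hm
    have := Nat.Prime.eq_one_of_pow (hm ▸ hp)
    exact top (by rw [Nat.card_eq_fintype_card (α := F), hq, ← hm, this, pow_one])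
  rw [Nat.card_eq_fintype_card (α := F), hq] at hm
  obtain ⟨j, -, hj⟩ := (Nat.dvd_prime_pow hp).1 (hm ▸ dvd_pow_self (Nat.card k) (by omega))
  rw [hj, ← pow_mul] at hm
  have h5 := Nat.pow_right_injective hp.two_le hm
  rcases (Nat.dvd_prime (by norm_num : Nat.Prime 5)).1 ⟨m, h5.symm⟩ with rfl | rfl
  swap
  · exact top (by rw [Nat.card_eq_fintype_card (α := F), hq, hj])
  exfalso
  have := Fintype.ofFinite k
  have e := congrArg Subtype.val (FiniteField.pow_card (⟨_, hk⟩ : k))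
  rw [← Nat.card_eq_fintype_card, hj, pow_one] at e
  replace e : ((α + α⁻¹) ^ 2) ^ p = (α + α⁻¹) ^ 2 := e
  rw [← pow_mul, mul_comm, pow_mul, add_pow_char, inv_pow] at e
  have a0 : α ≠ 0 := hα.ne_zero (by norm_num)
  have d0 : α ^ p ≠ 0 := pow_ne_zero _ a0
  have e2 : ((α ^ p) ^ 2 - α ^ 2) * ((α ^ p) ^ 2 * α ^ 2 - 1) = 0 := by
    generalize α ^ p = δ at e d0
    field_simp at e
    linear_combination e
  rcases mul_eq_zero.1 e2 with e3 | e3
  · have e4 : α ^ (p * 2 + 20) = 1 := by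
      rw [pow_add, pow_mul, sub_eq_zero.1 e3, ← pow_add, show 2 + 20 = 11 * 2 from rfl, pow_mul,
        hα.pow_eq_one, one_pow]
    have := (hα.pow_eq_one_iff_dvd _).1 e4
    omega
  · have e4 : α ^ (p * 2 + 2) = 1 := by rw [pow_add, pow_mul, sub_eq_zero.1 e3]
    have := (hα.pow_eq_one_iff_dvd _).1 e4
    omega

omit [Fintype F] in
theorem sl_perf {a : F} (a0 : a ≠ 0) (a2 : a ^ 2 ≠ 1) :
    ⁅specialLinear (Fin 2) F, specialLinear (Fin 2) F⁆ = specialLinear (Fin 2) F := by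
  have h := Cl.sl_commutator_eq_top (ι := Fin 2) (F := F) (Or.inr ⟨a, a0, a2⟩)
  have hr : (SpecialLinearGroup.toGL : SL(2, F) →* GL (Fin 2) F).range = specialLinear (Fin 2) F := by
    ext g
    constructor
    · rintro ⟨y, rfl⟩
      exact Units.ext (by simp)
    · intro hg
      have h : (g : Matrix (Fin 2) (Fin 2) F).det = 1 := by
        have := congrArg Units.val (show GeneralLinearGroup.det g = 1 from hg)
        simpa using this
      exact ⟨⟨g, h⟩, Units.ext rfl⟩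
  rw [← hr, MonoidHom.range_eq_map, ← Subgroup.map_commutator, ← commutator_def, h]

theorem comm_central {Γ : Type*} [Group Γ] {a b z w : Γ} (hz : z ∈ Subgroup.center Γ)
    (hw : w ∈ Subgroup.center Γ) : ⁅a * z, b * w⁆ = ⁅a, b⁆ := by
  rw [Subgroup.mem_center_iff] at hz hw
  rw [commutatorElement_def, commutatorElement_def, _root_.mul_inv_rev, _root_.mul_inv_rev,
    mul_assoc a z, ← hz,
    show a * (b * w * z) * (z⁻¹ * a⁻¹) * (w⁻¹ * b⁻¹) = a * b * (w * a⁻¹) * w⁻¹ * b⁻¹ by group, ← hw]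
  group

omit [Fintype F] in
theorem le_of_psl {a : F} (a0 : a ≠ 0) (a2 : a ^ 2 ≠ 1) {G : Subgroup (GL (Fin 2) F)}
    (h : psl F ≤ G.map ProjGenLinGroup.mk) : specialLinear (Fin 2) F ≤ ⁅G, G⁆ := by
  have key : ∀ u ∈ specialLinear (Fin 2) F, ∃ g ∈ G, ∃ z ∈ Subgroup.center (GL (Fin 2) F), u = g * z := by
    intro u hu
    have h1 : (u : Matrix (Fin 2) (Fin 2) F).det = 1 := by
      have := congrArg Units.val (show GeneralLinearGroup.det u = 1 from hu)
      simpa using this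
    obtain ⟨g, hg, e⟩ := h (pm_mem_psl_of_det h1)
    rw [pm_coe] at e
    exact ⟨g, hg, g⁻¹ * u, QuotientGroup.eq.1 e, by rw [mul_inv_cancel_left]⟩
  rw [← sl_perf a0 a2, Subgroup.commutator_le]
  intro u hu v hv
  obtain ⟨g, hg, z, hz, rfl⟩ := key u hu
  obtain ⟨k, hk, w, hw, rfl⟩ := key v hv
  rw [comm_central hz hw]
  exact Subgroup.commutator_mem_commutator hg hk

end DK

open Cfsg.Agent.Cl.L2 in
theorem dk {p : ℕ} (hf : Fld F p) {α : F} (hα : IsPrimitiveRoot α 11) {G : Subgroup (GL (Fin 2) F)}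
    {x s b : GL (Fin 2) F} (xm : x ∈ G) (sm : s ∈ G) (bm : b ∈ G)
    (hx : (x : Matrix (Fin 2) (Fin 2) F) = !![α, 0; 0, α⁻¹])
    (hs : (s : Matrix (Fin 2) (Fin 2) F) = !![0, -1; -1, 0])
    (hb1 : ¬ ((b : Matrix (Fin 2) (Fin 2) F) 0 1 = 0 ∧ (b : Matrix (Fin 2) (Fin 2) F) 1 0 = 0))
    (hb2 : ¬ ((b : Matrix (Fin 2) (Fin 2) F) 0 0 = 0 ∧ (b : Matrix (Fin 2) (Fin 2) F) 1 1 = 0)) :
    specialLinear (Fin 2) F ≤ ⁅G, G⁆ := by
  have := Fact.mk hf.1
  have := hf.2.1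
  have a0 : α ≠ 0 := hα.ne_zero (by norm_num)
  have a2 : α ^ 2 ≠ 1 := hα.pow_ne_one_of_pos_of_lt (by norm_num) (by norm_num)
  have d : ∀ g : GL (Fin 2) F, (g : Matrix (Fin 2) (Fin 2) F).det ≠ 0 := fun g =>
    ((Matrix.isUnit_iff_isUnit_det _).1 g.isUnit).ne_zero
  let H := G.map (ProjGenLinGroup.mk (n := Fin 2) (R := F))
  have hm : ∀ g ∈ G, pm (g : Matrix (Fin 2) (Fin 2) F) ∈ H := fun g hg => ⟨g, hg, (pm_coe g).symm⟩
  have X1 : pm (x : Matrix (Fin 2) (Fin 2) F) ≠ 1 := fun e => by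
    have e1 := ((pm_eq_one_iff (d x)).1 e).2.2
    rw [hx] at e1
    have e2 : α = α⁻¹ := e1
    exact a2 (by rw [sq]; nth_rewrite 2 [e2]; exact mul_inv_cancel₀ a0)
  have X11 : pm (x : Matrix (Fin 2) (Fin 2) F) ^ 11 = 1 := by
    have e : (!![α, 0; 0, α⁻¹] : Matrix (Fin 2) (Fin 2) F) = diagonal ![α, α⁻¹] := by
      ext i j
      fin_cases i <;> fin_cases j <;> simp
    rw [← pm_pow (d x), hx, e, diagonal_pow, ← pm_one]
    congr 1
    ext i j
    fin_cases i <;> fin_cases j <;> simp [hα.pow_eq_one]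
  have := Fact.mk (by norm_num : Nat.Prime 11)
  have ho : 11 ∣ Nat.card H := by
    rw [← orderOf_eq_prime X11 X1]
    exact H.orderOf_dvd_natCard (hm x xm)
  have Xi : pm (x : Matrix (Fin 2) (Fin 2) F) • (inf : P1 F) = inf :=
    (pm_smul_inf_eq_inf (d x)).2 (by rw [hx]; rfl)
  have X0 : pm (x : Matrix (Fin 2) (Fin 2) F) • pt (0 : F) = pt 0 :=
    (pm_smul_pt_eq_pt (d x)).2 (by rw [hx]; simp)
  have a4 : ¬ Nonempty (H ≃* alternatingGroup (Fin 4)) := fun ⟨e⟩ => by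
    rw [Nat.card_congr e.toEquiv, nat_card_alternatingGroup] at ho
    simp [Nat.factorial] at ho
  have s4 : ¬ Nonempty (H ≃* Equiv.Perm (Fin 4)) := fun ⟨e⟩ => by
    rw [Nat.card_congr e.toEquiv, Nat.card_perm] at ho
    simp [Nat.factorial] at ho
  have a5 : ¬ Nonempty (H ≃* alternatingGroup (Fin 5)) := fun ⟨e⟩ => by
    rw [Nat.card_congr e.toEquiv, nat_card_alternatingGroup] at ho
    simp [Nat.factorial] at ho
  rcases dickson_pgl p H with ⟨z, h⟩ | ⟨g, -, ht, h⟩ | ⟨-, h | h | h⟩ | ⟨-, h⟩ | ⟨k, c, -, h⟩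
  · exfalso
    have h1 := h _ (hm s sm)
    rcases eq_or_eq_of_fix X1 (inf_ne_pt 0) Xi X0 (h _ (hm x xm)) with rfl | rfl
    · have h2 := (pm_smul_inf_eq_inf (d s)).1 h1
      rw [hs] at h2
      simp at h2
    · have h2 := (pm_smul_pt_eq_pt (d s)).1 h1
      rw [hs] at h2
      simp at h2
  · exfalso
    have h1 : pm (x : Matrix (Fin 2) (Fin 2) F) ∈ tor g := by
      by_contra h2
      have h3 := orderOf_of_mem_ntor ht (h (hm x xm)) h2
      rw [orderOf_eq_prime X11 X1] at h3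
      omega
    have h2 := h (hm b bm)
    rw [← ntor_eq_of_mem (ne_one_of_tau ht) h1 X1, mem_ntor_iff_of_two_fix X1 (inf_ne_pt 0) Xi X0,
      pm_smul_inf_eq_inf (d b), pm_smul_pt_eq_pt (d b), pm_smul_inf_eq_pt (d b), pm_smul_pt_eq_inf (d b)] at h2
    simp only [mul_zero, zero_mul, zero_add] at h2
    exact h2.elim (fun e => hb1 ⟨e.2, e.1⟩) hb2
  · exact (a4 h).elim
  · exact (s4 h).elim
  · exact (a5 h).elim
  · exact (a5 h).elim
  have h1 : H ≤ cj c (subPGL k) := h.elim (fun e => e.le.trans (cj_mono c (subPSL_le_subPGL k))) fun e => e.le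
  have h2 : cj c (subPSL k) ≤ H := h.elim (fun e => e.ge) fun e => (cj_mono c (subPSL_le_subPGL k)).trans e.ge
  have h3 := tau_mem_of_mem_subPGL (mem_cj.1 (h1 (hm x xm)))
  rw [tau_conj', tau_pm (d x), hx] at h3
  have h4 : (α + α⁻¹) ^ 2 ∈ k := by
    convert h3 using 1
    simp [Matrix.trace_fin_two, Matrix.det_fin_two, a0]
  obtain rfl := DK.top_of_mem hf hα k h4
  rw [subPSL_top, cj_of_normal] at h2
  exact DK.le_of_psl a0 a2 h2

end Cfsg.Agent.E11C
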