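/-
S5852, part 11^(1+2): a `p'`-subgroup normalised by `u` without fixed points is trivial.
-/
import Mathlib
import Cfsg.Agent.E11C.Defs
import Cfsg.Agent.E11C.Bas

set_option autoImplicit false

namespace Cfsg.Agent.E11C

open Matrix Cfsg.Geo

variable {F : Type*} [Field F] [Fintype F] {p : ℕ} {ω : F} {x y u z w : GL (Fin 11) F}
  {M : Subgroup (GL (Fin 11) F)}

local notation "M11" => Matrix (Fin 11) (Fin 11) F
local notation "M5" => Matrix (Fin 5) (Fin 5) F

namespace FPF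

theorem comm_of_pow {G : Type*} [Group G] {u a : G} (hu : u ^ 11 = 1) (i : Fin 11) (hi : i ≠ 0)
    (h : Commute a (u ^ (i : ℕ))) : Commute a u := by
  obtain ⟨k, hk⟩ : ∃ k : Fin 11, ((i : ℕ) * (k : ℕ)) % 11 = 1 := by
    clear h; revert i; decide
  have e : (u ^ (i : ℕ)) ^ (k : ℕ) = u := by
    rw [← pow_mul, ← Nat.div_add_mod ((i : ℕ) * (k : ℕ)) 11, pow_add, pow_mul, hu, one_pow, one_mul,
      hk, pow_one]
  rw [← e]
  exact h.pow_right _

theorem sum_conj (Q : Subgroup (GL (Fin 11) F)) [Fintype Q] (v : GL (Fin 11) F)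
    (hn : v ∈ Subgroup.normalizer (Q : Set (GL (Fin 11) F)))
    (hf : ∀ a ∈ Q, Commute a v → a = 1) :
    ∑ a : Q, (((a : GL (Fin 11) F) * v * (a : GL (Fin 11) F)⁻¹ : GL (Fin 11) F) : M11) =
      (∑ a : Q, ((a : GL (Fin 11) F) : M11)) * (v : M11) := by
  have hm : ∀ a : Q, (a : GL (Fin 11) F) * (v * (a : GL (Fin 11) F)⁻¹ * v⁻¹) ∈ Q := fun a =>
    Q.mul_mem a.2 ((Subgroup.mem_normalizer_iff.1 hn _).1 (Q.inv_mem a.2))
  let φ : Q → Q := fun a => ⟨_, hm a⟩
  have hinj : Function.Injective φ := by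
    intro a b hab
    have e : (a : GL (Fin 11) F) * (v * (a : GL (Fin 11) F)⁻¹ * v⁻¹) =
        (b : GL (Fin 11) F) * (v * (b : GL (Fin 11) F)⁻¹ * v⁻¹) := congrArg Subtype.val hab
    have hc : Commute ((b : GL (Fin 11) F)⁻¹ * a) v := by
      have e2 : (b : GL (Fin 11) F)⁻¹ * a * v =
          (b : GL (Fin 11) F)⁻¹ * ((a : GL (Fin 11) F) * (v * (a : GL (Fin 11) F)⁻¹ * v⁻¹)) * v * a := by
        group
      show (b : GL (Fin 11) F)⁻¹ * a * v = v * ((b : GL (Fin 11) F)⁻¹ * a)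
      rw [e2, e]
      group
    have := hf _ (Q.mul_mem (Q.inv_mem b.2) a.2) hc
    exact Subtype.ext (inv_mul_eq_one.1 this).symm
  have hb : Function.Bijective φ := Finite.injective_iff_bijective.1 hinj
  rw [Finset.sum_mul, ← hb.sum_comp (fun a : Q => ((a : GL (Fin 11) F) : M11) * (v : M11))]
  refine Finset.sum_congr rfl fun a _ => ?_
  rw [← Units.val_mul]
  congr 1
  show _ = (a : GL (Fin 11) F) * (v * (a : GL (Fin 11) F)⁻¹ * v⁻¹) * v
  group

end FPF

theorem Std.fpf (h : Std p ω x y u z w M) (Q : Subgroup (GL (Fin 11) F)) (hn : u ∈ Subgroup.normalizer (Q : Set (GL (Fin 11) F)))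
    (hp : ¬ p ∣ Nat.card Q) (hf : ∀ a ∈ Q, Commute a u → a = 1) : Q = ⊥ := by
  classical
  have : Fintype Q := Fintype.ofFinite _
  have : CharP F p := h.fld.2.1
  set N : M11 := ∑ a : Q, ((a : GL (Fin 11) F) : M11) with hN
  set c : F := (Fintype.card Q : F) with hc
  have hc0 : c ≠ 0 := by
    rw [hc, Ne, CharP.cast_eq_zero_iff F p, ← Nat.card_eq_fintype_card]
    exact hp
  have hS : ∀ i : Fin 11, ∑ a : Q, (((a : GL (Fin 11) F) * u ^ (i : ℕ) * (a : GL (Fin 11) F)⁻¹ :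
      GL (Fin 11) F) : M11) = N * ((u ^ (i : ℕ) : GL (Fin 11) F) : M11) +
        if i = 0 then c • (1 : M11) - N else 0 := by
    intro i
    by_cases hi : i = 0
    · subst hi
      simp [hc, Finset.card_univ, Nat.cast_smul_eq_nsmul]
    · rw [if_neg hi, add_zero]
      exact FPF.sum_conj Q _ (Subgroup.pow_mem _ hn _)
        fun a ha hca => hf a ha (FPF.comm_of_pow h.u11 i hi hca)
  have h0 : ∑ i : Fin 11, ω ^ (9 * (i : ℕ)) • ∑ a : Q, (((a : GL (Fin 11) F) * u ^ (i : ℕ) *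
      (a : GL (Fin 11) F)⁻¹ : GL (Fin 11) F) : M11) = 0 := by
    simp_rw [Finset.smul_sum]
    rw [Finset.sum_comm]
    refine Finset.sum_eq_zero fun a _ => ?_
    have := congrArg (fun A : M11 => ((a : GL (Fin 11) F) : M11) * A *
      (((a : GL (Fin 11) F)⁻¹ : GL (Fin 11) F) : M11)) h.sum_u
    simp only [Finset.mul_sum, Finset.sum_mul, mul_zero, zero_mul, Matrix.mul_smul,
      Matrix.smul_mul] at this
    simpa only [Units.val_mul] using this
  have h1 : ∑ i : Fin 11, ω ^ (9 * (i : ℕ)) • (N * ((u ^ (i : ℕ) : GL (Fin 11) F) : M11)) = 0 := by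
    have := congrArg (fun A : M11 => N * A) h.sum_u
    simpa only [Finset.mul_sum, mul_zero, Matrix.mul_smul] using this
  have h2 : c • (1 : M11) = N := by
    simp_rw [hS, smul_add] at h0
    rw [Finset.sum_add_distrib, h1, zero_add, Finset.sum_eq_single (0 : Fin 11)] at h0
    · simpa [sub_eq_zero] using h0
    · intro i _ hi
      rw [if_neg hi, smul_zero]
    · simp
  rw [eq_bot_iff]
  intro b hb
  have h3 : (b : M11) * N = N := by
    rw [hN, Finset.mul_sum]
    have := Equiv.sum_comp (Equiv.mulLeft (⟨b, hb⟩ : Q)) (fun a : Q => ((a : GL (Fin 11) F) : M11))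
    simpa using this
  rw [← h2, Matrix.mul_smul, mul_one] at h3
  exact Units.ext (smul_right_injective _ hc0 h3)

end Cfsg.Agent.E11C
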