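/-
S5852, part 11^(1+2): groups of order dividing 7920 (proof in stubs/Cfsg/Agent/E11C/PLAN.md, section G11).
-/
import Mathlib
import Cfsg.Agent.E11C.Defs
import Cfsg.Agent.Inv.Basic

set_option autoImplicit false
set_option linter.unusedSectionVars false

namespace Cfsg.Agent.E11C

open Matrix Cfsg.Geo

namespace G11

open Subgroup MulAction

theorem ord3 : orderOf ((3 : ℕ) : ZMod 11) = 5 :=
  have := Fact.mk Nat.prime_five
  orderOf_eq_prime (by decide) (by decide)

variable {G : Type*} [Group G] [Finite G] [Fact (Nat.Prime 11)] {u v : G} {P : Sylow 11 G}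

theorem trans (hP : (P : Subgroup G) = zpowers u) (ho : orderOf u = 11) (hn : Nat.card (Sylow 11 G) = 12)
    {Q Q' : Sylow 11 G} (hQ : Q ≠ P) (hQ' : Q' ≠ P) : ∃ g ∈ zpowers u, g • Q = Q' := by
  have cP : Nat.card (zpowers u) = 11 := by rw [Nat.card_zpowers, ho]
  have fx : ∀ c ∈ zpowers u, c • P = P := fun c hc =>
    Sylow.smul_eq_iff_mem_normalizer.2 (le_normalizer (hP.ge hc))
  let f : zpowers u → {R : Sylow 11 G // R ≠ P} := fun g => ⟨(g : G) • Q, fun e =>
    hQ (smul_left_cancel (g : G) (e.trans (fx g g.2).symm))⟩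
  have hf : Function.Injective f := fun a b e => by
    by_contra n
    have h1 : (b⁻¹ * a : zpowers u) ≠ 1 := fun k => n (inv_mul_eq_one.1 k).symm
    have h2 : ((b⁻¹ * a : zpowers u) : G) • Q = Q := by
      rw [coe_mul, coe_inv, mul_smul, show (a : G) • Q = (b : G) • Q from congrArg Subtype.val e, inv_smul_smul]
    have h3 : (P : Subgroup G) ≤ stabilizer G Q := hP ▸ fun x hx => by
      obtain ⟨k, hk⟩ := mem_zpowers_of_prime_card (g' := (⟨x, hx⟩ : zpowers u)) cP h1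
      exact zpowers_le.2 (show _ ∈ stabilizer G Q from h2) ⟨k, congrArg Subtype.val hk⟩
    exact hQ (Sylow.ext (P.3 Q.2 (P.2.sylow_mem_fixedPoints_iff.1 fun g => h3 g.2)))
  have c2 : Nat.card {R : Sylow 11 G // R ≠ P} = 11 := by
    classical
    have := Fintype.ofFinite (Sylow 11 G)
    rw [Nat.card_eq_fintype_card, Fintype.card_subtype_compl, ← Nat.card_eq_fintype_card, hn,
      Fintype.card_subtype_eq]
  obtain ⟨g, hg⟩ := (hf.bijective_of_nat_card_le (by rw [cP, c2])).2 ⟨Q', hQ'⟩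
  exact ⟨g, g.2, congrArg Subtype.val hg⟩

theorem comm (hP : (P : Subgroup G) = zpowers u) (ho : orderOf u = 11) (nr : ∀ g, g * u * g⁻¹ ≠ u⁻¹) {k : G}
    (k2 : k * k = 1) (hk : k • P = P) : Commute k u := by
  have h1 : k * u * k⁻¹ ∈ zpowers u :=
    hP ▸ (mem_normalizer_iff.1 (Sylow.smul_eq_iff_mem_normalizer.1 hk) u).1 (hP.ge (mem_zpowers u))
  obtain ⟨j, hj⟩ := mem_powers_iff_mem_zpowers.2 h1
  replace hj : u ^ j = k * u * k⁻¹ := hj
  have h2 : u ^ (j * j) = u ^ 1 := by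
    rw [pow_mul, hj, conj_pow, hj, pow_one]
    calc k * (k * u * k⁻¹) * k⁻¹ = k * k * u * (k * k)⁻¹ := by group
      _ = u := by simp [k2]
  rw [pow_eq_pow_iff_modEq, ho] at h2
  have h3 : j ≡ 1 [MOD 11] ∨ j + 1 ≡ 0 [MOD 11] := by
    unfold Nat.ModEq at *
    rw [Nat.mul_mod] at h2
    rw [Nat.add_mod]
    have := Nat.mod_lt j (show 0 < 11 by norm_num)
    generalize j % 11 = r at *
    interval_cases r <;> simp_all
  rw [← ho, ← pow_eq_pow_iff_modEq, ← pow_eq_pow_iff_modEq, pow_one, pow_succ, pow_zero, hj] at h3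
  exact mul_inv_eq_iff_eq_mul.1 (h3.resolve_right fun e => nr k (eq_inv_of_mul_eq_one_left e))

theorem free (hP : (P : Subgroup G) = zpowers u) (ho : orderOf u = 11) (hn : Nat.card (Sylow 11 G) = 12)
    (hv : IsConj u v) (nr : ∀ g, g * u * g⁻¹ ≠ u⁻¹) (cen : ∀ g, Commute g u → Commute g v → g = 1) {k : G}
    (k2 : k * k = 1) (hk : k • P = P) : k = 1 := by
  have := Fact.mk Nat.prime_two
  have c := comm hP ho nr k2 hk
  have st : ∀ R : Sylow 11 G, k • R = R ↔ R ∈ fixedPoints (zpowers k) (Sylow 11 G) := fun R =>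
    ⟨fun e g => (zpowers_le.2 (show k ∈ stabilizer G R from e) : zpowers k ≤ stabilizer G R) g.2,
      fun e => e ⟨k, mem_zpowers k⟩⟩
  have pk : IsPGroup 2 (zpowers k) := IsPGroup.of_card_dvd_pow (n := 1) (by
    rw [Nat.card_zpowers]; exact orderOf_dvd_of_pow_eq_one (by rwa [pow_one, sq]))
  obtain ⟨Q, hQ, n⟩ := pk.exists_fixed_point_of_prime_dvd_card_of_fixed_point (Sylow 11 G)
    (by rw [hn]; norm_num) ((st P).1 hk)
  have all : ∀ R : Sylow 11 G, k • R = R := fun R => by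
    by_cases e : R = P
    · rw [e, hk]
    obtain ⟨_, ⟨i, rfl⟩, rfl⟩ := trans hP ho hn n.symm e
    rw [← mul_smul, (c.zpow_right i).eq, mul_smul, (st Q).2 hQ]
  obtain ⟨g, rfl⟩ := isConj_iff.1 hv
  have c' := comm hP ho nr (k := g⁻¹ * k * g) (by
    calc g⁻¹ * k * g * (g⁻¹ * k * g) = g⁻¹ * (k * k) * g := by group
      _ = 1 := by simp [k2]) (by rw [mul_smul, mul_smul, all, inv_smul_smul])
  refine cen k c ?_
  calc k * (g * u * g⁻¹) = g * (g⁻¹ * k * g * u) * g⁻¹ := by group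
    _ = g * u * g⁻¹ * k := by rw [c'.eq]; group

end G11

open Subgroup MulAction in
theorem g11 {G : Type*} [Group G] [Finite G] (hG : Nat.card G ∣ 7920) {u v h : G}
    (u11 : u ^ 11 = 1) (u1 : u ≠ 1) (hv : IsConj u v) (hu : h * u * h⁻¹ = u ^ 3)
    (nr : ∀ g, g * u * g⁻¹ ≠ u⁻¹) (cen : ∀ g, Commute g u → Commute g v → g = 1) :
    One (⊤ : Subgroup G) ∨ Nat.card G = 7920 := by
  have := Fact.mk (by norm_num : Nat.Prime 11)
  have ho : orderOf u = 11 := orderOf_eq_prime u11 u1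
  have cP : Nat.card (zpowers u) = 11 := by rw [Nat.card_zpowers, ho]
  let P : Sylow 11 G := (IsPGroup.of_card (G := zpowers u) (n := 1) (by rw [cP, pow_one])).toSylow fun e => by
    have := (Nat.mul_dvd_mul_left 11 e).trans (cP ▸ (zpowers u).card_mul_index ▸ hG)
    omega
  have hP : (P : Subgroup G) = zpowers u := rfl
  have hN : h ∈ normalizer (P : Set G) := mem_normalizer_fintype fun x hx => by
    obtain ⟨i, rfl⟩ : x ∈ zpowers u := hx
    change h * u ^ i * h⁻¹ ∈ zpowers u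
    rw [← conj_zpow, hu]
    exact zpow_mem (pow_mem (mem_zpowers u) 3) i
  have h11 : 11 ∣ Nat.card (normalizer (P : Set G)) := cP.symm.dvd.trans (card_dvd_of_le (hP.ge.trans le_normalizer))
  have h5 : 5 ∣ Nat.card (normalizer (P : Set G)) := by
    have h1 : ∀ n : ℕ, h ^ n * u * (h ^ n)⁻¹ = u ^ 3 ^ n := fun n => by
      induction n with
      | zero => simp
      | succ n ih => rw [pow_succ', pow_succ', pow_mul, ← hu, conj_pow, ← ih]; group
    have h2 := h1 (Nat.card (normalizer (P : Set G)))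
    rw [orderOf_dvd_iff_pow_eq_one.1 (Subgroup.orderOf_dvd_natCard _ hN), one_mul, inv_one, mul_one, eq_comm,
      ← pow_one u, ← pow_mul, one_mul, pow_eq_pow_iff_modEq, ho, ← ZMod.natCast_eq_natCast_iff, Nat.cast_pow,
      Nat.cast_one, ← orderOf_dvd_iff_pow_eq_one] at h2
    exact G11.ord3.symm.dvd.trans h2
  obtain ⟨a, ha⟩ := Nat.Coprime.mul_dvd_of_dvd_of_dvd (by norm_num) h5 h11
  have hn := P.card_eq_index_normalizer
  have h1 := card_sylow_modEq_one 11 G
  have h2 := (normalizer (P : Set G)).card_mul_index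
  rw [← hn, ha] at h2
  have h3 : a * Nat.card (Sylow 11 G) ∣ 144 :=
    Nat.dvd_of_mul_dvd_mul_left (show 0 < 5 * 11 by norm_num) (by rwa [← mul_assoc, h2])
  have h4 : ∀ n ∈ Nat.divisors 144, n % 11 = 1 → n = 1 ∨ n = 12 ∨ n = 144 := by decide
  rcases h4 _ (Nat.mem_divisors.2 ⟨Dvd.dvd.trans (dvd_mul_left _ _) h3, by norm_num⟩) h1 with e | e | e
  · obtain ⟨g, rfl⟩ := isConj_iff.1 hv
    rw [hn, index_eq_one] at e
    obtain ⟨i, hi⟩ : g * u * g⁻¹ ∈ zpowers u :=
      hP ▸ (mem_normalizer_iff.1 (e.ge (mem_top g)) u).1 (hP.ge (mem_zpowers u))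
    exact (u1 (cen u (Commute.refl u) (hi ▸ Commute.self_zpow u i))).elim
  · refine Or.inl fun a _ b _ a2 b2 a1 b1 => ?_
    have fr := fun k => G11.free (k := k) hP ho e hv nr cen
    obtain ⟨g, hg, k⟩ := G11.trans hP ho e (Q := a • P) (Q' := b • P) (fun k => a1 (fr a a2 k))
      fun k => b1 (fr b b2 k)
    have g1 : g⁻¹ • P = P := Sylow.smul_eq_iff_mem_normalizer.2 (le_normalizer (hP.ge (inv_mem hg)))
    have c2 : g * a * g⁻¹ * (g * a * g⁻¹) = 1 := by rw [conj_mul, a2, mul_one, mul_inv_cancel]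
    have c3 : b * (g * a * g⁻¹) ∈ stabilizer G P := by
      rw [mem_stabilizer_iff, mul_smul, mul_smul, mul_smul, g1, k, ← mul_smul, b2, one_smul]
    have c4 : Odd (orderOf (b * (g * a * g⁻¹))) := Nat.not_even_iff_odd.1 fun n => by
      have o := orderOf_pow_orderOf_div (orderOf_pos (b * (g * a * g⁻¹))).ne' n.two_dvd
      have := fr _ (by rw [← sq]; exact orderOf_dvd_iff_pow_eq_one.1 o.dvd) (pow_mem c3 (orderOf (b * (g * a * g⁻¹)) / 2))
      rw [this, orderOf_one] at o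
      omega
    obtain ⟨c, hc⟩ := isConj_iff.1 ((isConj_iff.2 ⟨g, rfl⟩).trans (Inv.isConj_of_odd b2 c2 c4).symm)
    exact ⟨c, mem_top c, hc⟩
  · rw [e] at h2 h3
    have := Nat.le_of_dvd (by norm_num) h3
    have := Nat.card_pos (α := G)
    exact Or.inr (by omega)

end Cfsg.Agent.E11C
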