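import Mathlib
import Cfsg.Agent.E11C.GB
import Cfsg.Agent.Cl.MxQS
import Cfsg.Agent.Cl.MxSL
import Cfsg.Agent.Cl.MxSp2
import Cfsg.Agent.Cl.MaxAschL

/-! The extraspecial group of order `11 ^ 3` in `GL₁₁` and its normaliser in standard form. -/

set_option autoImplicit false

namespace Cfsg.Agent.E11C

open Matrix Cfsg.Geo Module

variable {F : Type*} [Field F] [Fintype F]

local notation "M11" => Matrix (Fin 11) (Fin 11) F
local notation "SL11" => specialLinear (Fin 11) F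
local notation "Z11" => scalars (Fin 11) F
local notation "GL11" => GL (Fin 11) F

namespace GStd

open Cfsg.Agent.Cl.Max Cfsg.Agent.Cl.Mx

omit [Fintype F] in
theorem sc_cm (c : Fˣ) (g : GL11) : Commute (sc (Fin 11) c) g := mul_comm_of_mem_scalars (sc_mem c) g

omit [Fintype F] in
theorem pow_rel {a b : GL11} {c : Fˣ} (h : b * a = sc (Fin 11) c * (a * b)) (k : ℕ) :
    b * a ^ k = sc (Fin 11) (c ^ k) * (a ^ k * b) := by
  have h1 : b * a ^ k * b⁻¹ = sc (Fin 11) (c ^ k) * a ^ k := by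
    rw [← conj_pow, h, ← mul_assoc, mul_inv_cancel_right, Commute.mul_pow (sc_cm c a), map_pow]
  rw [← mul_assoc, ← h1, inv_mul_cancel_right]

omit [Fintype F] in
theorem model {a b : GL11} {c : Fˣ} {ω : F} (hω : IsPrimitiveRoot ω 11) (hc : (c : F) = ω⁻¹) (ha : a ^ 11 = 1)
    (hb : b ^ 11 = 1) (h : b * a = sc (Fin 11) c * (a * b)) :
    ∃ P : GL11, ((P⁻¹ * a * P : GL11) : M11) = ckM ω ∧ ((P⁻¹ * b * P : GL11) : M11) = shM F := by
  have ha7 : (a : M11) ^ 11 = 1 := by rw [← Units.val_pow_eq_pow_val, ha, Units.val_one]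
  have hb7 : (b : M11) ^ 11 = 1 := by rw [← Units.val_pow_eq_pow_val, hb, Units.val_one]
  have h0 : ω ≠ 0 := hω.ne_zero (by norm_num)
  have tr : ∀ k : ℕ, 0 < k → k < 11 → ((a : M11) ^ k).trace = 0 := fun k k0 k7 => by
    have h2 := trace_cj b ((a ^ k : GL11) : M11)
    rw [cj_coe, pow_rel h, ← mul_assoc, mul_inv_cancel_right, Units.val_mul, coe_sc, smul_mul_assoc, one_mul,
      trace_smul, smul_eq_mul, Units.val_pow_eq_pow_val a, Units.val_pow_eq_pow_val, hc] at h2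
    by_contra h3
    exact hω.inv.pow_ne_one_of_pos_of_lt k0.ne' k7 ((mul_eq_right₀ h3).1 h2)
  obtain ⟨v, hv0, hv⟩ : ∃ v, v ≠ 0 ∧ (a : M11) *ᵥ v = v := by
    have h5 : (∑ k ∈ Finset.range 11, (a : M11) ^ k) ≠ 0 := fun e => by
      have h6 := congrArg trace e
      rw [trace_sum, Finset.sum_eq_single 0 (fun k hk k0 => tr k (by omega) (Finset.mem_range.1 hk)) (by simp),
        pow_zero, trace_one, trace_zero, Fintype.card_fin] at h6
      exact hω.neZero'.1 h6
    obtain ⟨u, hu⟩ : ∃ u, (∑ k ∈ Finset.range 11, (a : M11) ^ k) *ᵥ u ≠ 0 := by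
      by_contra! h6
      exact h5 (Matrix.ext_iff_mulVec.2 fun u => by rw [h6, zero_mulVec])
    refine ⟨_, hu, ?_⟩
    have := mul_geom_sum (a : M11) 11
    rw [ha7, sub_self, sub_mul, one_mul, sub_eq_zero] at this
    rw [mulVec_mulVec, this]
  have h4 : ∀ u, (a : M11) *ᵥ (b : M11) *ᵥ u = ω • (b : M11) *ᵥ (a : M11) *ᵥ u := fun u => by
    rw [← mul_mulVec b, h, mul_mulVec, sc_mulVec, mul_mulVec, smul_smul, hc, mul_inv_cancel₀ h0, one_smul]
  have h5 : ∀ k : ℕ, (a : M11) *ᵥ ((b : M11) ^ k *ᵥ v) = ω ^ k • ((b : M11) ^ k *ᵥ v) := fun k => by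
    induction k with
    | zero => simp [hv]
    | succ k ih => rw [pow_succ', ← mulVec_mulVec, h4, ih, mulVec_smul, smul_smul, pow_succ']
  have h6 : Function.Injective fun i : Fin 11 => ω ^ (i : ℕ) := fun i j e => Fin.ext (hω.pow_inj i.2 j.2 e)
  obtain ⟨e, P, hP⟩ := exists_trV_of_li (ι := Fin 11) (κ := Fin 11) rfl
    (fun i => (b : M11) ^ (i : ℕ) *ᵥ v) fun x hx => funext
      (Fintype.linearIndependent_iff.1 (Module.End.eigenvectors_linearIndependent'
        (toLin' (a : M11)) _ h6 _ fun i => ⟨Module.End.mem_eigenspace_iff.2 (h5 i), by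
          rw [← Units.val_pow_eq_pow_val]; exact mulVec_ne_zero _ hv0⟩) x hx)
  have h7 := fun x => (ofLin_mulVec _ x).trans (hP x)
  generalize ofLin (trV e P) = P' at h7
  have key : ∀ (g : GL11) (A : M11), (∀ x, (g : M11) *ᵥ (P' : M11) *ᵥ x = (P' : M11) *ᵥ A *ᵥ x) →
      ((P'⁻¹ * g * P' : GL11) : M11) = A := fun g A e => Matrix.ext_iff_mulVec.2 fun x => by
    rw [mul_mulVec, mul_mulVec, e, inv_mulVec_mulVec]
  refine ⟨P', key _ _ fun x => ?_, key _ _ fun x => ?_⟩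
  · simp only [h7, mulVec_sum, mulVec_smul, h5, smul_smul, ckM, mulVec_diagonal, mul_comm]
  · have h8 : ∀ i, (shM F *ᵥ x) (i + 1) = x i := fun i => by
      simp [mulVec, dotProduct, shM]
    rw [h7, h7, ← Equiv.sum_comp (Equiv.addRight 1) fun i => (shM F *ᵥ x) i • _]
    simp only [Equiv.coe_addRight, h8, mulVec_sum, mulVec_smul, mulVec_mulVec, ← pow_succ']
    refine Finset.sum_congr rfl fun i _ => ?_
    rw [Fin.val_add, Fin.val_one, ← pow_eq_pow_mod _ hb7]

theorem gen' {R : Subgroup GL11} (hR : Nat.card R = 11 ^ 3) {a b : GL11} (ha : a ∈ R) (hb : b ∈ R)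
    (h : b * a ≠ a * b) : Subgroup.closure {a, b} = R := by
  have := Fact.mk (by norm_num : Nat.Prime 11)
  have hle : Subgroup.closure {a, b} ≤ R := (Subgroup.closure_le _).2 (by
    rintro _ (rfl | rfl)
    exacts [ha, hb])
  have ma : a ∈ Subgroup.closure {a, b} := Subgroup.subset_closure (.inl rfl)
  have mb : b ∈ Subgroup.closure {a, b} := Subgroup.subset_closure (.inr rfl)
  generalize Subgroup.closure {a, b} = K at hle ma mb
  have hd := Subgroup.card_dvd_of_le hle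
  rw [hR] at hd
  obtain ⟨k, hk, e⟩ := (Nat.dvd_prime_pow this.1).1 hd
  by_cases k3 : k = 3
  · exact Subgroup.eq_of_le_of_card_ge hle (by rw [hR, e, k3])
  refine absurd (congrArg Subtype.val (show (⟨b, mb⟩ : K) * ⟨a, ma⟩ = ⟨a, ma⟩ * ⟨b, mb⟩ from ?_)) h
  by_cases k2 : k = 2
  · exact (IsPGroup.isMulCommutative_of_card_eq_prime_sq (k2 ▸ e)).is_comm.comm _ _
  · have : IsCyclic K := isCyclic_of_card_dvd_prime (p := 11) (by
      rw [e]
      exact (pow_dvd_pow 11 (by omega : k ≤ 1)).trans (by norm_num))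
    exact (IsCyclic.isMulCommutative (α := K)).is_comm.comm _ _



theorem exists_model {R : Subgroup GL11} (hR : IsLinearSymplecticTypeData 11 R) {ω : F}
    (hω : IsPrimitiveRoot ω 11) : ∃ P x y : GL11, (x : M11) = ckM ω ∧ (y : M11) = shM F ∧
      ∀ g, g ∈ Subgroup.closure {x, y} ↔ P * g * P⁻¹ ∈ R := by
  have := Fact.mk (by norm_num : Nat.Prime 11)
  have ext : ExtraData R R 11 := extraData_of_sympl hR.symplecticType (spans_of_acts hR.absIrred)
  have sev : ∀ x ∈ R, x ^ 11 = 1 := fun x hx => by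
    have := Monoid.pow_exponent_eq_one (⟨x, hx⟩ : R)
    rw [hR.symplecticType.exponent_eq] at this
    exact congrArg Subtype.val this
  have hc : Nat.card R = 11 ^ 3 := by
    rw [ext.card_eq, Fintype.card_fin, ext.card_scOf_of_odd (by simp) fun c hc =>
      sc_injective (ι := Fin 11) (by rw [map_pow, sev _ hc, map_one])]
    norm_num
  obtain ⟨a, ha, hs⟩ := SetLike.not_le_iff_exists.1 (ext.spans.not_le_scalars (by simp))
  obtain ⟨b, hb, c, c1, c7, rel⟩ := ext.exists_comm_ne ha hs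
  have h4 : IsPrimitiveRoot (c : F) 11 := IsPrimitiveRoot.coe_units_iff.2
    (orderOf_eq_prime c7 c1 ▸ IsPrimitiveRoot.orderOf c)
  obtain ⟨k, -, hk⟩ := h4.eq_pow_of_pow_eq_one hω.inv.pow_eq_one
  have rel' := pow_rel rel k
  rw [← Units.val_pow_eq_pow_val] at hk
  obtain ⟨P, h1, h2⟩ := model hω hk (sev _ (pow_mem ha k)) (sev b hb) rel'
  have e := gen' hc (pow_mem ha k) hb fun e => hω.inv.ne_one (by norm_num) (by
    rw [rel', mul_eq_right, map_eq_one_iff _ sc_injective] at e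
    rw [← hk, e, Units.val_one])
  refine ⟨P, _, _, h1, h2, fun g => ?_⟩
  rw [← e, ← Subgroup.mem_map_iff_mem (f := (MulAut.conj P).toMonoidHom) (MulAut.conj P).injective,
    MonoidHom.map_closure, Set.image_pair]
  simp [mul_assoc]

theorem root {p : ℕ} (hF : Fld F p) : ∃ ω : F, IsPrimitiveRoot ω 11 := by
  classical
  have : Fact (Nat.Prime 11) := ⟨by norm_num⟩
  have h : 11 ∣ Fintype.card Fˣ := by
    rw [Fintype.card_units]
    obtain ⟨-, -, ⟨h1, h2⟩ | ⟨h1, h2⟩⟩ := hF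
    · rw [h1]; omega
    · have : p ^ 5 % 11 = 1 := by
        rcases h2 with h2 | h2 | h2 | h2 <;> rw [Nat.pow_mod, h2]
      rw [h1]; omega
  obtain ⟨u, hu⟩ := exists_prime_orderOf_dvd_card 11 h
  exact ⟨(u : F), IsPrimitiveRoot.coe_units_iff.mpr (hu ▸ IsPrimitiveRoot.orderOf u)⟩

omit [Fintype F] in
theorem exists_sl {A : M11} (h : A.det = 1) : ∃ g ∈ SL11, (g : M11) = A :=
  ⟨GeneralLinearGroup.mkOfDetNeZero A (by rw [h]; exact one_ne_zero),
    (mem_specialLinear_iff _).2 h, rfl⟩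

omit [Fintype F] in
theorem det_perm (σ : Equiv.Perm (Fin 11)) :
    (of fun i j => if i = σ j then (1 : F) else 0).det = ((Equiv.Perm.sign σ : ℤ) : F) := by
  have e : (of fun i j => if i = σ j then (1 : F) else 0) = (1 : M11).submatrix id σ := by
    ext i j
    simp [one_apply]
  rw [e, det_permute', det_one, mul_one]

omit [Fintype F] in
theorem det_sh : (shM F).det = 1 := by
  rw [show shM F = _ from rfl, shM]
  exact (det_perm (Equiv.addRight 1)).trans (by
    rw [show Equiv.Perm.sign (Equiv.addRight (1 : Fin 11)) = 1 by decide +kernel]; simp)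

omit [Fintype F] in
theorem det_z : (zM F).det = 1 := by
  have e : zM F = -of fun i j => if i = Equiv.neg (Fin 11) j then (1 : F) else 0 := by
    ext i j
    simp only [zM, of_apply, Matrix.neg_apply, Equiv.neg_apply]
    split_ifs <;> simp
  rw [e, det_neg, det_perm, show Equiv.Perm.sign (Equiv.neg (Fin 11)) = -1 by decide +kernel]
  norm_num

omit [Fintype F] in
theorem det_pm {s t : Fin 11} (h : t * s = 1) : ∃ e : F, e * e = 1 ∧ (e • pmM F s).det = 1 := by
  let σ : Equiv.Perm (Fin 11) := ⟨(s * ·), (t * ·), fun j => by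
    change t * (s * j) = j
    rw [← mul_assoc, h, one_mul], fun j => by
    change s * (t * j) = j
    rw [← mul_assoc, mul_comm s, h, one_mul]⟩
  have e : ((Equiv.Perm.sign σ : ℤ) : F) * ((Equiv.Perm.sign σ : ℤ) : F) = 1 := by
    rw [← Int.cast_mul, ← Units.val_mul, Int.units_mul_self]; simp
  refine ⟨_, e, ?_⟩
  rw [det_smul, show (pmM F s).det = _ from det_perm σ, Fintype.card_fin, ← pow_succ,
    show 11 + 1 = 2 * 6 from rfl, pow_mul, sq, e, one_pow]

omit [Fintype F] in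
theorem exists_gamma {ω : F} (h : IsPrimitiveRoot ω 11) :
    ∃ γ : F, 11 * γ ^ 2 = -1 ∧ (γ • wM ω).det = 1 := by
  have h0 : (11 : F) ≠ 0 := by exact_mod_cast h.neZero'.1
  have hs := h.geom_sum_eq_zero (by norm_num)
  simp only [Finset.sum_range_succ, Finset.sum_range_zero] at hs
  obtain ⟨γ, hγ⟩ : ∃ γ : F, 11 * γ ^ 2 = -1 :=
    ⟨(1 + 2 * (ω + ω ^ 3 + ω ^ 4 + ω ^ 5 + ω ^ 9)) / 11, by
      field_simp
      linear_combination (12 - 8 * ω + 8 * ω ^ 4 - 4 * ω ^ 7 + 4 * ω ^ 8) * hs⟩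
  have e : (γ • wM ω).det * (γ • wM ω).det = 1 := by
    rw [← det_mul, smul_mul_smul_comm, GB.w_w h, smul_smul,
      show γ * γ * -11 = 1 by linear_combination -hγ, one_smul, det_z]
  rcases mul_self_eq_one_iff.1 e with e | e
  · exact ⟨γ, hγ, e⟩
  · refine ⟨-γ, by rw [neg_sq, hγ], ?_⟩
    rw [neg_smul, det_neg, e]
    norm_num

theorem mem_norm {x y g : GL11} (h1 : g * x * g⁻¹ ∈ Subgroup.closure {x, y})
    (h2 : g * y * g⁻¹ ∈ Subgroup.closure {x, y}) :
    g ∈ Subgroup.normalizer ((Subgroup.closure {x, y} : Subgroup GL11) : Set GL11) := by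
  refine Subgroup.mem_normalizer_fintype fun a ha => ?_
  have : Subgroup.closure {x, y} ≤ (Subgroup.closure {x, y}).comap (MulAut.conj g).toMonoidHom :=
    (Subgroup.closure_le _).2 (by
      rintro _ (rfl | rfl)
      exacts [h1, h2])
  exact this ha

end GStd

open GStd Cfsg.Agent.Cl.Max in
theorem exists_std {p : ℕ} (hF : Fld F p) {R : Subgroup (GL (Fin 11) F)}
    (hR : IsLinearSymplecticTypeData 11 R) :
    ∃ (P : GL (Fin 11) F) (ω : F) (x y u z w : GL (Fin 11) F),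
      R.comap (MulAut.conj P).toMonoidHom = Subgroup.closure {x, y} ∧
      Std p ω x y u z w
        (Subgroup.normalizer ((Subgroup.closure {x, y} : Subgroup (GL (Fin 11) F)) :
          Set (GL (Fin 11) F)) ⊓ specialLinear (Fin 11) F) := by
  obtain ⟨ω, hω⟩ := root hF
  have o11 := hω.pow_eq_one
  obtain ⟨P, x, y, hx, hy, hP⟩ := exists_model hR hω
  obtain ⟨γ, hγ, dw⟩ := exists_gamma hω
  obtain ⟨u, u1, hu⟩ := exists_sl (A := dqM ω) (by
    rw [dqM, det_diagonal, Finset.prod_pow_eq_pow_sum,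
      show ∑ i : Fin 11, (i : ℕ) ^ 2 = 11 * 35 by decide, pow_mul, o11, one_pow])
  obtain ⟨z, z1, hz⟩ := exists_sl (det_z (F := F))
  obtain ⟨w, w1, hw⟩ := exists_sl dw
  have x1 : x ∈ SL11 := (mem_specialLinear_iff _).2 (by
    rw [hx, ckM, det_diagonal, Finset.prod_pow_eq_pow_sum,
      show ∑ i : Fin 11, (i : ℕ) = 11 * 5 by decide, pow_mul, o11, one_pow])
  have y1 : y ∈ SL11 := (mem_specialLinear_iff _).2 (hy ▸ det_sh)
  have hh : ∀ s : Fin 11, s ≠ 0 → ∃ t, t * s = 1 ∧ ∃ g ∈ SL11, ∃ e : F, e * e = 1 ∧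
      (g : M11) = e • pmM F s := fun s hs => by
    obtain ⟨t, ht⟩ := (by decide : ∀ s : Fin 11, s ≠ 0 → ∃ t, t * s = 1) s hs
    obtain ⟨e, e1, e2⟩ := det_pm (F := F) ht
    obtain ⟨g, g1, hg⟩ := exists_sl e2
    exact ⟨t, ht, g, g1, e, e1, hg⟩
  have h : Std p ω x y u z w SL11 := ⟨hF, hω, hx, hy, hu, hz, ⟨γ, hγ, hw⟩,
    fun s hs => let ⟨_, _, k⟩ := hh s hs; k, x1, y1, u1, z1, w1, le_rfl⟩
  have a : x ∈ Subgroup.closure {x, y} := Subgroup.subset_closure (by simp)
  have b : y ∈ Subgroup.closure {x, y} := Subgroup.subset_closure (by simp)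
  refine ⟨P, ω, x, y, u, z, w, Subgroup.ext fun g => (hP g).symm, hF, hω, hx, hy, hu, hz,
    ⟨γ, hγ, hw⟩, fun s hs => ?_, ⟨Subgroup.le_normalizer a, x1⟩, ⟨Subgroup.le_normalizer b, y1⟩,
    ⟨mem_norm ?_ ?_, u1⟩, ⟨mem_norm ?_ ?_, z1⟩, ⟨mem_norm ?_ ?_, w1⟩, inf_le_right⟩
  · obtain ⟨t, ht, g, g1, e, e1, hg⟩ := hh s hs
    have k1 : g * x = x ^ (t : ℕ) * g := Units.ext (by
      rw [Units.val_mul, Units.val_mul, Units.val_pow_eq_pow_val, hg, hx, smul_mul_assoc,
        mul_smul_comm, GB.pm_ck o11 ht])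
    have k2 : g * y = y ^ (s : ℕ) * g := Units.ext (by
      rw [Units.val_mul, Units.val_mul, Units.val_pow_eq_pow_val, hg, hy, smul_mul_assoc,
        mul_smul_comm, GB.pm_sh])
    refine ⟨g, ⟨mem_norm ?_ ?_, g1⟩, e, e1, hg⟩
    · rw [k1, mul_inv_cancel_right]; exact pow_mem a _
    · rw [k2, mul_inv_cancel_right]; exact pow_mem b _
  · rwa [h.g_ux, mul_inv_cancel_right]
  · rw [h.g_uy, ← mul_assoc, mul_inv_cancel_right]
    exact mul_mem (mul_mem (mul_mem (mul_mem a b) (inv_mem a)) (inv_mem b))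
      (mul_mem (mul_mem b a) a)
  · rw [h.g_zx]; exact inv_mem a
  · rw [h.g_zy]; exact inv_mem b
  · rw [h.g_wx, mul_inv_cancel_right]; exact pow_mem b _
  · rw [h.g_wy, mul_inv_cancel_right]; exact mul_mem a a

end Cfsg.Agent.E11C
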