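/-
Overgroups of the `11^(1+2)` normaliser in `SL₁₁(q)`: a suitable transvection generates everything.
-/
import Mathlib
import Cfsg.Agent.E11C.GB
import Cfsg.Agent.Cl.D5Defs
import Cfsg.Agent.Cl.LinearBasic

set_option autoImplicit false

namespace Cfsg.Agent.E11C

open Matrix Cfsg.Geo Cfsg.Agent.Cl.D5 Module
open scoped MatrixGroups ComplexConjugate commutatorElement

variable {F : Type*} [Field F] [Fintype F]

local notation "M11" => Matrix (Fin 11) (Fin 11) F
local notation "SL11" => specialLinear (Fin 11) F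
local notation "Z11" => scalars (Fin 11) F
local notation "GL11" => GL (Fin 11) F

variable {p : ℕ} {ω : F} {x y u z w : GL (Fin 11) F} {M : Subgroup (GL (Fin 11) F)}

omit [Fintype F] in
theorem fin_conj {v η η' : Fin 11 → F} (ht : MT M v η) {g : GL (Fin 11) F} (hg : g ∈ M)
    (he : η' ᵥ* (g : M11) = η) : MT M ((g : M11) *ᵥ v) η' := by
  have h := ht.conj hg
  rwa [← he, vecMul_vecMul, Units.mul_inv, vecMul_one] at h

omit [Fintype F] in
theorem fin_diag {v η d : Fin 11 → F} (ht : MT M v η) {g : GL (Fin 11) F} (hg : g ∈ M)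
    (hd : (g : M11) = diagonal d) (h0 : ∀ i, d i ≠ 0) :
    MT M (fun i => d i * v i) (fun i => η i * (d i)⁻¹) := by
  have h := fin_conj (η' := fun i => η i * (d i)⁻¹) ht hg (by
    rw [hd]
    ext i
    rw [vecMul_diagonal, mul_assoc, inv_mul_cancel₀ (h0 i), mul_one])
  convert h using 1
  rw [hd]
  ext i
  rw [mulVec_diagonal]

theorem fin_shift (h : Std p ω x y u z w M) {i j : Fin 11} {c : F}
    (ht : MT M (Pi.single i 1) (Pi.single j c)) :
    MT M (Pi.single (i + 1) 1) (Pi.single (j + 1) c) := by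
  have h1 := fin_conj (η' := Pi.single (j + 1) c) ht h.ym (by
    rw [h.hy]
    ext k
    rw [single_vecMul]
    by_cases hk : k = j
    · subst hk
      simp [shM]
    · have : ¬ j = k := fun e => hk e.symm
      simp [shM, hk, this])
  convert h1 using 1
  rw [h.hy]
  ext k
  rw [mulVec_single_one]
  simp [shM, Pi.single_apply]

omit [Fintype F] in
theorem fin_tv (i j : Fin 11) (c : F) (v : Fin 11 → F) :
    (1 + single i j c : M11) *ᵥ v = v + (Pi.single j c ⬝ᵥ v) • Pi.single i 1 := by
  rw [add_mulVec, one_mulVec, single_mulVec, single_dotProduct]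
  congr 1
  ext k
  by_cases hk : k = i
  · subst hk
    simp
  · simp [hk]

/-- The multipliers of the root group form a subfield. -/
theorem fin_all (h : Std p ω x y u z w M) {i j : Fin 11} (hij : i ≠ j) {c : F} (hc : c ≠ 0)
    (ht : MT M (Pi.single i 1) (Pi.single j c)) (e : F) :
    MT M (Pi.single i 1) (Pi.single j e) := by
  have hω : ω ≠ 0 := h.om.ne_zero (by norm_num)
  let k0 : Subring F :=
    { carrier := {a | ∀ c, MT M (Pi.single i 1) (Pi.single j c) →
        MT M (Pi.single i 1) (Pi.single j (a * c))}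
      mul_mem' := fun {a b} ha hb c hc => by rw [mul_assoc]; exact ha _ (hb _ hc)
      one_mem' := fun c hc => by rwa [one_mul]
      add_mem' := fun {a b} ha hb c hc => by
        rw [add_mul, Pi.single_add]; exact (ha _ hc).add (hb _ hc)
      zero_mem' := fun c _ => by rw [zero_mul, Pi.single_zero]; exact MT.zero _ _
      neg_mem' := fun {a} ha c hc => by
        rw [neg_mul, Pi.single_neg]; exact (ha _ hc).neg }
  let k : Subfield F :=
    { k0 with
      inv_mem' := fun a ha => by
        by_cases h0 : a = 0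
        · rw [h0, _root_.inv_zero]; exact k0.zero_mem
        · have h1 : a⁻¹ = a ^ (Fintype.card F - 2) := by
            have h2 := FiniteField.pow_card_sub_one_eq_one a h0
            have h3 : Fintype.card F - 1 = (Fintype.card F - 2) + 1 := by
              have := Fintype.one_lt_card (α := F)
              omega
            rw [h3, pow_succ] at h2
            exact (eq_inv_of_mul_eq_one_left h2).symm
          rw [h1]
          exact k0.pow_mem ha _ }
  have hζ : ω ^ (i : ℕ) * (ω ^ (j : ℕ))⁻¹ ∈ k := by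
    intro c hc
    have h1 := fin_diag hc h.xm h.hx (fun i => pow_ne_zero _ hω)
    have h2 : (fun l : Fin 11 => ω ^ (l : ℕ) * (Pi.single i (1 : F) : Fin 11 → F) l) =
        ω ^ (i : ℕ) • (Pi.single i (1 : F) : Fin 11 → F) := by
      ext l
      by_cases hl : l = i
      · subst hl; simp
      · simp [hl]
    rw [h2, MT.smul_iff] at h1
    convert h1 using 1
    ext l
    by_cases hl : l = j
    · subst hl
      simp only [Pi.single_eq_same, Pi.smul_apply, smul_eq_mul]
      ring
    · simp [hl]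
  have h7 : (ω ^ (i : ℕ) * (ω ^ (j : ℕ))⁻¹) ^ 11 = 1 := by
    rw [mul_pow, inv_pow, ← pow_mul, ← pow_mul, mul_comm (i : ℕ), mul_comm (j : ℕ), pow_mul,
      pow_mul, h.om.pow_eq_one]
    simp
  have h1 : ω ^ (i : ℕ) * (ω ^ (j : ℕ))⁻¹ ≠ 1 := by
    intro e
    rw [mul_inv_eq_one₀ (pow_ne_zero _ hω)] at e
    exact hij (Fin.ext (h.om.pow_inj i.2 j.2 e))
  have hp : IsPrimitiveRoot (ω ^ (i : ℕ) * (ω ^ (j : ℕ))⁻¹) 11 := by
    have : Fact (Nat.Prime 11) := ⟨by norm_num⟩
    have h2 := IsPrimitiveRoot.orderOf (ω ^ (i : ℕ) * (ω ^ (j : ℕ))⁻¹)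
    rwa [orderOf_eq_prime h7 h1] at h2
  obtain ⟨n, -, hn⟩ := hp.eq_pow_of_pow_eq_one h.om.pow_eq_one
  have hk : k = ⊤ := h.g_gen k (hn ▸ k.pow_mem hζ n)
  have he : e * c⁻¹ ∈ k := hk ▸ Subfield.mem_top _
  have h3 := he c ht
  rwa [mul_assoc, inv_mul_cancel₀ hc, mul_one] at h3

theorem fin_T (h : Std p ω x y u z w M) {i j : Fin 11} (hij : i ≠ j) {c : F} (hc : c ≠ 0)
    (ht : MT M (Pi.single i 1) (Pi.single j c)) : M = SL11 := by
  let R : Fin 11 → Fin 11 → Prop := fun a b => ∀ e : F, MT M (Pi.single a 1) (Pi.single b e)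
  have s1 : ∀ a b, R a b → R (a + 1) (b + 1) := fun a b hab e => fin_shift h (hab e)
  have r0 : R i j := fin_all h hij hc ht
  have tr : ∀ a b e, R a b → R b e → e ≠ a → R a e := by
    intro a b e hab hbe hea t
    have h1 := (hab 1).comm (hbe t) (by rw [single_dotProduct]; simp [hea])
    rwa [single_dotProduct, Pi.single_eq_same, one_mul, one_smul] at h1
  have s2 : ∀ n : ℕ, R (i + (n : ℕ) • (1 : Fin 11)) (j + (n : ℕ) • (1 : Fin 11)) := by
    intro n
    induction n with
    | zero => simpa using r0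
    | succ n ih => rw [succ_nsmul, ← add_assoc, ← add_assoc]; exact s1 _ _ ih
  have s3 : ∀ a, R a (a + (j - i)) := by
    intro a
    have h1 := s2 ((a - i : Fin 11) : ℕ)
    have h2 : ∀ b : Fin 11, (b : ℕ) • (1 : Fin 11) = b := by decide
    rw [h2] at h1
    have e1 : i + (a - i) = a := by abel
    have e2 : j + (a - i) = a + (j - i) := by abel
    rwa [e1, e2] at h1
  have hδ : j - i ≠ 0 := sub_ne_zero.2 hij.symm
  generalize j - i = δ at s3 hδ
  have d1 : ∀ δ : Fin 11, δ ≠ 0 → ∀ n < 10, (n + 1) • δ ≠ 0 := by decide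
  have d2 : ∀ δ e : Fin 11, δ ≠ 0 → e ≠ 0 → ∃ n < 10, (n + 1) • δ = e := by decide
  have d3 : ∀ a, ∀ n < 10, R a (a + (n + 1) • δ) := fun a n => by
    induction n with
    | zero => simpa using s3 a
    | succ n ih =>
      intro hn
      have := tr _ _ _ (ih (by omega)) (s3 _) (by
        rw [add_assoc, ← succ_nsmul, Ne, add_eq_left]; exact d1 δ hδ _ hn)
      rwa [add_assoc, ← succ_nsmul] at this
  have all : ∀ a b, a ≠ b → R a b := fun a b hab => by
    obtain ⟨n, hn, e⟩ := d2 δ (b - a) hδ (sub_ne_zero.2 hab.symm)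
    have := d3 a n hn
    rwa [e, add_sub_cancel] at this
  refine le_antisymm h.sl (Cl.gl_ker_det_le_of_transvection_mem M fun a b hab e => ?_)
  obtain ⟨-, g, hg, hge⟩ := all a b hab e
  convert hg using 1
  apply Units.ext
  have h1 : (g : M11) = 1 + single a b e := by
    apply Matrix.toLin'.injective
    ext1
    ext1
    simp only [LinearMap.comp_apply, toLin'_apply]
    rw [hge, fin_tv]
  rw [h1]
  rfl

theorem Std.fin0 (h : Std p ω x y u z w M) {i j : Fin 11} (hij : i ≠ j) {c : F} (hc : c ≠ 0)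
    (hm : In M (1 + single i j c)) : M = specialLinear (Fin 11) F := by
  obtain ⟨g, hg, e⟩ := hm
  refine fin_T h hij hc ⟨?_, g, hg, fun v => by rw [e, fin_tv]⟩
  rw [single_dotProduct]
  simp [hij.symm]

theorem fin_sep (h : Std p ω x y u z w M) (j : Fin 11) : ∃ g ∈ M, ∃ d : Fin 11 → F,
    (g : M11) = diagonal d ∧ (∀ i, d i ≠ 0) ∧ ∀ i, d i = 1 ↔ i = 0 ∨ i = j := by
  have hω : ω ≠ 0 := h.om.ne_zero (by norm_num)
  refine ⟨x ^ (11 - (j : ℕ)) * u, M.mul_mem (M.pow_mem h.xm _) h.um,
    fun i => ω ^ ((i : ℕ) * (11 - (j : ℕ)) + (i : ℕ) ^ 2), ?_, fun i => pow_ne_zero _ hω,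
    fun i => ?_⟩
  · rw [Units.val_mul, Units.val_pow_eq_pow_val, h.hx, h.hu, dqM, GB.ck_pow,
      diagonal_mul_diagonal]
    congr 1
    ext i
    rw [pow_add]
  · rw [h.om.pow_eq_one_iff_dvd]
    revert i j
    decide

theorem Std.fin10 (h : Std p ω x y u z w M) {η : Fin 11 → F} (hη : η ≠ 0)
    (ht : MT M (Pi.single 0 1) η) : M = SL11 := by
  obtain ⟨i0, hi0⟩ := Function.ne_iff.1 hη
  have h0 : i0 ≠ 0 := by
    rintro rfl
    have h1 := ht.1
    rw [dotProduct_single, mul_one] at h1
    exact hi0 h1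
  have key : ∀ s : Finset (Fin 11), i0 ∉ s →
      ∃ ζ, MT M (Pi.single 0 1) ζ ∧ ζ i0 ≠ 0 ∧ ∀ j ∈ s, ζ j = 0 := by
    intro s
    induction s using Finset.induction_on with
    | empty => exact fun _ => ⟨η, ht, hi0, by simp⟩
    | insert j s hj ih =>
      intro hi
      rw [Finset.mem_insert, not_or] at hi
      obtain ⟨ζ, m, n, z⟩ := ih hi.2
      obtain ⟨g, hg, d, hd, d0, d1⟩ := fin_sep h j
      have h1 := fin_diag m hg hd d0
      have h2 : (fun l : Fin 11 => d l * (Pi.single 0 (1 : F) : Fin 11 → F) l) =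
          (Pi.single 0 (1 : F) : Fin 11 → F) := by
        ext l
        by_cases hl : l = 0
        · subst hl; simp [(d1 0).2 (Or.inl rfl)]
        · simp [hl]
      rw [h2] at h1
      refine ⟨_, m.sub h1, ?_, fun l hl => ?_⟩
      · intro e
        rw [Pi.sub_apply, ← mul_one_sub, mul_eq_zero, sub_eq_zero, eq_comm (a := (1 : F)),
          inv_eq_one, d1] at e
        rcases e with e | e | e
        exacts [n e, h0 e, hi.1 e]
      · rw [Finset.mem_insert] at hl
        rcases hl with rfl | hl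
        · simp [(d1 l).2 (Or.inr rfl)]
        · simp [z l hl]
  obtain ⟨ζ, m, n, z⟩ := key (Finset.univ.erase i0) (by simp)
  have e : ζ = Pi.single i0 (ζ i0) := by
    ext l
    by_cases hl : l = i0
    · subst hl; simp
    · simp [hl, z l (by simp [hl])]
  rw [e] at m
  exact fin_T h h0.symm n m

theorem Std.fin1 (h : Std p ω x y u z w M) {i : Fin 11} {η : Fin 11 → F} (hη : η ≠ 0)
    (hm : Cl.D5.MT M (Pi.single i 1) η) : M = specialLinear (Fin 11) F := by
  have key : ∀ n : ℕ, ∃ ζ : Fin 11 → F, ζ ≠ 0 ∧ MT M (Pi.single (i + n • (1 : Fin 11)) 1) ζ := by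
    intro n
    induction n with
    | zero => exact ⟨η, hη, by simpa using hm⟩
    | succ n ih =>
      obtain ⟨ζ, h0, h1⟩ := ih
      have h2 := h1.conj h.ym
      refine ⟨_, fun e => h0 ?_, by
        convert h2 using 1
        rw [h.hy, succ_nsmul, ← add_assoc]
        ext k
        rw [mulVec_single_one]
        simp [shM, Pi.single_apply]⟩
      have := congrArg (· ᵥ* (y : M11)) e
      simpa only [vecMul_vecMul, Units.inv_mul, vecMul_one, zero_vecMul] using this
  obtain ⟨ζ, h0, h1⟩ := key ((-i : Fin 11) : ℕ)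
  rw [(by decide : ∀ b : Fin 11, (b : ℕ) • (1 : Fin 11) = b), add_neg_cancel] at h1
  exact h.fin10 h0 h1

theorem Std.fin2 (h : Std p ω x y u z w M) {v : Fin 11 → F} (hv : v ≠ 0)
    (ht : MT M v (Pi.single 0 1)) : M = SL11 := by
  obtain ⟨i0, hi0⟩ := Function.ne_iff.1 hv
  have h0 : i0 ≠ 0 := by
    rintro rfl
    have h1 := ht.1
    rw [single_dotProduct, one_mul] at h1
    exact hi0 h1
  have key : ∀ s : Finset (Fin 11), i0 ∉ s →
      ∃ ζ, MT M ζ (Pi.single 0 1) ∧ ζ i0 ≠ 0 ∧ ∀ j ∈ s, ζ j = 0 := by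
    intro s
    induction s using Finset.induction_on with
    | empty => exact fun _ => ⟨v, ht, hi0, by simp⟩
    | insert j s hj ih =>
      intro hi
      rw [Finset.mem_insert, not_or] at hi
      obtain ⟨ζ, m, n, z⟩ := ih hi.2
      obtain ⟨g, hg, d, hd, d0, d1⟩ := fin_sep h j
      have h1 := fin_diag m hg hd d0
      have h2 : (fun l : Fin 11 => (Pi.single 0 (1 : F) : Fin 11 → F) l * (d l)⁻¹) =
          (Pi.single 0 (1 : F) : Fin 11 → F) := by
        ext l
        by_cases hl : l = 0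
        · subst hl; simp [(d1 0).2 (Or.inl rfl)]
        · simp [hl]
      rw [h2] at h1
      have h3 : MT M ((-1 : F) • ζ) (Pi.single 0 1) := by
        rw [MT.smul_iff, neg_one_smul]
        exact m.neg
      refine ⟨_, h1.add_left h3, ?_, fun l hl => ?_⟩
      · intro e
        rw [Pi.add_apply, Pi.smul_apply, smul_eq_mul, ← add_mul, mul_eq_zero, ← sub_eq_add_neg,
          sub_eq_zero, d1] at e
        rcases e with (e | e) | e
        exacts [h0 e, hi.1 e, n e]
      · rw [Finset.mem_insert] at hl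
        rcases hl with rfl | hl
        · simp [(d1 l).2 (Or.inr rfl)]
        · simp [z l hl]
  obtain ⟨ζ, m, n, z⟩ := key (Finset.univ.erase i0) (by simp)
  have e : ζ = ζ i0 • Pi.single i0 1 := by
    ext l
    by_cases hl : l = i0
    · subst hl; simp
    · simp [hl, z l (by simp [hl])]
  rw [e, MT.smul_iff, ← Pi.single_smul, smul_eq_mul, mul_one] at m
  exact fin_T h h0 n m

end Cfsg.Agent.E11C
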