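/-
Overgroups of the `11^(1+2)` normaliser in `SL₁₁(q)`: an isolated involution.
-/
import Mathlib
import Cfsg.Agent.E11C.GB
import Cfsg.Agent.GT.CoprimeGen
import Cfsg.Agent.GT.PGroupChain
import Cfsg.Agent.Blk.ZStar
import Cfsg.Agent.GT.MinNormal
import Cfsg.Agent.GT.PPrimeCore
import Cfsg.Agent.S0205

set_option autoImplicit false

namespace Cfsg.Agent.E11C

open Matrix Cfsg.Geo
open scoped commutatorElement

namespace GZ

open Subgroup

variable {G : Type*} [Group G]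

theorem dich [Finite G] {Q R : Subgroup G} (hQ : ∀ a ∈ Q, ∀ b ∈ Q, Commute a b)
    (hn : ∀ r ∈ R, ∀ q ∈ Q, r * q * r⁻¹ ∈ Q) (h7 : ∀ r ∈ R, r ^ 11 = 1) (hc : ∀ a ∈ R, ∀ b ∈ R, Commute a b)
    (hcy : ¬ IsCyclic R) (hb : Q ≠ ⊥) :
    (∃ c ∈ Q, c ≠ 1 ∧ ∀ r ∈ R, Commute r c) ∨
      (¬ 11 ∣ Nat.card Q ∧ ∃ r ∈ R, r ≠ 1 ∧ ∃ b ∈ Q, b ≠ 1 ∧ Commute r b) := by
  have : Fact (Nat.Prime 11) := ⟨by norm_num⟩
  have pR : IsPGroup 11 R := fun r => ⟨1, Subtype.ext (by simpa using h7 r r.2)⟩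
  by_cases h : 11 ∣ Nat.card Q
  · let O : Subgroup G :=
      { carrier := {a | a ∈ Q ∧ a ^ 11 = 1}
        one_mem' := ⟨one_mem _, one_pow _⟩
        mul_mem' := fun {a b} ha hb => ⟨mul_mem ha.1 hb.1, by rw [(hQ a ha.1 b hb.1).mul_pow, ha.2, hb.2, one_mul]⟩
        inv_mem' := fun {a} ha => ⟨inv_mem ha.1, by rw [inv_pow, ha.2, inv_one]⟩ }
    obtain ⟨a, ha⟩ := exists_prime_orderOf_dvd_card' 11 h
    have h1 := GT.PG.inf_centralizer_ne_bot_of_isPGroup (p := 11) (M := O) (H := R)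
      (fun r => ⟨1, Subtype.ext (by simpa using r.2.2)⟩) pR
      (fun r hr => mem_normalizer_fintype fun q hq => ⟨hn r hr q hq.1, by rw [conj_pow, hq.2]; simp⟩)
      fun e => by
        have : (a : G) ∈ O := ⟨a.2, by rw [← ha, ← orderOf_coe, pow_orderOf_eq_one]⟩
        rw [e, mem_bot] at this
        rw [← orderOf_coe, this, orderOf_one] at ha
        omega
    obtain ⟨⟨c, hc⟩, c1⟩ := ne_bot_iff_exists_ne_one.1 h1
    exact .inl ⟨c, hc.1.1, fun e => c1 (Subtype.ext e), fun r hr => mem_centralizer_iff.1 hc.2 r hr⟩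
  · obtain ⟨n, hn'⟩ := pR.exists_card_eq
    obtain ⟨r, hr, r1, h1⟩ := GT.CopAct.exists_inf_centralizer_ne_bot (A := R) (K := Q)
      ⟨⟨fun a b => Subtype.ext (hc a a.2 b b.2).eq⟩⟩ hcy (fun r hr => mem_normalizer_fintype (hn r hr))
      (hn' ▸ ((Nat.Prime.coprime_iff_not_dvd this.out).2 h).pow_left n) hb
    obtain ⟨⟨c, hc⟩, c1⟩ := ne_bot_iff_exists_ne_one.1 h1
    exact .inr ⟨h, r, hr, r1, c, hc.1, fun e => c1 (Subtype.ext e),
      (mem_centralizer_singleton_iff.1 hc.2).symm⟩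

theorem cq {Z : Subgroup G} [Z.Normal] {a b : G} :
    Commute (QuotientGroup.mk' Z a) (QuotientGroup.mk' Z b) ↔ a * b * a⁻¹ * b⁻¹ ∈ Z := by
  rw [← commutatorElement_eq_one_iff_commute, ← map_commutatorElement, QuotientGroup.mk'_apply,
    QuotientGroup.eq_one_iff, commutatorElement_def]

theorem com {g a : G} {n : ℕ} (hn : ¬ 11 ∣ n) (h1 : Commute g (a ^ n)) (h2 : Commute (g * a * g⁻¹ * a⁻¹) a)
    (h3 : (g * a * g⁻¹ * a⁻¹) ^ 11 = 1) : Commute g a := by
  have e := h2.mul_pow n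
  rw [inv_mul_cancel_right, conj_pow, h1.eq, mul_inv_cancel_right, right_eq_mul] at e
  rw [← commutatorElement_eq_one_iff_commute, commutatorElement_def, ← orderOf_eq_one_iff]
  exact Nat.eq_one_of_dvd_coprimes ((Nat.Prime.coprime_iff_not_dvd (by norm_num)).2 hn)
    (orderOf_dvd_of_pow_eq_one h3) (orderOf_dvd_of_pow_eq_one e)

theorem form {a b r : G} (hc : Commute a b) (ha : a ^ 11 = 1) (hb : b ^ 11 = 1)
    (hr : r ∈ closure {a, b}) : ∃ i j : ℕ, r = a ^ i * b ^ j := by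
  induction hr using closure_induction with
  | mem x hx =>
    rcases hx with rfl | rfl
    exacts [⟨1, 0, by simp⟩, ⟨0, 1, by simp⟩]
  | one => exact ⟨0, 0, by simp⟩
  | mul x y _ _ h1 h2 =>
    obtain ⟨i, j, rfl⟩ := h1
    obtain ⟨k, l, rfl⟩ := h2
    exact ⟨i + k, j + l, by rw [(hc.pow_pow k j).symm.mul_mul_mul_comm, pow_add, pow_add]⟩
  | inv x _ h1 =>
    obtain ⟨i, j, rfl⟩ := h1
    refine ⟨10 * i, 10 * j, inv_eq_of_mul_eq_one_right ?_⟩
    rw [(hc.pow_pow _ j).symm.mul_mul_mul_comm, ← pow_add, ← pow_add,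
      show i + 10 * i = 11 * i by ring, show j + 10 * j = 11 * j by ring, pow_mul, pow_mul, ha, hb]
    simp

theorem root {a : G} (ha : a ^ 11 = 1) {k : ℕ} (hk : k % 11 ≠ 0) : ∃ m, (a ^ k) ^ m = a := by
  obtain ⟨m, -, e⟩ := (by decide : ∀ k < 11, k ≠ 0 → ∃ m < 11, k * m % 11 = 1) (k % 11)
    (Nat.mod_lt _ (by norm_num)) hk
  exact ⟨m, by rw [← pow_mul, pow_eq_pow_mod _ ha, ← Nat.mod_mul_mod, e, pow_one]⟩

theorem trans {a b r s t : G} (ha : a ^ 11 = 1) (hb : b ^ 11 = 1) (hc : Commute a b)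
    (h1 : s * a * s⁻¹ = a) (h2 : s * b * s⁻¹ = a ^ 2 * b) (h3 : t * b * t⁻¹ = a ^ 2)
    (hr : r ∈ closure {a, b}) (r1 : r ≠ 1) :
    ∃ (n e m : ℕ), (t ^ e * s ^ n * r * (t ^ e * s ^ n)⁻¹) ^ m = a := by
  obtain ⟨i, j, rfl⟩ := form hc ha hb hr
  have key : ∀ n : ℕ, s ^ n * (a ^ i * b ^ j) * (s ^ n)⁻¹ = a ^ (i + 2 * j * n) * b ^ j := fun n => by
    induction n with
    | zero => simp
    | succ n ih =>
      have e : s ^ (n + 1) * (a ^ i * b ^ j) * (s ^ (n + 1))⁻¹ =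
          (s * a * s⁻¹) ^ (i + 2 * j * n) * (s * b * s⁻¹) ^ j := by
        rw [conj_pow, conj_pow, conj_mul, ← ih]; group
      rw [e, h1, h2, (hc.pow_left 2).mul_pow, ← mul_assoc, ← pow_mul, ← pow_add]
      congr 2; ring
  by_cases hj : j % 11 = 0
  · have e : b ^ j = 1 := by rw [pow_eq_pow_mod _ hb, hj, pow_zero]
    obtain ⟨m, hm⟩ := root ha (k := i) fun hi => r1 (by
      rw [e, pow_eq_pow_mod _ ha, hi, pow_zero, one_mul])
    exact ⟨0, 0, m, by simpa [e] using hm⟩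
  · obtain ⟨n, -, e⟩ := (by decide : ∀ i < 11, ∀ j < 11, j ≠ 0 → ∃ n < 11, (i + 2 * j * n) % 11 = 0)
      (i % 11) (Nat.mod_lt _ (by norm_num)) (j % 11) (Nat.mod_lt _ (by norm_num)) hj
    have e1 : (i + 2 * j * n) % 11 = 0 := by
      rw [← e]; simp [Nat.add_mod, Nat.mul_mod]
    obtain ⟨m, hm⟩ := root ha (k := 2 * j) (by omega)
    refine ⟨n, 1, m, ?_⟩
    have e2 : t ^ 1 * s ^ n * (a ^ i * b ^ j) * (t ^ 1 * s ^ n)⁻¹ =
        t * (s ^ n * (a ^ i * b ^ j) * (s ^ n)⁻¹) * t⁻¹ := by group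
    rw [e2, key, pow_eq_pow_mod _ ha, e1, pow_zero, one_mul, ← conj_pow, h3, ← pow_mul a 2, hm]

theorem shift {F : Type*} [Field F] (d : Fin 11 → F) :
    diagonal d * shM F = shM F * diagonal fun i => d (i + 1) := by
  ext i j
  simp only [shM, diagonal_mul, mul_diagonal, of_apply]
  split_ifs with h
  · rw [h, mul_one, one_mul]
  · rw [mul_zero, zero_mul]

theorem const {F : Type*} {d : Fin 11 → F} {t : Fin 11} (ht : t ≠ 0) (h : ∀ m, d (m + t) = d m)
    (a : Fin 11) : d a = d 0 := by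
  obtain ⟨n, -, rfl⟩ := (by decide : ∀ t : Fin 11, t ≠ 0 → ∀ a : Fin 11, ∃ n < 11, a = n • t) t ht a
  induction n with
  | zero => simp
  | succ k ih => rw [succ_nsmul, h, ih]

theorem sep {F : Type*} [Field F] {d : Fin 11 → F} (hd : ∃ i, d i ≠ d 0)
    {A : Matrix (Fin 11) (Fin 11) F}
    (h : ∀ k : Fin 11, A * diagonal (fun i => d (i + k)) = diagonal (fun i => d (i + k)) * A) :
    A.IsDiag := fun i j hij => by
  obtain ⟨a, ha⟩ := hd
  by_contra h1
  refine ha (const (t := i - j) (sub_ne_zero.2 hij) (fun m => ?_) a)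
  have h2 := congrFun (congrFun (h (m - j)) i) j
  rw [mul_diagonal, diagonal_mul, mul_comm] at h2
  have h3 := mul_right_cancel₀ h1 h2
  rw [add_sub_cancel, add_sub_left_comm] at h3
  exact h3.symm

end GZ

variable {F : Type*} [Field F] [Fintype F] {p : ℕ} {ω : F} {x y u z w : GL (Fin 11) F}
  {M : Subgroup (GL (Fin 11) F)}

local notation "M11" => Matrix (Fin 11) (Fin 11) F
local notation "Z11" => scalars (Fin 11) F
local notation "GL11" => GL (Fin 11) F

namespace GZ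

open Subgroup

theorem y45 (h : Std p ω x y u z w M) : (y ^ 5) ^ 9 = y := by
  rw [← pow_mul, show 5 * 9 = 11 * 4 + 1 from rfl, pow_succ, pow_mul, h.g_y11, one_pow, one_mul]

theorem wx (h : Std p ω x y u z w M) : w * x * w⁻¹ = y ^ 5 := by
  rw [h.g_wx, mul_inv_cancel_right]

theorem abel (h : Std p ω x y u z w M) {A : Subgroup GL11} (h2 : Cl.Max.NormsG M A)
    (hA : ∀ a ∈ A, ∀ b ∈ A, Commute a b) {b : GL11} (hb : b ∈ A) (hs : b ∉ Z11)
    (hc : Commute b x) : A ≤ Z11 := by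
  obtain ⟨d, hd⟩ : ∃ d, (b : M11) = diagonal d := ⟨_, (h.g_diag hc.eq).diagonal_diag.symm⟩
  have h0 : ∃ i, d i ≠ d 0 := by
    by_contra! k
    refine hs (Cl.Max.mem_scalars_of_eq_smul (c := d 0) ?_)
    rw [hd, smul_one_eq_diagonal]
    exact congrArg _ (funext k)
  have h1 : ∀ n : ℕ, ∃ g ∈ A, (g : M11) = diagonal fun i => d (i + n • (1 : Fin 11)) := fun n => by
    induction n with
    | zero => exact ⟨b, hb, by simpa using hd⟩
    | succ n ih =>
      obtain ⟨g, hg, e⟩ := ih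
      refine ⟨_, h2 y⁻¹ (inv_mem h.ym) g hg, ?_⟩
      rw [inv_inv, Units.val_mul, Units.val_mul, mul_assoc, Units.inv_mul_eq_iff_eq_mul, e, h.hy,
        shift]
      simp only [succ_nsmul', add_assoc]
  have h3 : ∀ a ∈ A, Commute a x := fun a ha => by
    have he := sep h0 (A := (a : M11)) fun k => by
      obtain ⟨g, hg, e⟩ := h1 k
      rw [(by decide : ∀ k : Fin 11, (k : ℕ) • (1 : Fin 11) = k)] at e
      rw [← e]
      exact congrArg Units.val (hA a ha g hg).eq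
    refine Units.ext ?_
    rw [Units.val_mul, Units.val_mul, ← he.diagonal_diag, h.hx, ckM, diagonal_mul_diagonal,
      diagonal_mul_diagonal]
    simp only [mul_comm]
  intro a ha
  refine h.g_sc (h3 a ha) ?_
  have := (h3 _ (h2 _ (inv_mem h.wm) a ha)).map (MulAut.conj w)
  rw [MulAut.conj_apply, MulAut.conj_apply, wx h,
    show w * (w⁻¹ * a * w⁻¹⁻¹) * w⁻¹ = a by group] at this
  exact y45 h ▸ this.pow_right 9

theorem solv (h : Std p ω x y u z w M) {A : Subgroup GL11} (h1 : A ≤ M) (h2 : Cl.Max.NormsG M A)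
    (h3 : ⁅A, A⁆ ≤ Z11) (h4 : ¬ A ≤ Z11) :
    M ≤ normalizer ((closure {x, y} : Subgroup GL11) : Set GL11) := by
  classical
  have s4 : x ∉ Z11 := by simpa using GB.x_ns h.om h.hx (n := 1) (by norm_num)
  set π := QuotientGroup.mk' Z11
  have one : ∀ {g : GL11}, π g = 1 ↔ g ∈ Z11 := QuotientGroup.eq_one_iff _
  have c0 : π (x * y * x⁻¹ * y⁻¹) = 1 := one.2 (GB.comm_mem h.o11 h.hx h.hy)
  have cxy : Commute (π x) (π y) := cq.2 (one.1 c0)
  have x1 : π x ^ 11 = 1 := by rw [← map_pow, h.g_x11, map_one]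
  have y1 : π y ^ 11 = 1 := by rw [← map_pow, h.g_y11, map_one]
  have xR : π x ∈ closure {π x, π y} := subset_closure (by simp)
  have yR : π y ∈ closure {π x, π y} := subset_closure (by simp)
  have ab : ∀ a ∈ A.map π, ∀ b ∈ A.map π, Commute a b := by
    rintro _ ⟨a, ha, rfl⟩ _ ⟨b, hb, rfl⟩
    exact cq.2 (h3 (commutator_mem_commutator ha hb))
  have nQ : ∀ m ∈ M, ∀ q ∈ A.map π, π m * q * (π m)⁻¹ ∈ A.map π := by
    rintro m hm _ ⟨a, ha, rfl⟩
    exact ⟨_, h2 m hm a ha, by rw [map_mul, map_mul, map_inv]⟩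
  have tr : ∀ r ∈ closure {π x, π y}, r ≠ 1 → ∃ g ∈ M, ∃ m : ℕ, (π g * r * (π g)⁻¹) ^ m = π x := by
    intro r hr r1
    obtain ⟨n, e, m, k⟩ := trans (s := π u) (t := π w) x1 y1 cxy
      (by rw [← map_mul, h.g_ux, map_mul, mul_inv_cancel_right])
      (by
        rw [← map_mul, h.g_uy, map_mul, c0, one_mul, map_mul, mul_inv_cancel_right, map_mul, map_mul,
          ← cxy.eq, mul_assoc, ← cxy.eq, sq, mul_assoc])
      (by rw [← map_mul, h.g_wy, map_mul, mul_inv_cancel_right, map_mul, sq]) hr r1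
    exact ⟨w ^ e * u ^ n, mul_mem (pow_mem h.wm e) (pow_mem h.um n), m, by
      rw [map_mul, map_pow, map_pow, k]⟩
  rcases dich (R := closure {π x, π y}) ab
    (fun r hr => by
      obtain ⟨i, j, rfl⟩ := form cxy x1 y1 hr
      rw [← map_pow, ← map_pow, ← map_mul]
      exact nQ _ (mul_mem (pow_mem h.xm i) (pow_mem h.ym j)))
    (fun r hr => by
      obtain ⟨i, j, rfl⟩ := form cxy x1 y1 hr
      rw [(cxy.pow_pow i j).mul_pow, ← pow_mul, ← pow_mul, mul_comm i, mul_comm j, pow_mul, pow_mul,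
        x1, y1]
      simp)
    (fun r hr s hs => by
      obtain ⟨i, j, rfl⟩ := form cxy x1 y1 hr
      obtain ⟨k, l, rfl⟩ := form cxy x1 y1 hs
      exact (((Commute.refl _).pow_pow _ _).mul_right (cxy.pow_pow _ _)).mul_left
        ((cxy.symm.pow_pow _ _).mul_right ((Commute.refl _).pow_pow _ _)))
    (fun k => by
      obtain ⟨⟨g, hg⟩, k⟩ := k.exists_generator
      obtain ⟨g, rfl⟩ := QuotientGroup.mk'_surjective Z11 g
      obtain ⟨a, ha⟩ := k ⟨_, xR⟩
      obtain ⟨b, hb⟩ := k ⟨_, yR⟩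
      have ha' : π (g ^ a * x⁻¹) = 1 := by
        rw [map_mul, map_inv, map_zpow, mul_inv_eq_one]; exact congrArg Subtype.val ha
      have hb' : π (g ^ b * y⁻¹) = 1 := by
        rw [map_mul, map_inv, map_zpow, mul_inv_eq_one]; exact congrArg Subtype.val hb
      have e1 := Cl.Max.mul_comm_of_mem_scalars (one.1 ha')
      have e2 := Cl.Max.mul_comm_of_mem_scalars (one.1 hb')
      have e3 : Commute (g ^ a) y := by
        have : Commute (g ^ a) ((g ^ b * y⁻¹)⁻¹ * g ^ b) :=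
          (Commute.inv_right (e2 _).symm).mul_right ((Commute.refl g).zpow_zpow a b)
        rwa [show (g ^ b * y⁻¹)⁻¹ * g ^ b = y by group] at this
      have : Commute ((g ^ a * x⁻¹)⁻¹ * g ^ a) y := (Commute.inv_left (e1 y)).mul_left e3
      rw [show (g ^ a * x⁻¹)⁻¹ * g ^ a = x by group] at this
      exact s4 (h.g_sc rfl this))
    (fun e => h4 fun a ha => one.1 (mem_bot.1 (e ▸ mem_map_of_mem π ha))) with
    ⟨_, ⟨c, hc, rfl⟩, c1, k⟩ | ⟨h7, r, hr, r1, _, ⟨b, hb, rfl⟩, b1, k⟩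
  · have cR : c ∈ closure {x, y} :=
      h.g_memR (h.sl (h1 hc)) (cq.1 (k _ xR).symm) (cq.1 (k _ yR).symm)
    obtain ⟨B, hB, m, e⟩ := tr (π c) (by
      have := mem_map_of_mem π cR
      rwa [MonoidHom.map_closure, Set.image_pair] at this) c1
    have xQ : π x ∈ A.map π := e ▸ pow_mem (nQ B hB _ (mem_map_of_mem π hc)) m
    have yQ : π y ∈ A.map π := by
      have := nQ _ h.wm _ xQ
      rw [← map_inv, ← map_mul, ← map_mul, wx h] at this
      rw [← y45 h, map_pow]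
      exact pow_mem this 9
    have key : ∀ m ∈ M, ∀ g ∈ M, π g ∈ A.map π → m * g * m⁻¹ ∈ closure {x, y} :=
      fun m hm g hg hq => by
        have := nQ m hm _ hq
        rw [← map_inv, ← map_mul, ← map_mul] at this
        exact h.g_memR (h.sl (mul_mem (mul_mem hm hg) (inv_mem hm))) (cq.1 (ab _ this _ xQ))
          (cq.1 (ab _ this _ yQ))
    intro m hm
    refine mem_normalizer_fintype fun g hg => ?_
    have : closure {x, y} ≤ (closure {x, y}).comap (MulAut.conj m).toMonoidHom :=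
      (closure_le _).2 (by
        rintro _ (rfl | rfl)
        exacts [key m hm _ h.xm xQ, key m hm _ h.ym yQ])
    exact this hg
  · have cm : ∀ g ∈ M, ∀ a ∈ A, g * a * g⁻¹ * a⁻¹ ∈ Z11 → Commute g a := fun g hg a ha hz =>
      com h7 (Cl.Max.mul_comm_of_mem_scalars (one.1 (by
        rw [map_pow]
        exact congrArg Subtype.val
          (pow_card_eq_one' (x := (⟨π a, mem_map_of_mem π ha⟩ : A.map π))))) g).symm
        (Cl.Max.mul_comm_of_mem_scalars hz a)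
        (GB.pow_of_sl hz
          (h.sl (mul_mem (mul_mem (mul_mem hg (h1 ha)) (inv_mem hg)) (inv_mem (h1 ha)))))
    obtain ⟨B, hB, m, e⟩ := tr r hr r1
    have k1 := (k.map (MulAut.conj (π B))).pow_left m
    rw [MulAut.conj_apply, MulAut.conj_apply, e, ← map_inv, ← map_mul, ← map_mul] at k1
    have hb' := h2 _ hB b hb
    refine absurd (abel h h2
      (fun a ha b hb => cm a (h1 ha) b hb (h3 (commutator_mem_commutator ha hb))) hb'
      (fun e => b1 (one.2 ?_)) (cm x h.xm _ hb' (cq.1 k1)).symm) h4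
    simpa [mul_assoc] using (inferInstance : (Z11).Normal).conj_mem _ e B⁻¹

end GZ

theorem Std.le_norm (h : Std p ω x y u z w M)
    (hz : ∀ g ∈ M, Commute z (g * z * g⁻¹) → g * z * g⁻¹ = z) :
    M ≤ Subgroup.normalizer ((Subgroup.closure {x, y} : Subgroup (GL (Fin 11) F)) :
      Set (GL (Fin 11) F)) := by
  classical
  have hiso : IsIsolatedInvolution (⟨z, h.zm⟩ : M) :=
    ⟨orderOf_eq_prime (Subtype.ext (by rw [sq]; exact h.g_zz))
      fun e => h.g_z1 (congrArg Subtype.val e),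
      fun g hg => Subtype.ext (hz g g.2 (congrArg Subtype.val hg.eq))⟩
  have h5 := hiso.commutator_mem_oddCore ⟨x, h.xm⟩
  have : Group.IsSolvable (oddCore M) := S0205.result
    (Nat.coprime_two_right.1 (GT.coprime_card_pPrimeCore (G := M) 2))
  obtain ⟨K, hK1, ⟨hK2, hK3⟩, hK4⟩ := GT.exists_minimal_le
    (P := fun K : Subgroup M => K.Normal ∧ ¬ K.map M.subtype ≤ Z11) (H := oddCore M)
    ⟨(inferInstance : (pPrimeCore 2 M).Normal), fun e => GB.x_ns h.om h.hx (n := 2) (by norm_num) (by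
      have h1 : z * x * z⁻¹ * x⁻¹ ∈ Z11 := e ⟨_, h5, rfl⟩
      rw [h.g_zx, ← sq, inv_pow] at h1
      exact (Subgroup.inv_mem_iff _).1 h1)⟩
  have := GT.isSolvable_of_le hK1
  refine GZ.solv h (A := K.map M.subtype) (Subgroup.map_subtype_le K) ?_ ?_ hK3
  · rintro g hg _ ⟨a, ha, rfl⟩
    exact ⟨_, hK2.conj_mem a ha ⟨g, hg⟩, rfl⟩
  · rw [← Subgroup.map_commutator]
    by_contra e
    have h1 := GT.commutator_lt_of_isSolvable (N := K) (by rintro rfl; simp at hK3)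
    exact h1.ne (hK4 _ ⟨inferInstance, e⟩ h1.le)

end Cfsg.Agent.E11C
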