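/-
S5852, part `11^(1+2)`: the abstract argument that `K ≤ ⟨z⟩`.
-/
import Mathlib
import Cfsg.Agent.E11C.Defs
import Cfsg.Agent.GT.Conj
import Cfsg.Agent.GT.CoprimeProd
import Cfsg.Agent.Ch.Burnside

set_option autoImplicit false

namespace Cfsg.Agent.E11C

open Matrix Cfsg.Geo

namespace KA

variable {C : Type*} [Group C]

theorem zp_isP {u : C} (u11 : u ^ 11 = 1) : IsPGroup 11 (Subgroup.zpowers u) := by
  rintro ⟨x, n, rfl⟩
  refine ⟨1, Subtype.ext ?_⟩
  show (u ^ n) ^ (11 ^ 1) = 1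
  rw [pow_one, ← _root_.zpow_natCast, ← _root_.zpow_mul, mul_comm, _root_.zpow_mul,
    _root_.zpow_natCast, u11, _root_.one_zpow]

theorem mem_cent {u a : C} :
    a ∈ Subgroup.centralizer ((Subgroup.zpowers u : Subgroup C) : Set C) ↔ Commute a u := by
  rw [Subgroup.mem_centralizer_iff]
  constructor
  · intro h
    exact (h u (Subgroup.mem_zpowers u)).symm
  · rintro h _ ⟨n, rfl⟩
    exact (h.zpow_right n).eq.symm

theorem cnt [Finite C] {u : C} (u11 : u ^ 11 = 1) (L : Subgroup C) [hL : L.Normal] :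
    Nat.card L ≡ Nat.card (L ⊓ Subgroup.centralizer
      ((Subgroup.zpowers u : Subgroup C) : Set C) : Subgroup C) [MOD 11] := by
  haveI : Fact (Nat.Prime 11) := ⟨by norm_num⟩
  refine Cfsg.Agent.GT.card_modEq_card_inf_centralizer (zp_isP u11) ?_
  rw [Subgroup.normalizer_eq_top]
  exact le_top

theorem not11 [Finite C] {K : Subgroup C} [K.Normal] {u : C} (u11 : u ^ 11 = 1)
    (h0 : ∀ k ∈ K, Commute k u → k * k = 1) : ¬ 11 ∣ Nat.card K := by
  haveI : Fact (Nat.Prime 2) := ⟨Nat.prime_two⟩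
  intro h
  have h1 := cnt u11 K
  have hP : IsPGroup 2 (K ⊓ Subgroup.centralizer
      ((Subgroup.zpowers u : Subgroup C) : Set C) : Subgroup C) := by
    rintro ⟨x, hx, hc⟩
    refine ⟨1, Subtype.ext ?_⟩
    show x ^ (2 ^ 1) = 1
    rw [pow_one, pow_two]
    exact h0 x hx (mem_cent.1 hc)
  obtain ⟨i, hi⟩ := IsPGroup.iff_card.1 hP
  rw [hi] at h1
  have h2 : 11 ∣ 2 ^ i := (h1.dvd_iff dvd_rfl).1 h
  have := (by norm_num : Nat.Prime 11).dvd_of_dvd_pow h2
  omega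

theorem primes [Finite C] {K : Subgroup C} [K.Normal] {u : C} {p : ℕ} (hp : p.Prime)
    (u11 : u ^ 11 = 1) (h0 : ∀ k ∈ K, Commute k u → k * k = 1)
    (h1 : ∀ Q : Subgroup C, Q ≤ K → u ∈ Subgroup.normalizer (Q : Set C) → ¬ p ∣ Nat.card Q →
      (∀ a ∈ Q, Commute a u → a = 1) → Q = ⊥) :
    ∀ l : ℕ, l.Prime → l ∣ Nat.card K → l = p ∨ l = 2 := by
  intro l hl hd
  by_contra hn
  push Not at hn
  haveI : Fact l.Prime := ⟨hl⟩
  haveI : Fact (Nat.Prime 11) := ⟨by norm_num⟩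
  have hA : Subgroup.zpowers u ≤ Subgroup.normalizer (K : Set C) := by
    rw [Subgroup.normalizer_eq_top]
    exact le_top
  have hcop : (Nat.card (Subgroup.zpowers u)).Coprime (Nat.card K) := by
    obtain ⟨j, hj⟩ := IsPGroup.iff_card.1 (zp_isP u11)
    rw [hj]
    exact Nat.Coprime.pow_left _
      ((Nat.Prime.coprime_iff_not_dvd (by norm_num)).2 (not11 u11 h0))
  obtain ⟨P, hPK, hP, hi, hPA⟩ :=
    Cfsg.Agent.GT.CopAct.exists_invariant_sylowIn hA hcop (Or.inl inferInstance) l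
  obtain ⟨j, hj⟩ := IsPGroup.iff_card.1 hP
  have hb : P = ⊥ := by
    refine h1 P hPK (hPA (Subgroup.mem_zpowers u)) ?_ ?_
    · rw [hj]
      intro h
      exact hn.1 ((Nat.prime_dvd_prime_iff_eq hp hl).1 (hp.dvd_of_dvd_pow h)).symm
    · intro a ha hc
      have e1 : a ^ 2 = 1 := by rw [pow_two]; exact h0 a (hPK ha) hc
      obtain ⟨k, hk⟩ := hP ⟨a, ha⟩
      have e2 : a ^ (l ^ k) = 1 := congrArg Subtype.val hk
      have hc2 : Nat.Coprime 2 (l ^ k) :=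
        Nat.Coprime.pow_right _ ((Nat.coprime_primes Nat.prime_two hl).2 (Ne.symm hn.2))
      have := pow_gcd_eq_one.2 ⟨e1, e2⟩
      rwa [hc2.gcd_eq_one, pow_one] at this
  rw [hb, Subgroup.relIndex_bot_left] at hi
  exact hi hd

theorem conj_pow {a u q : C} (h : u * a * u⁻¹ = q * a) (hq : Commute q u) (n : ℕ) :
    u ^ n * a * (u ^ n)⁻¹ = q ^ n * a := by
  induction n with
  | zero => simp
  | succ n ih =>
    have e : u ^ (n + 1) * a * (u ^ (n + 1))⁻¹ = u * (u ^ n * a * (u ^ n)⁻¹) * u⁻¹ := by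
      rw [pow_succ']; group
    rw [e, ih]
    have e2 : u * (q ^ n * a) * u⁻¹ = (u * q ^ n) * a * u⁻¹ := by group
    rw [e2, ← (hq.pow_left n).eq, mul_assoc (q ^ n), mul_assoc (q ^ n), h, pow_succ, mul_assoc]

/-- If a normal subgroup centralises `u`, it centralises all conjugates of `u`. -/
theorem fin {K A : Subgroup C} [hA : A.Normal] (hAK : A ≤ K) {z u : C}
    (h3 : ∀ k ∈ K, (∀ g, Commute k (g * u * g⁻¹)) → k = 1 ∨ k = z)
    (hc : ∀ a ∈ A, Commute a u) : ∀ a ∈ A, a = 1 ∨ a = z := by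
  intro a ha
  refine h3 a (hAK ha) fun g => ?_
  have h := (hc _ (hA.conj_mem' a ha g)).eq
  show a * (g * u * g⁻¹) = g * u * g⁻¹ * a
  calc a * (g * u * g⁻¹) = g * (g⁻¹ * a * g * u) * g⁻¹ := by group
    _ = g * (u * (g⁻¹ * a * g)) * g⁻¹ := by rw [h]
    _ = g * u * g⁻¹ * a := by group

theorem abel [Finite C] {K A : Subgroup C} [hA : A.Normal] (hAK : A ≤ K) {z u : C} {p : ℕ}
    (u11 : u ^ 11 = 1) (h0 : ∀ k ∈ K, Commute k u → k * k = 1)
    (h1 : ∀ Q : Subgroup C, Q ≤ K → u ∈ Subgroup.normalizer (Q : Set C) → ¬ p ∣ Nat.card Q →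
      (∀ a ∈ Q, Commute a u → a = 1) → Q = ⊥)
    (h3 : ∀ k ∈ K, (∀ g, Commute k (g * u * g⁻¹)) → k = 1 ∨ k = z)
    (hab : ∀ a ∈ A, ∀ b ∈ A, Commute a b) (hp : ¬ p ∣ Nat.card A) :
    ∀ a ∈ A, a = 1 ∨ a = z := by
  let Q : Subgroup C :=
    { carrier := {q | ∃ a ∈ A, q = u * a * u⁻¹ * a⁻¹}
      one_mem' := ⟨1, one_mem _, by simp⟩
      mul_mem' := by
        rintro _ _ ⟨a, ha, rfl⟩ ⟨b, hb, rfl⟩
        refine ⟨a * b, mul_mem ha hb, ?_⟩
        have e1 := (hab _ (inv_mem ha) _ (mul_mem (hA.conj_mem b hb u) (inv_mem hb))).eq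
        calc u * a * u⁻¹ * a⁻¹ * (u * b * u⁻¹ * b⁻¹)
            = u * a * u⁻¹ * (a⁻¹ * (u * b * u⁻¹ * b⁻¹)) := by group
          _ = u * a * u⁻¹ * ((u * b * u⁻¹ * b⁻¹) * a⁻¹) := by rw [e1]
          _ = u * (a * b) * u⁻¹ * (a * b)⁻¹ := by group
      inv_mem' := by
        rintro _ ⟨a, ha, rfl⟩
        refine ⟨a⁻¹, inv_mem ha, ?_⟩
        have e1 := (hab _ ha _ (hA.conj_mem _ (inv_mem ha) u)).eq
        calc (u * a * u⁻¹ * a⁻¹)⁻¹ = a * (u * a⁻¹ * u⁻¹) := by group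
          _ = u * a⁻¹ * u⁻¹ * a := e1
          _ = u * a⁻¹ * u⁻¹ * a⁻¹⁻¹ := by rw [inv_inv] }
  have hQA : Q ≤ A := by
    rintro _ ⟨a, ha, rfl⟩
    exact mul_mem (hA.conj_mem a ha u) (inv_mem ha)
  have hb : Q = ⊥ := by
    refine h1 Q (hQA.trans hAK) ?_ (fun h => hp (h.trans (Subgroup.card_dvd_of_le hQA))) ?_
    · rw [Subgroup.mem_normalizer_iff]
      intro h
      constructor
      · rintro ⟨a, ha, rfl⟩
        exact ⟨u * a * u⁻¹, hA.conj_mem a ha u, by group⟩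
      · rintro ⟨a, ha, e⟩
        refine ⟨u⁻¹ * a * u, hA.conj_mem' a ha u, ?_⟩
        calc h = u⁻¹ * (u * h * u⁻¹) * u := by group
          _ = u⁻¹ * (u * a * u⁻¹ * a⁻¹) * u := by rw [e]
          _ = _ := by group
    · rintro q hq hc
      have e1 : q ^ 2 = 1 := by rw [pow_two]; exact h0 q (hAK (hQA hq)) hc
      obtain ⟨a, ha, e⟩ := hq
      have e3 : u * a * u⁻¹ = q * a := by rw [e]; group
      have e4 := conj_pow e3 hc 11
      rw [u11] at e4
      have e2 : q ^ 11 = 1 := by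
        have : a = q ^ 11 * a := by simpa using e4
        exact (right_eq_mul.1 this)
      have := pow_gcd_eq_one.2 ⟨e1, e2⟩
      simpa using this
  refine fin hAK h3 fun a ha => ?_
  have : u * a * u⁻¹ * a⁻¹ ∈ Q := ⟨a, ha, rfl⟩
  rw [hb, Subgroup.mem_bot] at this
  show a * u = u * a
  calc a * u = (u * a * u⁻¹ * a⁻¹) * (a * u) := by rw [this, one_mul]
    _ = u * a := by group

theorem notp [Finite C] {K N : Subgroup C} [hN : N.Normal] (hNK : N ≤ K) {z : C} {p : ℕ}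
    (hp : p.Prime) (zz : z * z = 1) (zc : ∀ g, Commute g z)
    (h2 : ∀ P : Subgroup C, P ≤ K → P.Normal → IsPGroup p P → P = ⊥) (p2 : p ≠ 2)
    (hc : ∀ a ∈ N, ∀ b ∈ N, a * b * a⁻¹ * b⁻¹ = 1 ∨ a * b * a⁻¹ * b⁻¹ = z) :
    ¬ p ∣ Nat.card N := by
  have hcm : ∀ a ∈ N, ∀ b ∈ N, ∀ k : ℕ, a ^ (p ^ k) = 1 → Commute a b := by
    intro a ha b hb k hk
    have key : a * b * a⁻¹ * b⁻¹ = 1 := by
      rcases hc a ha b hb with h | h
      · exact h
      · have e3 : a * b * a⁻¹ = z * b := by rw [← h]; group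
        have e4 := conj_pow e3 (zc a).symm (p ^ k)
        rw [hk] at e4
        have e2 : z ^ (p ^ k) = 1 := by
          have : b = z ^ (p ^ k) * b := by simpa using e4
          exact (right_eq_mul.1 this)
        have e1 : z ^ 2 = 1 := by rw [pow_two]; exact zz
        have hc2 : Nat.Coprime 2 (p ^ k) :=
          Nat.Coprime.pow_right _ ((Nat.coprime_primes Nat.prime_two hp).2 (Ne.symm p2))
        have := pow_gcd_eq_one.2 ⟨e1, e2⟩
        rw [hc2.gcd_eq_one, pow_one] at this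
        rw [h, this]
    show a * b = b * a
    calc a * b = (a * b * a⁻¹ * b⁻¹) * (b * a) := by group
      _ = b * a := by rw [key, one_mul]
  let P : Subgroup C :=
    { carrier := {a | a ∈ N ∧ ∃ k : ℕ, a ^ (p ^ k) = 1}
      one_mem' := ⟨one_mem _, 0, one_pow _⟩
      mul_mem' := by
        rintro a b ⟨ha, k, hk⟩ ⟨hb, l, hl⟩
        refine ⟨mul_mem ha hb, k + l, ?_⟩
        rw [(hcm a ha b hb k hk).mul_pow, pow_add, pow_mul, hk, one_pow, one_mul, mul_comm,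
          pow_mul, hl, one_pow]
      inv_mem' := by
        rintro a ⟨ha, k, hk⟩
        exact ⟨inv_mem ha, k, by rw [inv_pow, hk, inv_one]⟩ }
  have hb : P = ⊥ := by
    refine h2 P (fun a ha => hNK ha.1) ⟨?_⟩ ?_
    · rintro a ⟨ha, k, hk⟩ g
      exact ⟨hN.conj_mem a ha g, k, by rw [_root_.conj_pow, hk, mul_one, mul_inv_cancel]⟩
    · rintro ⟨a, ha, k, hk⟩
      exact ⟨k, Subtype.ext hk⟩
  intro hd
  haveI : Fact p.Prime := ⟨hp⟩
  obtain ⟨a, ha⟩ := exists_prime_orderOf_dvd_card' p hd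
  have h1 : (a : C) ∈ P := by
    refine ⟨a.2, 1, ?_⟩
    rw [pow_one, ← ha, ← Subgroup.coe_pow, pow_orderOf_eq_one, Subgroup.coe_one]
  rw [hb, Subgroup.mem_bot] at h1
  have h3 : a = 1 := Subtype.ext h1
  rw [h3, orderOf_one] at ha
  exact hp.one_lt.ne ha

theorem two_pow_aux {i k : ℕ} (hik : i ≤ k) (hk : 2 ^ k ≤ 242) (h : 2 ^ k ≡ 2 ^ i [MOD 11]) :
    i = k := by
  have hk7 : k ≤ 7 := by
    by_contra hn
    have : 2 ^ 8 ≤ 2 ^ k := Nat.pow_le_pow_right (by norm_num) (by omega)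
    omega
  interval_cases k <;> interval_cases i <;> first | rfl | (exfalso; revert h; decide)

end KA

theorem ka {C : Type*} [Group C] [Finite C] {K : Subgroup C} [K.Normal] {z u : C} {p : ℕ}
    (hp : p.Prime) (hz : z ∈ K) (zz : z * z = 1) (zc : ∀ g, Commute g z) (u11 : u ^ 11 = 1)
    (h0 : ∀ k ∈ K, Commute k u → k * k = 1)
    (h1 : ∀ Q : Subgroup C, Q ≤ K → u ∈ Subgroup.normalizer (Q : Set C) → ¬ p ∣ Nat.card Q →
      (∀ a ∈ Q, Commute a u → a = 1) → Q = ⊥)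
    (h2 : ∀ P : Subgroup C, P ≤ K → P.Normal → IsPGroup p P → P = ⊥) (p2 : p ≠ 2)
    (h3 : ∀ k ∈ K, (∀ g, Commute k (g * u * g⁻¹)) → k = 1 ∨ k = z)
    (h4 : ∀ E : Subgroup C, E ≤ K →
      (∀ a ∈ E, ∀ b ∈ E, a * b * a⁻¹ * b⁻¹ = 1 ∨ a * b * a⁻¹ * b⁻¹ = z) →
      (∀ a ∈ E, (∀ b ∈ E, Commute a b) → a = 1 ∨ a = z) → Nat.card E ≤ 242) :
    ∀ k ∈ K, k = 1 ∨ k = z := by
  have hpr := KA.primes hp u11 h0 h1
  have main : ∀ N : Subgroup C, N.Normal → N ≤ K →
      (∀ a ∈ N, ∀ b ∈ N, a * b * a⁻¹ * b⁻¹ = 1 ∨ a * b * a⁻¹ * b⁻¹ = z) →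
      ∀ a ∈ N, a = 1 ∨ a = z := by
    intro N hN hNK hc
    have np := KA.notp hNK hp zz zc h2 p2 hc
    have hcard : Nat.card N = 2 ^ (Nat.card N).primeFactorsList.length := by
      refine Nat.eq_prime_pow_of_unique_prime_dvd Nat.card_pos.ne' ?_
      intro d hd hdN
      rcases hpr d hd (hdN.trans (Subgroup.card_dvd_of_le hNK)) with h | h
      · exact absurd (h ▸ hdN) np
      · exact h
    have hZ : ∀ a ∈ (N ⊓ Subgroup.centralizer (N : Set C) : Subgroup C), a = 1 ∨ a = z := by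
      refine KA.abel (inf_le_left.trans hNK) u11 h0 h1 h3 ?_
        (fun h => np (h.trans (Subgroup.card_dvd_of_le inf_le_left)))
      intro a ha b hb
      exact (Subgroup.mem_centralizer_iff.1 hb.2) a ha.1
    have h242 := h4 N hNK hc fun a ha hca =>
      hZ a ⟨ha, Subgroup.mem_centralizer_iff.2 fun b hb => (hca b hb).eq.symm⟩
    have hm := KA.cnt u11 N
    set M : Subgroup C := N ⊓ Subgroup.centralizer ((Subgroup.zpowers u : Subgroup C) : Set C)
      with hM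
    have hdv : Nat.card M ∣ Nat.card N := Subgroup.card_dvd_of_le inf_le_left
    generalize (Nat.card N).primeFactorsList.length = k at hcard
    rw [hcard] at hdv hm h242
    obtain ⟨i, hik, hi⟩ := (Nat.dvd_prime_pow Nat.prime_two).1 hdv
    rw [hi] at hm
    have hik' := KA.two_pow_aux hik h242 hm
    have hMN : M = N := Subgroup.eq_of_le_of_card_ge inf_le_left (by rw [hi, hcard, hik'])
    refine KA.fin hNK h3 fun a ha => ?_
    rw [← hMN] at ha
    exact KA.mem_cent.1 ha.2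
  have hs : Group.IsSolvable K := Cfsg.Agent.Ch.burnside_isSolvable_of_primes Nat.prime_two hpr
  obtain ⟨n, hn⟩ := hs
  have down : ∀ m : ℕ, (∀ a ∈ derivedSeries K m, (a : C) = 1 ∨ (a : C) = z) →
      ∀ k ∈ K, k = 1 ∨ k = z := by
    intro m
    induction m with
    | zero => exact fun h k hk => h ⟨k, hk⟩ (Subgroup.mem_top _)
    | succ m ih =>
      intro h
      refine ih fun a ha => ?_
      refine main ((derivedSeries K m).map K.subtype) inferInstance (Subgroup.map_subtype_le _)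
        ?_ a ⟨a, ha, rfl⟩
      rintro _ ⟨x, hx, rfl⟩ _ ⟨y, hy, rfl⟩
      exact h (x * y * x⁻¹ * y⁻¹) (Subgroup.commutator_mem_commutator hx hy)
  refine down n fun a ha => Or.inl ?_
  rw [hn, Subgroup.mem_bot] at ha
  rw [ha, Subgroup.coe_one]

end Cfsg.Agent.E11C
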