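/-
A normal `p`-subgroup of the centraliser of the involution acting trivially on the odd vectors
is trivial.
-/
import Mathlib
import Cfsg.Agent.E11C.Defs
import Cfsg.Agent.E11C.Bas

set_option autoImplicit false

namespace Cfsg.Agent.E11C

open Matrix Cfsg.Geo

variable {F : Type*} [Field F] [Fintype F] {p : ℕ} {ω : F} {x y u z w : GL (Fin 11) F}
  {M : Subgroup (GL (Fin 11) F)}

local notation "M11" => Matrix (Fin 11) (Fin 11) F
local notation "M5" => Matrix (Fin 5) (Fin 5) F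

namespace OP

variable (F) in
/-- The even vectors. -/
def Ev : Submodule F (Fin 11 → F) where
  carrier := {v | ∀ i, v (-i) = v i}
  add_mem' ha hb i := by simp only [Pi.add_apply]; rw [ha i, hb i]
  zero_mem' _ := rfl
  smul_mem' c v hv i := by simp only [Pi.smul_apply]; rw [hv i]

omit [Fintype F] in
theorem ev_mul {g : M11} (hg : ∀ i j, g (-i) (-j) = g i j) {v : Fin 11 → F} (hv : v ∈ Ev F) :
    g *ᵥ v ∈ Ev F := by
  intro i
  simp only [mulVec, dotProduct]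
  rw [← Equiv.sum_comp (Equiv.neg (Fin 11))]
  refine Finset.sum_congr rfl fun j _ => ?_
  simp only [Equiv.neg_apply]
  rw [hg, hv j]

/-- The even vectors fixed by `P`. -/
def U (P : Subgroup (GL (Fin 11) F)) : Submodule F (Fin 11 → F) where
  carrier := {v | v ∈ Ev F ∧ ∀ g ∈ P, (g : M11) *ᵥ v = v}
  add_mem' ha hb := ⟨(Ev F).add_mem ha.1 hb.1, fun g hg => by rw [mulVec_add, ha.2 g hg, hb.2 g hg]⟩
  zero_mem' := ⟨(Ev F).zero_mem, fun g _ => mulVec_zero _⟩
  smul_mem' c v hv := ⟨(Ev F).smul_mem c hv.1, fun g hg => by rw [mulVec_smul, hv.2 g hg]⟩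

theorem exists_ne (h : Std p ω x y u z w M) (P : Subgroup (GL (Fin 11) F)) (hP : IsPGroup p P)
    (hle : P ≤ Cz M z) : ∃ a ∈ U P, a ≠ 0 := by
  have hp : Fact p.Prime := ⟨h.fld.1⟩
  have hc : CharP F p := h.fld.2.1
  let _ : MulAction P (Ev F) :=
    { smul := fun g v => ⟨((g : GL (Fin 11) F) : M11) *ᵥ v.1,
        ev_mul ((h.mem_cz _).1 (hle g.2)).2 v.2⟩
      one_smul := fun v => Subtype.ext (by
        show ((1 : GL (Fin 11) F) : M11) *ᵥ v.1 = v.1
        simp)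
      mul_smul := fun a b v => Subtype.ext (by
        show (((a : GL (Fin 11) F) * b : GL (Fin 11) F) : M11) *ᵥ v.1 =
          ((a : GL (Fin 11) F) : M11) *ᵥ (((b : GL (Fin 11) F) : M11) *ᵥ v.1)
        rw [Units.val_mul, mulVec_mulVec]) }
  have hs : ∀ (g : P) (v : Ev F), ((g • v : Ev F) : Fin 11 → F) =
      ((g : GL (Fin 11) F) : M11) *ᵥ v.1 := fun _ _ => rfl
  let e : Ev F := ⟨fun _ => 1, fun _ => rfl⟩
  have he : addOrderOf e = p := by
    apply addOrderOf_eq_prime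
    · rw [← Nat.cast_smul_eq_nsmul F, CharP.cast_eq_zero, zero_smul]
    · intro h0
      exact one_ne_zero (congrFun (congrArg Subtype.val h0) 0)
  have hd : p ∣ Nat.card (Ev F) := he ▸ addOrderOf_dvd_natCard e
  have h0 : (0 : Ev F) ∈ MulAction.fixedPoints P (Ev F) := fun g =>
    Subtype.ext (by rw [hs]; exact mulVec_zero _)
  obtain ⟨b, hb, hne⟩ := hP.exists_fixed_point_of_prime_dvd_card_of_fixed_point (Ev F) hd h0
  refine ⟨b.1, ⟨b.2, fun g hg => ?_⟩, fun e => hne (Subtype.ext e.symm)⟩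
  exact (hs ⟨g, hg⟩ b).symm.trans (congrArg Subtype.val (hb ⟨g, hg⟩))

theorem mul_mem (h : Std p ω x y u z w M) {P : Subgroup (GL (Fin 11) F)}
    (hn : ∀ c ∈ Cz M z, ∀ g ∈ P, c * g * c⁻¹ ∈ P) {c : GL (Fin 11) F} (hc : c ∈ Cz M z)
    {a : Fin 11 → F} (ha : a ∈ U P) : (c : M11) *ᵥ a ∈ U P := by
  refine ⟨ev_mul ((h.mem_cz _).1 hc).2 ha.1, fun g hg => ?_⟩
  have h1 := ha.2 _ (hn c⁻¹ ((Cz M z).inv_mem hc) g hg)
  have e : g * c = c * (c⁻¹ * g * c⁻¹⁻¹) := by group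
  rw [mulVec_mulVec, ← Units.val_mul, e, Units.val_mul, ← mulVec_mulVec, h1]

variable (F) in
/-- The basic even vectors. -/
def G (k : Fin 11) : Fin 11 → F := Pi.single k 1 + Pi.single (-k) 1

omit [Fintype F] in
theorem mulVec_G (g : M11) (i k : Fin 11) : (g *ᵥ G F k) i = g i k + g i (-k) := by
  simp [G, mulVec_add]

omit [Fintype F] in
theorem G_mem {P : Subgroup (GL (Fin 11) F)} {b : Fin 11 → F} (hb : b ∈ U P) {j : Fin 11}
    (h0 : ∀ i, i ≠ j → i ≠ -j → b i = 0) (h1 : b j ≠ 0) : G F j ∈ U P := by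
  have e : G F j = (G F j j / b j) • b := by
    ext i
    rw [Pi.smul_apply, smul_eq_mul]
    by_cases hi : i = j
    · rw [hi, div_mul_cancel₀ _ h1]
    by_cases hi' : i = -j
    · rw [hi', hb.1 j, div_mul_cancel₀ _ h1]
      simp only [G, Pi.add_apply, Pi.single_apply, if_true]
      rw [add_comm]
      congr 1
      exact if_congr eq_comm rfl rfl
    · rw [h0 i hi hi', mul_zero]
      simp [G, hi, hi']
  rw [e]
  exact (U P).smul_mem _ hb

theorem sq_ne : ∀ j k : Fin 11, k ≠ j → k ≠ -j → ((j : ℕ) ^ 2) % 11 ≠ ((k : ℕ) ^ 2) % 11 := by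
  decide

theorem G_mem_of (h : Std p ω x y u z w M) {P : Subgroup (GL (Fin 11) F)}
    (hn : ∀ c ∈ Cz M z, ∀ g ∈ P, c * g * c⁻¹ ∈ P) {a : Fin 11 → F} (ha : a ∈ U P) {j : Fin 11}
    (h1 : a j ≠ 0) : G F j ∈ U P := by
  have key : ∀ s : Finset (Fin 11),
      (fun i : Fin 11 => (∏ k ∈ s, (ω ^ ((i : ℕ) ^ 2) - ω ^ ((k : ℕ) ^ 2))) * a i) ∈ U P := by
    intro s
    induction s using Finset.induction_on with
    | empty => simpa using ha
    | insert k s hk ih =>
      have h2 := (U P).sub_mem (mul_mem h hn h.u_cz ih) ((U P).smul_mem (ω ^ ((k : ℕ) ^ 2)) ih)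
      convert h2 using 1
      ext i
      rw [Finset.prod_insert hk, h.hu, dqM, Pi.sub_apply, mulVec_diagonal, Pi.smul_apply,
        smul_eq_mul]
      ring
  refine G_mem (key (Finset.univ.filter fun k => k ≠ j ∧ k ≠ -j)) (fun i hi hi' => ?_) ?_
  · rw [Finset.prod_eq_zero (i := i) (by simp [hi, hi']) (sub_self _), zero_mul]
  · refine mul_ne_zero (Finset.prod_ne_zero_iff.2 fun k hk => ?_) h1
    simp only [Finset.mem_filter, Finset.mem_univ, true_and] at hk
    intro e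
    rw [sub_eq_zero, ← pow_mod_orderOf ω ((j : ℕ) ^ 2), ← pow_mod_orderOf ω ((k : ℕ) ^ 2),
      ← h.om.eq_orderOf] at e
    exact sq_ne j k hk.1 hk.2
      (h.om.pow_inj (Nat.mod_lt _ (by norm_num)) (Nat.mod_lt _ (by norm_num)) e)

theorem add_ne (h : Std p ω x y u z w M) (a b : ℕ) : ω ^ a + ω ^ b ≠ 0 := by
  intro e
  have e1 : ω ^ a = -ω ^ b := eq_neg_of_add_eq_zero_left e
  have e2 : (ω ^ a) ^ 11 = (-ω ^ b) ^ 11 := by rw [e1]
  rw [(by decide : Odd 11).neg_pow, ← pow_mul, ← pow_mul, mul_comm a, mul_comm b, pow_mul,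
    pow_mul, h.om.pow_eq_one, one_pow, one_pow] at e2
  apply h.two_ne
  linear_combination e2

theorem G_all (h : Std p ω x y u z w M) {P : Subgroup (GL (Fin 11) F)} (hP : IsPGroup p P)
    (hle : P ≤ Cz M z) (hn : ∀ c ∈ Cz M z, ∀ g ∈ P, c * g * c⁻¹ ∈ P) (k : Fin 11) :
    G F k ∈ U P := by
  obtain ⟨a, ha, h0⟩ := exists_ne h P hP hle
  obtain ⟨j, hj⟩ := Function.ne_iff.1 h0
  refine G_mem_of h hn (mul_mem h hn h.w_cz (G_mem_of h hn ha hj)) ?_
  obtain ⟨γ, hγ, hw⟩ := h.hw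
  have g0 : γ ≠ 0 := by
    rintro rfl
    simp at hγ
  rw [mulVec_G, hw]
  simp only [Matrix.smul_apply, smul_eq_mul, wM, of_apply]
  rw [← mul_add]
  exact mul_ne_zero g0 (add_ne h _ _)

theorem cases_ix : ∀ i : Fin 11, i = 0 ∨ ∃ a, i = ix a ∨ i = -ix a := by decide

theorem ix_inj : ∀ a b : Fin 5, (ix a = ix b ↔ a = b) ∧ ix a ≠ -ix b := by decide

omit [Field F] [Fintype F] in
theorem even_rows {E : M11} (hs : ∀ i j, E (-i) (-j) = E i j)
    (h : ∀ a b, E (ix a) (ix b) = E (ix a) (-ix b)) (i k : Fin 11) : E i k = E i (-k) := by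
  have h1 : ∀ a k, E (ix a) k = E (ix a) (-k) := by
    intro a k
    rcases cases_ix k with rfl | ⟨b, rfl | rfl⟩
    · rw [neg_zero]
    · exact h a b
    · rw [neg_neg]; exact (h a b).symm
  rcases cases_ix i with rfl | ⟨a, rfl | rfl⟩
  · rw [← hs 0 k, neg_zero]
  · exact h1 a k
  · rw [hs, ← hs (-ix a) k, neg_neg]; exact (h1 a k).symm

end OP

theorem Std.op (h : Std p ω x y u z w M) (P : Subgroup (GL (Fin 11) F)) (hP : IsPGroup p P) (hle : P ≤ Cz M z)
    (hn : ∀ c ∈ Cz M z, ∀ g ∈ P, c * g * c⁻¹ ∈ P) (h1 : ∀ g ∈ P, r5 (g : M11) = 1) : P = ⊥ := by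
  rw [eq_bot_iff]
  intro g hg
  rw [Subgroup.mem_bot]
  have hs := ((h.mem_cz _).1 (hle hg)).2
  have e1 : ∀ i k, ((g : M11) - 1) i k = ((g : M11) - 1) i (-k) := by
    refine OP.even_rows (fun i j => ?_) (fun a b => ?_)
    · simp only [Matrix.sub_apply, hs, Matrix.one_apply, neg_inj]
    · have := congrFun (congrFun (h1 g hg) a) b
      simp only [r5, of_apply, Matrix.one_apply] at this
      simp only [Matrix.sub_apply, Matrix.one_apply, (OP.ix_inj a b).1, (OP.ix_inj a b).2, if_false]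
      linear_combination this
  apply Units.ext
  ext i k
  have e2 := congrFun ((OP.G_all h hP hle hn k).2 g hg) i
  have e3 := OP.mulVec_G (1 : M11) i k
  rw [one_mulVec] at e3
  rw [OP.mulVec_G, e3] at e2
  have e4 := e1 i k
  simp only [Matrix.sub_apply] at e4
  apply mul_left_cancel₀ h.two_ne
  rw [Units.val_one]
  linear_combination e2 + e4

end Cfsg.Agent.E11C
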