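/-
A bound for groups of class two with commutators in `⟨z⟩`.
-/
import Mathlib
import Cfsg.Agent.E11C.Defs
import Cfsg.Agent.E11C.Bas

set_option autoImplicit false

namespace Cfsg.Agent.E11C

open Matrix Cfsg.Geo

variable {F : Type*} [Field F] [Fintype F] {p : ℕ} {ω : F} {x y u z w : GL (Fin 11) F}
  {M : Subgroup (GL (Fin 11) F)}

local notation "M11" => Matrix (Fin 11) (Fin 11) F
local notation "M5" => Matrix (Fin 5) (Fin 5) F

namespace X2

theorem indep {K V B ι : Type*} [Field K] [AddCommGroup V] [Module K V] (T : B → V →ₗ[K] V)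
    (v : ι → V) (χ : ι → B → K) (h0 : ∀ i, v i ≠ 0) (hT : ∀ b i, T b (v i) = χ i b • v i)
    (hχ : Function.Injective χ) : LinearIndependent K v := by
  classical
  rw [linearIndependent_iff']
  intro s
  induction s using Finset.induction_on with
  | empty => intro g _ i hi; simp at hi
  | insert a s ha ih =>
    intro g hg
    rw [Finset.sum_insert ha] at hg
    have h1 : ∀ i ∈ s, g i = 0 := by
      intro i hi
      have hne : χ i ≠ χ a := fun e => ha (hχ e ▸ hi)
      obtain ⟨b, hb⟩ := Function.ne_iff.1 hne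
      have e1 := congrArg (T b) hg
      rw [map_add, map_sum, map_zero, map_smul, hT] at e1
      simp only [map_smul, hT] at e1
      have e2 : ∑ j ∈ s, (g j * (χ j b - χ a b)) • v j = 0 := by
        have e3 : ∑ j ∈ s, (g j * (χ j b - χ a b)) • v j =
            (g a • χ a b • v a + ∑ j ∈ s, g j • χ j b • v j) -
              χ a b • (g a • v a + ∑ j ∈ s, g j • v j) := by
          rw [smul_add, smul_comm (χ a b) (g a), add_sub_add_left_eq_sub, Finset.smul_sum,
            ← Finset.sum_sub_distrib]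
          refine Finset.sum_congr rfl fun j _ => ?_
          rw [smul_smul, smul_smul, ← sub_smul]
          congr 1
          ring
        rw [e3, e1, hg, smul_zero, sub_zero]
      exact (mul_eq_zero.1 (ih _ e2 i hi)).resolve_right (sub_ne_zero.2 hb)
    intro i hi
    rcases Finset.mem_insert.1 hi with rfl | hi
    · rw [Finset.sum_eq_zero fun j hj => by rw [h1 j hj, zero_smul], add_zero] at hg
      exact (smul_eq_zero.1 hg).resolve_right (h0 _)
    · exact h1 i hi

end X2

theorem Std.x2 (h : Std p ω x y u z w M) (E : Subgroup (GL (Fin 11) F)) (hzc : ∀ a ∈ E, Commute a z)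
    (hc : ∀ a ∈ E, ∀ b ∈ E, a * b * a⁻¹ * b⁻¹ = 1 ∨ a * b * a⁻¹ * b⁻¹ = z)
    (hZ : ∀ a ∈ E, (∀ b ∈ E, Commute a b) → a = 1 ∨ a = z) : Nat.card E ≤ 242 := by
  classical
  have t2 := h.two_ne
  let χ : GL (Fin 11) F → E → F := fun a b => if Commute (b : GL (Fin 11) F) a then 1 else -1
  let v : GL (Fin 11) F → M11 := fun a => (a : M11) * (1 - (z : M11))
  let T : E → M11 →ₗ[F] M11 := fun b =>
    (LinearMap.mulRight F (((b : GL (Fin 11) F)⁻¹ : GL (Fin 11) F) : M11)).comp
      (LinearMap.mulLeft F ((b : GL (Fin 11) F) : M11))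
  have hv : ∀ a, v a ≠ 0 := by
    intro a e
    have e1 : (1 - (z : M11)) = 0 := by
      have := congrArg (fun m => ((a⁻¹ : GL (Fin 11) F) : M11) * m) e
      simpa [v, ← Matrix.mul_assoc] using this
    refine h.z_ne 1 ?_
    rw [one_smul, ← h.hz]
    exact (sub_eq_zero.1 e1).symm
  have hnc : ∀ a ∈ E, ∀ b ∈ E, ¬ Commute b a → b * a * b⁻¹ = z * a := by
    intro a ha b hb hn
    rcases hc b hb a ha with e | e
    · exact absurd (by rw [Commute, SemiconjBy, ← mul_inv_eq_one, _root_.mul_inv_rev,
        ← mul_assoc, e]) hn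
    · rw [← e]; group
  have hT : ∀ a ∈ E, ∀ b : E, T b (v a) = χ a b • v a := by
    intro a ha b
    have e0 : T b (v a) = ((b * a * (b : GL (Fin 11) F)⁻¹ : GL (Fin 11) F) : M11) -
        ((b * (a * z) * (b : GL (Fin 11) F)⁻¹ : GL (Fin 11) F) : M11) := by
      simp only [T, v, LinearMap.comp_apply, LinearMap.mulLeft_apply, LinearMap.mulRight_apply,
        Units.val_mul, mul_sub, sub_mul, mul_one]
    have e1 : (b : GL (Fin 11) F) * (a * z) * (b : GL (Fin 11) F)⁻¹ =
        b * a * (b : GL (Fin 11) F)⁻¹ * z := by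
      have := (hzc b b.2).inv_left.eq
      rw [mul_assoc ((b : GL (Fin 11) F) * a), this]; group
    rw [e0, e1]
    by_cases hb : Commute (b : GL (Fin 11) F) a
    · rw [hb.eq, mul_inv_cancel_right]
      simp only [χ, v, if_pos hb, one_smul, Units.val_mul, mul_sub, mul_one]
    · rw [hnc a ha b b.2 hb, ← (hzc a ha).eq, mul_assoc a z z, h.zz, mul_one]
      simp only [χ, v, if_neg hb, neg_smul, one_smul, Units.val_mul, mul_sub, mul_one, neg_sub]
  let s : Finset (GL (Fin 11) F) := (E : Set (GL (Fin 11) F)).toFinset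
  have hs : ∀ a, a ∈ s ↔ a ∈ E := fun a => by simp [s]
  have c1 : Nat.card E = s.card := by
    rw [← Nat.card_eq_card_toFinset]; rfl
  have c2 : s.card ≤ 2 * (s.image χ).card := by
    refine Finset.card_le_mul_card_image s 2 fun f hf => ?_
    obtain ⟨a, ha, rfl⟩ := Finset.mem_image.1 hf
    rw [hs] at ha
    refine (Finset.card_le_card (t := {a, a * z}) fun a' ha' => ?_).trans Finset.card_le_two
    obtain ⟨h1, h2⟩ := Finset.mem_filter.1 ha'
    rw [hs] at h1
    have h3 : ∀ b ∈ E, Commute (a⁻¹ * a') b := by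
      intro b hb
      have e := congrFun h2 ⟨b, hb⟩
      have hne : (1 : F) ≠ -1 := fun e' => t2 (by linear_combination e')
      by_cases k1 : Commute b a <;> by_cases k2 : Commute b a'
      · exact (k1.inv_right.mul_right k2).symm
      · simp only [χ, if_pos k1, if_neg k2] at e
        exact absurd e.symm hne
      · simp only [χ, if_neg k1, if_pos k2] at e
        exact absurd e hne
      · have e1 := hnc a ha b hb k1
        have e2 := hnc a' h1 b hb k2
        have e3 : b * (a⁻¹ * a') * b⁻¹ = a⁻¹ * a' := by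
          calc b * (a⁻¹ * a') * b⁻¹ = (b * a * b⁻¹)⁻¹ * (b * a' * b⁻¹) := by group
            _ = a⁻¹ * a' := by rw [e1, e2]; group
        exact (mul_inv_eq_iff_eq_mul.1 e3).symm
    rcases hZ _ (E.mul_mem (E.inv_mem ha) h1) h3 with e | e
    · rw [← inv_mul_eq_one.1 e]; simp
    · rw [inv_mul_eq_iff_eq_mul.1 e]; simp
  have c3 : (s.image χ).card ≤ 121 := by
    have hrep : ∀ f : s.image χ, ∃ a ∈ E, χ a = f := fun f => by
      obtain ⟨a, ha, e⟩ := Finset.mem_image.1 f.2
      exact ⟨a, (hs a).1 ha, e⟩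
    choose r hr1 hr2 using hrep
    have hli := X2.indep T (fun f => v (r f)) (fun f : s.image χ => (f : E → F))
      (fun f => hv _) (fun b f => by rw [hT _ (hr1 f), hr2]) Subtype.val_injective
    have := hli.fintype_card_le_finrank
    rw [Module.finrank_matrix, Module.finrank_self, Fintype.card_coe, Fintype.card_fin] at this
    exact this
  omega

end Cfsg.Agent.E11C
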