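/-
S5852, part 11^(1+2): only `1` and `z` act trivially on the odd vectors.
-/
import Mathlib
import Cfsg.Agent.E11C.Defs
import Cfsg.Agent.E11C.R5
import Cfsg.Agent.E11C.CEN
import Cfsg.Agent.E11C.FPF
import Cfsg.Agent.E11C.X2
import Cfsg.Agent.E11C.OP
import Cfsg.Agent.E11C.KA

set_option autoImplicit false

namespace Cfsg.Agent.E11C

open Matrix Cfsg.Geo

variable {F : Type*} [Field F] [Fintype F] {p : ℕ} {ω : F} {x y u z w : GL (Fin 11) F}
  {M : Subgroup (GL (Fin 11) F)}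

local notation "M11" => Matrix (Fin 11) (Fin 11) F
local notation "M5" => Matrix (Fin 5) (Fin 5) F

theorem Std.kt (h : Std p ω x y u z w M) (hm : Mon M u) : KT M z := by
  classical
  obtain ⟨π, hπ⟩ := h.exists_p
  have mk : ∀ c : Cz M z, c ∈ π.ker ↔ r5 ((c : GL (Fin 11) F) : M11) = 1 := fun c => by
    rw [MonoidHom.mem_ker, ← hπ c]
    exact ⟨fun k => by rw [k, Units.val_one], fun k => Units.ext k⟩
  have inj := (Cz M z).subtype_injective
  have key := ka (C := Cz M z) (K := π.ker) (u := ⟨u, h.u_cz⟩) (z := ⟨z, h.z_cz⟩) (p := p) h.fld.1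
    ((mk _).2 (by rw [Subgroup.coe_mk, h.hz, r5_z])) (Subtype.ext h.zz)
    (fun g => Subtype.ext (Subgroup.mem_centralizer_singleton_iff.1 g.2.2)) (Subtype.ext h.u11)
    (fun k hk hu => Subtype.ext (h.k0 hm k.2 ((mk k).1 hk) (congrArg Subtype.val hu)))
    (fun Q _ hn hp hf => ?_) (fun P hP hn hp => ?_) h.p_ne_two (fun k hk hc => ?_) (fun E _ hc hZ => ?_)
  · intro c hc h1
    exact (key ⟨c, hc⟩ ((mk _).2 h1)).imp (congrArg Subtype.val) (congrArg Subtype.val)
  · rw [← Subgroup.map_eq_bot_iff_of_injective Q inj]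
    refine h.fpf _ (Subgroup.le_normalizer_map _ ⟨_, hn, rfl⟩) (by rwa [Subgroup.card_map_of_injective inj]) ?_
    rintro _ ⟨a, ha, rfl⟩ k
    exact congrArg Subtype.val (hf a ha (Subtype.ext k))
  · rw [← Subgroup.map_eq_bot_iff_of_injective P inj]
    refine h.op _ (hp.map _) (Subgroup.map_subtype_le _) ?_ ?_
    · rintro c hc _ ⟨g, hg, rfl⟩
      exact ⟨_, hn.conj_mem g hg ⟨c, hc⟩, rfl⟩
    · rintro _ ⟨g, hg, rfl⟩
      exact (mk g).1 (hP hg)
  · have k1 : Commute (k : GL (Fin 11) F) u := by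
      simpa [commute_iff_eq] using congrArg Subtype.val (hc 1).eq
    have k2 : Commute (k : GL (Fin 11) F) (w * u * w⁻¹) := congrArg Subtype.val (hc ⟨w, h.w_cz⟩).eq
    obtain ⟨c, e⟩ := h.cen hm k.2 k1 k2
    have k3 := (mk k).1 hk
    have c1 : c = 1 := by
      have : c • (1 : M5) = 1 := by
        rcases e with e | e
        · rwa [e, r5_smul, r5_one] at k3
        · rwa [e, r5_smul, r5_z] at k3
      simpa using congrFun (congrFun this 0) 0
    rw [c1, one_smul, one_smul, ← h.hz] at e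
    exact e.imp (fun e => Subtype.ext (Units.ext e)) fun e => Subtype.ext (Units.ext e)
  · rw [← Subgroup.card_map_of_injective inj]
    refine h.x2 _ ?_ ?_ ?_
    · rintro _ ⟨a, -, rfl⟩
      exact Subgroup.mem_centralizer_singleton_iff.1 a.2.2
    · rintro _ ⟨a, ha, rfl⟩ _ ⟨b, hb, rfl⟩
      exact (hc a ha b hb).imp (congrArg Subtype.val) (congrArg Subtype.val)
    · rintro _ ⟨a, ha, rfl⟩ k
      exact (hZ a ha fun b hb => Subtype.ext (k _ ⟨b, hb, rfl⟩)).imp (congrArg Subtype.val) (congrArg Subtype.val)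

end Cfsg.Agent.E11C
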