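/-
Overgroups of the `11^(1+2)` normaliser in `SL₁₁(q)`: a non-monomial block gives a transvection.
-/
import Mathlib
import Cfsg.Agent.E11C.Defs
import Cfsg.Agent.E11C.Bas
import Cfsg.Agent.E11C.AV
import Cfsg.Agent.E11C.DK

set_option autoImplicit false

namespace Cfsg.Agent.E11C

open Matrix Cfsg.Geo

variable {F : Type*} [Field F] [Fintype F] {p : ℕ} {ω : F} {x y u z w : GL (Fin 11) F}
  {M : Subgroup (GL (Fin 11) F)}

local notation "M11" => Matrix (Fin 11) (Fin 11) F
local notation "M5" => Matrix (Fin 5) (Fin 5) F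
local notation "M2" => Matrix (Fin 2) (Fin 2) F

namespace NM

theorem ne_neg {i : Fin 11} (hi : i ≠ 0) : i ≠ -i := by
  revert i
  decide

theorem cop {i : Fin 11} (hi : i ≠ 0) : (i : ℕ).Coprime 11 := by
  revert i
  decide

theorem val_add {i : Fin 11} (hi : i ≠ 0) : ((-i : Fin 11) : ℕ) + (i : ℕ) = 11 := by
  revert i
  decide

/-- The block on the coordinates `i`, `-i`. -/
def blk (i : Fin 11) (A : M11) : M2 := !![A i i, A i (-i); A (-i) i, A (-i) (-i)]

omit [Fintype F] in
theorem mul_entry {i : Fin 11} (hi : i ≠ 0) {A : M11}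
    (hA : ∀ i j, j ≠ i → j ≠ -i → A i j = 0) (B : M11) (k : Fin 11) :
    (A * B) i k = A i i * B i k + A i (-i) * B (-i) k := by
  rw [mul_apply]
  exact Fintype.sum_eq_add i (-i) (ne_neg hi) fun m hm => by
    rw [hA i m hm.1 hm.2, zero_mul]

omit [Fintype F] in
theorem blk_mul {i : Fin 11} (hi : i ≠ 0) {A : M11}
    (hA : ∀ i j, j ≠ i → j ≠ -i → A i j = 0) (B : M11) :
    blk i (A * B) = blk i A * blk i B := by
  have hi' : -i ≠ 0 := neg_ne_zero.2 hi
  simp only [blk, mul_fin_two]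
  rw [mul_entry hi hA, mul_entry hi hA, mul_entry hi' hA, mul_entry hi' hA, neg_neg,
    add_comm (A (-i) (-i) * B (-i) i), add_comm (A (-i) (-i) * B (-i) (-i))]

omit [Fintype F] in
theorem blk_one {i : Fin 11} (hi : i ≠ 0) : blk i (1 : M11) = 1 := by
  rw [blk, one_apply_eq, one_apply_eq, one_apply_ne (ne_neg hi), one_apply_ne (ne_neg hi).symm,
    one_fin_two]

theorem exists_rho (h : Std p ω x y u z w M) {i : Fin 11} (hi : i ≠ 0) :
    ∃ ρ : ↥(Cz M u) →* GL (Fin 2) F,
      ∀ b : ↥(Cz M u), (ρ b : M2) = blk i ((b : GL (Fin 11) F) : M11) := by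
  let f : ↥(Cz M u) →* M2 :=
    { toFun := fun c => blk i ((c : GL (Fin 11) F) : M11)
      map_one' := blk_one hi
      map_mul' := fun a b => blk_mul hi ((h.comm_u _).1
        (Subgroup.mem_centralizer_singleton_iff.1 a.2.2)) _ }
  exact ⟨f.toHomUnits, fun c => rfl⟩

omit [Fintype F] in
theorem off_zero (h2 : (2 : F) ≠ 0) {A : M2} (hA : A * A = 1) (hd : A.det = 1) : A 0 1 = 0 := by
  have e1 := congrFun (congrFun hA 0) 0
  have e2 := congrFun (congrFun hA 0) 1
  simp only [mul_apply, Fin.sum_univ_two, one_apply_eq] at e1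
  simp only [mul_apply, Fin.sum_univ_two, one_apply_ne (by decide : (0 : Fin 2) ≠ 1)] at e2
  rw [det_fin_two] at hd
  apply mul_left_cancel₀ h2
  linear_combination (-A 0 1) * e1 - A 0 1 * hd + A 0 0 * e2

/-- An involution of the derived group of the centraliser of `u` is diagonal. -/
theorem diag (h : Std p ω x y u z w M) {c : ↥(Cz M u)} (hc : c ∈ commutator ↥(Cz M u))
    (h2 : c * c = 1) : ((c : GL (Fin 11) F) : M11).IsDiag := by
  intro i j hij
  by_cases hj : j = -i
  · have hi : i ≠ 0 := by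
      rintro rfl
      exact hij (by rw [hj, neg_zero])
    obtain ⟨ρ, hρ⟩ := exists_rho h hi
    have hd : GeneralLinearGroup.det (ρ c) = 1 :=
      Abelianization.commutator_subset_ker (GeneralLinearGroup.det.comp ρ) hc
    have hd' := congrArg Units.val hd
    rw [GeneralLinearGroup.val_det_apply, Units.val_one] at hd'
    have hs : (ρ c : M2) * (ρ c : M2) = 1 := by
      rw [← Units.val_mul, ← map_mul, h2, map_one, Units.val_one]
    have := off_zero h.two_ne hs hd'
    rw [hρ] at this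
    rw [hj]
    simpa [blk] using this
  · exact (h.comm_u _).1 (Subgroup.mem_centralizer_singleton_iff.1 c.2.2) i j (Ne.symm hij) hj

/-- From a non-trivial diagonal involution to the reflection in two coordinates. -/
theorem refl2 (h : Std p ω x y u z w M) {g : GL (Fin 11) F} (hg : g ∈ M) (h2 : g * g = 1)
    (h1 : g ≠ 1) (hd : (g : M11).IsDiag) {j : Fin 11} (hj : j ≠ 0) :
    In M (diagonal fun i => if i = 0 ∨ i = j then -1 else 1) := by
  have e : (g : M11) = diagonal fun i => (g : M11) i i := hd.diagonal_diag.symm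
  obtain ⟨a, ha⟩ : ∃ a, (g : M11) a a ≠ 1 := by
    by_contra hn
    push Not at hn
    apply h1
    apply Units.ext
    rw [e, Units.val_one, ← diagonal_one]
    congr 1
    funext i
    exact hn i
  have hs : (g : M11) a a * (g : M11) a a = 1 := by
    have := congrArg Units.val h2
    rw [Units.val_mul, e, diagonal_mul_diagonal, Units.val_one] at this
    simpa using congrFun (congrFun this a) a
  have hm : (g : M11) a a = -1 := (mul_self_eq_one_iff.1 hs).resolve_left ha
  have hr := h.av (f := fun i => (g : M11) i i) ⟨g, hg, e⟩ a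
  obtain ⟨r, hrm, hre⟩ := hr
  obtain ⟨s, hsm, hse⟩ := h.shift ⟨r, hrm, hre⟩ (-j)
  refine ⟨r * s, M.mul_mem hrm hsm, ?_⟩
  rw [Units.val_mul, hre, hse, diagonal_mul_diagonal]
  congr 1
  funext i
  have e1 : i + -j = 0 ↔ i = j := by rw [← sub_eq_add_neg, sub_eq_zero]
  simp only [hm, e1]
  by_cases hi : i = 0
  · have : i ≠ j := by rw [hi]; exact hj.symm
    rw [if_pos hi, if_neg this, if_pos (Or.inl hi)]
    norm_num
  · by_cases hi' : i = j
    · rw [if_neg hi, if_pos hi', if_pos (Or.inr hi')]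
      norm_num
    · rw [if_neg hi, if_neg hi', if_neg (not_or.2 ⟨hi, hi'⟩)]
      norm_num

omit [Fintype F] in
theorem key {j : Fin 11} (hj : j ≠ 0) {b : M11} (hb : ∀ i k, k ≠ i → k ≠ -i → b i k = 0)
    (hk : blk j b = !![1, 1; 0, 1]) :
    b * (diagonal fun i => if i = 0 ∨ i = j then -1 else 1) =
      transvection j (-j) 2 * (diagonal fun i => if i = 0 ∨ i = j then -1 else 1) * b := by
  have e00 : b j j = 1 := by simpa [blk] using congrFun (congrFun hk 0) 0
  have e01 : b j (-j) = 1 := by simpa [blk] using congrFun (congrFun hk 0) 1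
  have e10 : b (-j) j = 0 := by simpa [blk] using congrFun (congrFun hk 1) 0
  have e11 : b (-j) (-j) = 1 := by simpa [blk] using congrFun (congrFun hk 1) 1
  have hj' : -j ≠ 0 := neg_ne_zero.2 hj
  have hjj : -j ≠ j := (ne_neg hj).symm
  ext i k
  rw [mul_diagonal, mul_assoc]
  by_cases hi : i = j
  · subst hi
    rw [transvection_mul_apply_same, diagonal_mul, diagonal_mul, if_pos (Or.inr rfl),
      if_neg (not_or.2 ⟨hj', hjj⟩)]
    by_cases h1 : k = i
    · subst h1
      rw [e00, e10, if_pos (Or.inr rfl)]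
      ring
    · by_cases h2 : k = -i
      · subst h2
        rw [e01, e11, if_neg (not_or.2 ⟨hj', hjj⟩)]
        ring
      · rw [hb i k h1 h2, hb (-i) k h2 (by rwa [neg_neg])]
        ring
  · rw [transvection_mul_apply_of_ne _ _ _ _ hi, diagonal_mul]
    by_cases h1 : k = i
    · subst h1
      ring
    · by_cases h2 : k = -i
      · subst h2
        by_cases h3 : i = -j
        · subst h3
          rw [neg_neg, e10]
          ring
        · have h4 : i ≠ 0 := by
            rintro rfl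
            exact h1 neg_zero
          have h5 : -i ≠ j := fun e => h3 (by rw [← e, neg_neg])
          rw [if_neg (not_or.2 ⟨h4, hi⟩), if_neg (not_or.2 ⟨neg_ne_zero.2 h4, h5⟩)]
          ring
      · rw [hb i k h1 h2]
        ring

end NM

theorem Std.nm (h : Std p ω x y u z w M) (hm : ¬ Mon M u) :
    ∃ (a b : Fin 11) (t : F), a ≠ b ∧ t ≠ 0 ∧ In M (transvection a b t) := by
  unfold Mon at hm
  push Not at hm
  obtain ⟨b, hbM, hbu, j, hj, hb1, hb2⟩ := hm
  obtain ⟨ρ, hρ⟩ := NM.exists_rho h hj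
  have mem : ∀ g ∈ M, Commute g u → g ∈ Cz M u := fun g hg hc =>
    ⟨hg, Subgroup.mem_centralizer_singleton_iff.2 hc⟩
  have hjj := NM.ne_neg hj
  have hxu : Commute x u := (h.comm_u x).2 fun i k h1 _ => by
    rw [h.hx, ckM, diagonal_apply_ne _ (Ne.symm h1)]
  have hzu : Commute z u := (h.comm_u z).2 fun i k _ h2 => by
    rw [h.hz, zM, of_apply, if_neg]
    intro e
    exact h2 (by rw [e, neg_neg])
  have hα : IsPrimitiveRoot (ω ^ (j : ℕ)) 11 := h.om.pow_of_coprime _ (NM.cop hj)
  have hsl : specialLinear (Fin 2) F ≤ ⁅ρ.range, ρ.range⁆ := by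
    refine dk h.fld hα (x := ρ ⟨x, mem x h.xm hxu⟩) (s := ρ ⟨z, mem z h.zm hzu⟩)
      (b := ρ ⟨b, mem b hbM hbu⟩) ⟨_, rfl⟩ ⟨_, rfl⟩ ⟨_, rfl⟩ ?_ ?_ ?_ ?_
    · rw [hρ]
      have e : ω ^ ((-j : Fin 11) : ℕ) = (ω ^ (j : ℕ))⁻¹ := by
        apply eq_inv_of_mul_eq_one_left
        rw [← pow_add, NM.val_add hj, h.om.pow_eq_one]
      simp only [NM.blk, h.hx, ckM, diagonal_apply_eq, diagonal_apply_ne _ hjj,
        diagonal_apply_ne _ hjj.symm, e]
    · rw [hρ]
      simp only [NM.blk, h.hz, zM, of_apply, neg_neg, if_true, if_neg hjj, if_neg hjj.symm]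
    · rw [hρ]
      rintro ⟨e1, e2⟩
      exact hb1 (by simpa [NM.blk] using e1) (by simpa [NM.blk] using e2)
    · rw [hρ]
      rintro ⟨e1, e2⟩
      exact hb2 (by simpa [NM.blk] using e1) (by simpa [NM.blk] using e2)
  rw [MonoidHom.range_eq_map, ← Subgroup.map_commutator] at hsl
  have lift : ∀ A : M2, A.det = 1 → ∃ c ∈ commutator ↥(Cz M u), (ρ c : M2) = A := by
    intro A hA
    have hu : A.det ≠ 0 := by rw [hA]; exact one_ne_zero
    have : GeneralLinearGroup.mkOfDetNeZero A hu ∈ specialLinear (Fin 2) F := by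
      apply Units.ext
      rw [GeneralLinearGroup.val_det_apply]
      exact hA
    obtain ⟨c, hc, e⟩ := hsl this
    exact ⟨c, hc, by rw [e]; rfl⟩
  obtain ⟨c, hc, hce⟩ := lift (-1) (by simp [det_neg])
  have : Finite (GL (Fin 11) F) := inferInstance
  have hpos : 0 < orderOf c := orderOf_pos c
  have hev : 2 ∣ orderOf c := by
    by_contra hn
    obtain ⟨k, hk⟩ := Nat.not_even_iff_odd.1 fun e => hn (even_iff_two_dvd.1 e)
    have e : ((ρ (c ^ orderOf c) : GL (Fin 2) F) : M2) = -1 := by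
      rw [map_pow, Units.val_pow_eq_pow_val, hce, Odd.neg_one_pow ⟨k, hk⟩]
    rw [pow_orderOf_eq_one, map_one, Units.val_one] at e
    have e2 := congrFun (congrFun e 0) 0
    simp only [Matrix.neg_apply, one_apply_eq] at e2
    exact h.two_ne (by linear_combination e2)
  obtain ⟨k, hk⟩ := hev
  have hkk : c ^ k * c ^ k = 1 := by
    rw [← pow_add, ← two_mul, ← hk, pow_orderOf_eq_one]
  have hk1 : c ^ k ≠ 1 := pow_ne_one_of_lt_orderOf (by omega) (by omega)
  have hd := NM.diag h (Subgroup.pow_mem _ hc k) hkk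
  obtain ⟨d, hdM, hde⟩ := NM.refl2 h (c ^ k).2.1 (by
    rw [← Subgroup.coe_mul, hkk, Subgroup.coe_one]) (fun e => hk1 (Subtype.ext e)) hd hj
  obtain ⟨t, -, hte⟩ := lift !![1, 1; 0, 1] (by simp [det_fin_two])
  rw [hρ] at hte
  have hkey := NM.key hj ((h.comm_u _).1 (Subgroup.mem_centralizer_singleton_iff.1 t.2.2)) hte
  have hdd : (d : M11) * (d : M11) = 1 := by
    rw [hde, diagonal_mul_diagonal, ← diagonal_one]
    congr 1
    funext i
    split_ifs <;> ring
  refine ⟨j, -j, 2, hjj, h.two_ne, (t : GL (Fin 11) F) * d * (t : GL (Fin 11) F)⁻¹ * d,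
    M.mul_mem (M.mul_mem (M.mul_mem t.2.1 hdM) (M.inv_mem t.2.1)) hdM, ?_⟩
  rw [← hde] at hkey
  rw [Units.val_mul, Units.val_mul, Units.val_mul, hkey, mul_assoc _ _ (Units.val _⁻¹),
    Units.mul_inv, mul_one, mul_assoc, hdd, mul_one]

end Cfsg.Agent.E11C
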