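/-
S5852, part 11^(1+2): rigidity of the centraliser of the involution.
-/
import Mathlib
import Cfsg.Agent.E11C.Defs
import Cfsg.Agent.E11C.R5
import Cfsg.Agent.E11C.CEN
import Cfsg.Agent.E11C.AV
import Cfsg.Agent.E11C.KT

set_option autoImplicit false

namespace Cfsg.Agent.E11C

open Matrix Cfsg.Geo

variable {F : Type*} [Field F] [Fintype F] {p : ℕ} {ω : F} {x y u z w : GL (Fin 11) F}
  {M : Subgroup (GL (Fin 11) F)}

local notation "M11" => Matrix (Fin 11) (Fin 11) F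
local notation "M5" => Matrix (Fin 5) (Fin 5) F

theorem Std.rg_lf (h : Std p ω x y u z w M) (hm : Mon M u) : ∀ c ∈ Cz M z, ∀ g ∈ Cz M z, g ^ 11 = 1 →
    Commute (r5 (c : M11)) (r5 (g : M11)) → Commute c g := fun c hc g hg g11 k => by
  obtain ⟨π, hπ⟩ := h.exists_p
  have k1 : Commute (π ⟨c, hc⟩) (π ⟨g, hg⟩) := Units.ext (by
    rw [Units.val_mul, Units.val_mul, hπ, hπ]
    exact k)
  have k2 : π (⟨c, hc⟩ * ⟨g, hg⟩ * ⟨c, hc⟩⁻¹ * ⟨g, hg⟩⁻¹) = 1 := by
    rw [map_mul, map_mul, map_mul, k1.eq, map_inv, map_inv]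
    group
  have k3 := hπ (⟨c, hc⟩ * ⟨g, hg⟩ * ⟨c, hc⟩⁻¹ * ⟨g, hg⟩⁻¹)
  rw [k2] at k3
  rcases h.kt hm _ (Subtype.property _) k3.symm with e | e
  · change c * g * c⁻¹ * g⁻¹ = 1 at e
    rwa [mul_inv_eq_one, mul_inv_eq_iff_eq_mul] at e
  · change c * g * c⁻¹ * g⁻¹ = z at e
    rw [mul_inv_eq_iff_eq_mul] at e
    have e1 : (z * g) ^ 11 = 1 := by rw [← e, conj_pow, g11, mul_one, mul_inv_cancel]
    have e2 : Commute z g := (Subgroup.mem_centralizer_singleton_iff.1 hg.2).symm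
    rw [e2.mul_pow, g11, mul_one, pow_succ, pow_mul z 2 5, pow_two, h.zz, one_pow, one_mul] at e1
    exact (h.z_ne 1 (by rw [← h.hz, e1, one_smul, Units.val_one])).elim

theorem Std.rg_kk (h : Std p ω x y u z w M) (hm : Mon M u) :
    ∀ c ∈ Cz M z, (∃ a : F, r5 (c : M11) = a • (1 : M5)) → H0 c := fun c hc ⟨a, ha⟩ => by
  have k : ∀ B : M5, Commute (r5 (c : M11)) B := fun B => ha ▸ (Commute.one_left B).smul_left a
  exact h.cen hm hc (h.rg_lf hm c hc u h.u_cz h.u11 (k _)) (h.rg_lf hm c hc _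
    (mul_mem (mul_mem h.w_cz h.u_cz) (inv_mem h.w_cz)) (by rw [conj_pow, h.u11, mul_one, mul_inv_cancel]) (k _))

theorem Std.rg_d11 (h : Std p ω x y u z w M) (hm : Mon M u) :
    ∀ d ∈ M, (d : M11).IsDiag → d ^ 11 = 1 := fun d hd dg => by
  obtain ⟨f, hf⟩ : ∃ f, (d : M11) = diagonal f := ⟨_, dg.diagonal_diag.symm⟩
  have n0 := d.det_ne_zero
  rw [hf, det_diagonal, Finset.prod_ne_zero_iff] at n0
  have key : ∀ a, f a ^ 11 = 1 := fun a => by
    obtain ⟨k, hk, e⟩ := h.av ⟨d, hd, hf⟩ a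
    have na := n0 a (Finset.mem_univ a)
    obtain ⟨c, e' | e'⟩ := h.rg_kk hm k ((h.mem_cz k).2 ⟨hk, fun i j => by
      simp only [e, diagonal_apply, neg_inj, neg_eq_zero]⟩) ⟨(f a)⁻¹, by
        rw [e, r5_diagonal, smul_one_eq_diagonal]
        exact congrArg diagonal (funext fun b => if_neg (by revert b; decide))⟩
    · have e0 := congrFun (congrFun (e.symm.trans e') 0) 0
      have e1 := congrFun (congrFun (e.symm.trans e') 1) 1
      rw [diagonal_apply_eq, if_pos rfl, Matrix.smul_apply, one_apply_eq] at e0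
      rw [diagonal_apply_eq, if_neg (by decide), Matrix.smul_apply, one_apply_eq] at e1
      rw [pow_succ, e0, ← e1, inv_mul_cancel₀ na]
    · have e1 := congrFun (congrFun (e.symm.trans e') 1) 1
      rw [diagonal_apply_eq, if_neg (by decide), Matrix.smul_apply, zM, of_apply, if_neg (by decide), smul_zero] at e1
      exact (inv_ne_zero na e1).elim
  refine Units.ext ?_
  rw [Units.val_pow_eq_pow_val, hf, diagonal_pow, Units.val_one, ← diagonal_one]
  exact congrArg diagonal (funext key)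

theorem Std.rig (h : Std p ω x y u z w M) (hm : Mon M u) : Rig M u z :=
  ⟨h.rg_kk hm, h.rg_lf hm, h.rg_d11 hm, fun _ hc hu => h.sq_diag hm hc hu⟩

end Cfsg.Agent.E11C
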