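/-
S5852, part 11^(1+2): descent of the standing hypotheses to a subfield.
-/
import Mathlib
import Cfsg.Agent.E11C.Defs
import Cfsg.Agent.Cl.D5T1
import Cfsg.Agent.S7.NX

set_option autoImplicit false

namespace Cfsg.Agent.E11C

open Matrix Cfsg.Geo

variable {F : Type*} [Field F] [Fintype F] {X : Subgroup (GL (Fin 5) F)} {u w h : GL (Fin 5) F}

local notation "M5" => Matrix (Fin 5) (Fin 5) F

namespace SubH

open Cfsg.Agent.Cl Cfsg.Agent.Cl.Max

/-- An element of order eleven without fixed vectors is irreducible over the prime field. -/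
theorem irr {p : ℕ} (hc : Fintype.card F = p)
    (h11 : p % 11 = 3 ∨ p % 11 = 4 ∨ p % 11 = 5 ∨ p % 11 = 9) (u11 : u ^ 11 = 1)
    (fpf : ∀ a : Fin 5 → F, (u : M5) *ᵥ a = a → a = 0) {W : Submodule F (Fin 5 → F)}
    (hW : u ∈ subspaceStabilizer W) : W = ⊥ ∨ W = ⊤ := by
  have : Fact (Nat.Prime 11) := ⟨by norm_num⟩
  have : Fact (Nat.Prime 5) := ⟨by norm_num⟩
  let τ : Representation F (GL (Fin 5) F) (Fin 5 → F) :=
    (Matrix.toLinAlgEquiv' (R := F) (n := Fin 5)).toMonoidHom.comp (Units.coeHom _)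
  have hy : S7.NXH.Hy τ (Subgroup.zpowers u) 11 5 := by
    refine ⟨?_, ?_, by norm_num, by simp, fun v hv => fpf v (hv u (Subgroup.mem_zpowers u))⟩
    · rintro ⟨_, k, rfl⟩
      refine ⟨1, Subtype.ext ?_⟩
      change (u ^ k) ^ 11 ^ 1 = 1
      rw [pow_one, ← zpow_natCast, ← _root_.zpow_mul, mul_comm, _root_.zpow_mul, zpow_natCast, u11,
        _root_.one_zpow]
    · rw [hc, ← ZMod.natCast_mod]
      rcases h11 with e | e | e | e <;> rw [e] <;> exact orderOf_eq_prime (by decide) (by decide)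
  exact hy.irr fun x hx => mem_subspaceStabilizer_iff_maps.1 (Subgroup.zpowers_le.2 hW hx)

variable {F₀ : Subfield F} {P : GL (Fin 5) F}

omit [Fintype F] in
theorem coe_up (g : GL (Fin 5) F₀) :
    (up F₀ P g : M5) = cj P ((g : Matrix (Fin 5) (Fin 5) F₀).map F₀.subtype) := rfl

omit [Fintype F] in
theorem inj : Function.Injective (up F₀ P) := fun g h e =>
  Units.ext (map_subtype_injective
    ((cj P).injective ((coe_up g).symm.trans ((congrArg Units.val e).trans (coe_up h)))))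

omit [Fintype F] in
theorem det_up (g : GL (Fin 5) F₀) :
    (up F₀ P g : M5).det = F₀.subtype (g : Matrix (Fin 5) (Fin 5) F₀).det := by
  rw [coe_up, cj_apply, det_units_conj, RingHom.map_det]; rfl

omit [Fintype F] in
theorem ex {g : GL (Fin 5) F} (h : Rat F₀ P (g : M5)) : ∃ g₀, up F₀ P g₀ = g := by
  obtain ⟨Y, hY⟩ := rat_iff.1 h
  have hd : Y.det ≠ 0 := fun z => by
    have := RingHom.map_det F₀.subtype Y
    rw [z, map_zero, RingHom.mapMatrix_apply] at this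
    exact g.det_ne_zero (by rw [hY, cj_apply, det_units_conj, ← this])
  exact ⟨GeneralLinearGroup.mkOfDetNeZero _ hd, Units.ext hY.symm⟩

omit [Fintype F] in
theorem scal {g : GL (Fin 5) F₀} (h : up F₀ P g ∈ scalars (Fin 5) F) : g ∈ scalars (Fin 5) F₀ := by
  obtain ⟨c, hc⟩ := (mem_scalars_iff _).1 h
  have e : (g : Matrix (Fin 5) (Fin 5) F₀).map F₀.subtype = (c : F) • (1 : M5) := by
    apply (cj P).injective
    rw [← coe_up, hc, map_smul, map_one]
  have e0 : ((g 0 0 : F₀) : F) = c := by simpa using congrFun (congrFun e 0) 0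
  have h0 : g 0 0 ≠ 0 := fun z => c.ne_zero (by rw [← e0, z]; rfl)
  refine (mem_scalars_iff _).2 ⟨Units.mk0 _ h0, map_subtype_injective ?_⟩
  change _ = ((g 0 0) • (1 : Matrix (Fin 5) (Fin 5) F₀)).map F₀.subtype
  rw [Matrix.map_smul' _ _ _ (map_mul F₀.subtype), Matrix.map_one _ (map_zero _) (map_one _)]
  exact e.trans (by rw [← e0]; rfl)

end SubH

open Cfsg.Agent.Cl Cfsg.Agent.Cl.Max SubH in
theorem T5.sub {a : GL (Fin 5) F} (t : T5 X u w (a * w * a⁻¹ * w⁻¹)) (ha : a ∈ X) {p : ℕ}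
    (hp : p.Prime) (h11 : p % 11 = 3 ∨ p % 11 = 4 ∨ p % 11 = 5 ∨ p % 11 = 9) {F₀ : Subfield F}
    [Fintype F₀] (hc : Fintype.card F₀ = p) {P : GL (Fin 5) F} (hX : X ≤ subfieldSubgroup F₀ P) :
    ∃ u₀ w₀ h₀ : GL (Fin 5) F₀, T5 (X.comap (up F₀ P)) u₀ w₀ h₀ ∧ up F₀ P u₀ = u ∧
      ∀ g ∈ X, g * g = 1 → ∃ g₀, up F₀ P g₀ = g := by
  have k : ∀ g ∈ D5T.fif X, ∃ g₀, up F₀ P g₀ = g := fun g hg => ex (D5T.fif_rat t.sl hX hg)
  have k2 : ∀ g ∈ X, g * g = 1 → ∃ g₀, up F₀ P g₀ = g := fun g hg e => k g (D5T.inv_mem_fif hg e)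
  obtain ⟨u₀, hu⟩ := k u (by
    have := D5T.fifth_mem (pow_mem t.um 9)
    rwa [← pow_mul, show 9 * 5 = 11 * 4 + 1 from rfl, pow_succ, pow_mul, t.u11, one_pow, one_mul] at this)
  obtain ⟨w₀, hw⟩ := k2 w t.wm t.ww
  obtain ⟨h₀, hh⟩ := k _ (D5T.comm_mem ha t.wm)
  rw [← hh] at t
  subst hu hw
  have u11 : u₀ ^ 11 = 1 := inj (P := P) (by rw [map_pow, t.u11, map_one])
  have fpf : ∀ v : Fin 5 → F₀, (u₀ : Matrix (Fin 5) (Fin 5) F₀) *ᵥ v = v → v = 0 := fun v hv => by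
    have h1 := t.fpf ((P : M5) *ᵥ (F₀.subtype ∘ v)) (by
      rw [coe_up, cj_mulVec]
      congr 1
      funext i
      rw [← RingHom.map_mulVec, hv]
      rfl)
    have h2 : F₀.subtype ∘ v = 0 := by
      rw [← one_mulVec (F₀.subtype ∘ v), ← Units.inv_mul P, ← mulVec_mulVec, h1, mulVec_zero]
    exact funext fun i => Subtype.ext (congrFun h2 i)
  refine ⟨u₀, w₀, h₀, ⟨?_, ?_, fun e => t.ne11 ?_, fun g hg => ?_, t.um, t.wm, t.hm, u11, ?_,
    fun e => t.w1 (by rw [e, map_one]), fpf, ?_, fun g hg e => t.nr _ hg ?_, fun g hg c1 c2 => ?_,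
    fun W h1 h2 h3 => (SubH.irr hc h11 u11 fpf (h3 t.um)).elim h1 h2, fun D hD h3 => ?_⟩, rfl, k2⟩
  · rw [hc]
    exact hp.odd_of_ne_two (by rintro rfl; omega)
  · rw [hc]
    exact hp.prime.not_isSquare
  · have := congrArg F₀.subtype e
    rwa [map_ofNat, map_zero] at this
  · have := (mem_specialLinear _).1 (t.sl hg)
    rw [det_up, map_eq_one_iff _ F₀.subtype.injective] at this
    exact (mem_specialLinear _).2 this
  · exact inj (P := P) (by rw [map_mul, t.ww, map_one])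
  · exact inj (P := P) (by rw [map_mul, map_mul, map_inv, t.hu, map_pow])
  · rw [← map_inv, ← map_inv, ← e, map_mul, map_mul]
  · refine scal (t.cen _ hg (c1.map _) ?_)
    rw [← map_inv, ← map_mul, ← map_mul]
    exact c2.map _
  · have h4 := inv_mem (D5T.pow_fix hD (h3 t.um))
    rw [show (u₀ ^ 120)⁻¹ = u₀ by
      rw [inv_eq_iff_mul_eq_one, ← pow_succ, show 120 + 1 = 11 * 11 from rfl, pow_mul, u11, one_pow]] at h4
    have h5 := hD.finrank_eq 0
    rcases SubH.irr hc h11 u11 fpf (Subgroup.mem_iInf.1 h4 0) with e | e <;> rw [e] at h5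
    · simp at h5
    · simp at h5

end Cfsg.Agent.E11C
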