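/-
S5852, part 11^(1+2): the standing hypotheses in dimension five.
-/
import Mathlib
import Cfsg.Agent.E11C.Defs
import Cfsg.Agent.E11C.R5

set_option autoImplicit false

namespace Cfsg.Agent.E11C

open Matrix Cfsg.Geo

namespace T5F

variable {F : Type*} [Field F] {n : Type} [Fintype n] [DecidableEq n]

theorem prod_mem {d : n → F} {W : Submodule F (n → F)} (hW : ∀ v ∈ W, diagonal d *ᵥ v ∈ W)
    {v : n → F} (hv : v ∈ W) (S : Finset n) : (fun i => (∏ k ∈ S, (d i - d k)) * v i) ∈ W := by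
  induction S using Finset.induction_on with
  | empty => simpa using hv
  | insert k S hk ih =>
    have h1 := W.sub_mem (hW _ ih) (W.smul_mem (d k) ih)
    convert h1 using 1
    funext i
    simp only [Finset.prod_insert hk, Pi.sub_apply, mulVec_diagonal, Pi.smul_apply, smul_eq_mul]
    ring

theorem single_mem {d : n → F} (hd : Function.Injective d) {W : Submodule F (n → F)}
    (hW : ∀ v ∈ W, diagonal d *ᵥ v ∈ W) {v : n → F} (hv : v ∈ W) {a : n} (ha : v a ≠ 0) :
    (Pi.single a 1 : n → F) ∈ W := by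
  have h1 := prod_mem hW hv (Finset.univ.erase a)
  have hc : (∏ k ∈ Finset.univ.erase a, (d a - d k)) * v a ≠ 0 := by
    refine mul_ne_zero (Finset.prod_ne_zero_iff.2 fun k hk => sub_ne_zero.2 fun e => ?_) ha
    exact (Finset.mem_erase.1 hk).1 (hd e).symm
  have h2 := W.smul_mem ((∏ k ∈ Finset.univ.erase a, (d a - d k)) * v a)⁻¹ h1
  convert h2 using 1
  funext i
  by_cases hi : i = a
  · subst hi
    simp only [Pi.single_eq_same, Pi.smul_apply, smul_eq_mul]
    exact (inv_mul_cancel₀ hc).symm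
  · have h0 : (∏ k ∈ Finset.univ.erase a, (d i - d k)) = 0 :=
      Finset.prod_eq_zero (Finset.mem_erase.2 ⟨hi, Finset.mem_univ i⟩) (sub_self _)
    simp only [Pi.single_eq_of_ne hi, Pi.smul_apply, smul_eq_mul, h0, zero_mul, mul_zero]

theorem top_of {d : n → F} (hd : Function.Injective d) {W : Submodule F (n → F)}
    (hW : ∀ v ∈ W, diagonal d *ᵥ v ∈ W) {v : n → F} (hv : v ∈ W) (ha : ∀ a, v a ≠ 0) : W = ⊤ := by
  refine eq_top_iff.2 fun t _ => ?_
  have e : t = ∑ a, t a • (Pi.single a 1 : n → F) := by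
    funext i
    simp [Finset.sum_apply, Pi.single_apply]
  rw [e]
  exact W.sum_mem fun a _ => W.smul_mem _ (single_mem hd hW hv (ha a))

theorem top_of_map {d : n → F} (hd : Function.Injective d) {W W' : Submodule F (n → F)}
    (hW : ∀ v ∈ W, diagonal d *ᵥ v ∈ W) (hW' : ∀ v ∈ W', diagonal d *ᵥ v ∈ W')
    {A : Matrix n n F} (hA : ∀ i j, A i j ≠ 0) (hm : ∀ v ∈ W, A *ᵥ v ∈ W') (h0 : W ≠ ⊥) :
    W' = ⊤ := by
  obtain ⟨v, hv, hv0⟩ := (Submodule.ne_bot_iff W).1 h0
  obtain ⟨a, ha⟩ := Function.ne_iff.1 hv0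
  refine top_of hd hW' (hm _ (single_mem hd hW hv ha)) fun i => ?_
  simpa using hA i a

theorem off_zero {d : n → F} (hd : Function.Injective d) {G : Matrix n n F}
    (h : G * diagonal d = diagonal d * G) {i j : n} (hij : i ≠ j) : G i j = 0 := by
  have h1 := congrFun (congrFun h i) j
  rw [mul_diagonal, diagonal_mul] at h1
  have h2 : G i j * (d j - d i) = 0 := by linear_combination h1
  rcases mul_eq_zero.1 h2 with h3 | h3
  · exact h3
  · exact absurd (hd (sub_eq_zero.1 h3)).symm hij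

theorem eq_diag {d : n → F} (hd : Function.Injective d) {G : Matrix n n F}
    (h : G * diagonal d = diagonal d * G) : G = diagonal fun i => G i i := by
  ext i j
  by_cases hij : i = j
  · subst hij; simp
  · rw [diagonal_apply_ne _ hij, off_zero hd h hij]

theorem scal_of [Nonempty n] {d : n → F} (hd : Function.Injective d) {u w g : GL n F}
    (hu : (u : Matrix n n F) = diagonal d) (hw : ∀ i j, (w : Matrix n n F) i j ≠ 0)
    (h1 : Commute g u) (h2 : Commute g (w * u * w⁻¹)) : g ∈ scalars n F := by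
  have h3 : (w⁻¹ * g * w) * u = u * (w⁻¹ * g * w) := by
    have := h2.eq
    calc (w⁻¹ * g * w) * u = w⁻¹ * (g * (w * u * w⁻¹)) * w := by group
      _ = w⁻¹ * ((w * u * w⁻¹) * g) * w := by rw [this]
      _ = _ := by group
  have e1 : (g : Matrix n n F) = diagonal fun i => (g : Matrix n n F) i i := by
    refine eq_diag hd ?_
    rw [← hu, ← Units.val_mul, ← Units.val_mul, h1.eq]
  have e2 : ((w⁻¹ * g * w : GL n F) : Matrix n n F) =
      diagonal fun i => ((w⁻¹ * g * w : GL n F) : Matrix n n F) i i := by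
    refine eq_diag hd ?_
    rw [← hu, ← Units.val_mul, ← Units.val_mul, h3]
  have e3 : (g : Matrix n n F) * w = w * ((w⁻¹ * g * w : GL n F) : Matrix n n F) := by
    rw [← Units.val_mul, ← Units.val_mul]
    congr 1
    group
  obtain ⟨a⟩ := ‹Nonempty n›
  set c := ((w⁻¹ * g * w : GL n F) : Matrix n n F) a a with hc
  have e4 : ∀ i, (g : Matrix n n F) i i = c := by
    intro i
    have h5 := congrFun (congrFun e3 i) a
    rw [e2, mul_diagonal, ← hc] at h5
    rw [e1, diagonal_mul] at h5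
    have h6 : ((g : Matrix n n F) i i - c) * (w : Matrix n n F) i a = 0 := by linear_combination h5
    exact sub_eq_zero.1 ((mul_eq_zero.1 h6).resolve_right (hw i a))
  have e5 : (g : Matrix n n F) = c • (1 : Matrix n n F) := by
    rw [e1, smul_one_eq_diagonal]
    congr 1
    funext i
    exact e4 i
  have hc0 : c ≠ 0 := by
    intro h0
    rw [h0, zero_smul] at e5
    haveI : Nonempty n := ⟨a⟩
    exact g.ne_zero e5
  exact (mem_scalars_iff g).2 ⟨Units.mk0 c hc0, e5⟩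

theorem not_inv [Nonempty n] {d : n → F} (hd : ∀ i j, d i * d j ≠ 1) {u g : GL n F}
    (hu : (u : Matrix n n F) = diagonal d) : g * u * g⁻¹ ≠ u⁻¹ := by
  intro h
  have h1 : u * g * u = g := by
    calc u * g * u = u * (g * u * g⁻¹) * g := by group
      _ = g := by rw [h]; group
  have h2 : diagonal d * (g : Matrix n n F) * diagonal d = g := by
    rw [← hu, ← Units.val_mul, ← Units.val_mul, h1]
  refine g.ne_zero ?_
  ext i j
  have h3 := congrFun (congrFun h2 i) j
  rw [mul_diagonal, diagonal_mul] at h3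
  have h4 : (d i * d j - 1) * (g : Matrix n n F) i j = 0 := by linear_combination h3
  exact (mul_eq_zero.1 h4).resolve_left (sub_ne_zero.2 (hd i j))

theorem map_pow_eq {t : ℕ} {D : Fin t → Submodule F (n → F)} {u : GL n F} {σ : Equiv.Perm (Fin t)}
    (h : ∀ i, (D i).map (Matrix.toLin' (u : Matrix n n F)) = D (σ i)) (k : ℕ) (i : Fin t) :
    (D i).map (Matrix.toLin' ((u ^ k : GL n F) : Matrix n n F)) = D ((σ ^ k) i) := by
  induction k with
  | zero => simp
  | succ k ih =>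
    rw [pow_succ', Units.val_mul, Matrix.toLin'_mul, Submodule.map_comp, ih, h, pow_succ',
      Equiv.Perm.mul_apply]

theorem not_sq {p : ℕ} (hp : p.Prime) {k : ℕ} (hk : Odd k) : ¬ IsSquare (p ^ k) := by
  rintro ⟨r, hr⟩
  obtain ⟨j, -, rfl⟩ := (Nat.dvd_prime_pow hp).1 (show r ∣ p ^ k from ⟨r, hr⟩)
  rw [← pow_add] at hr
  have := Nat.pow_right_injective hp.two_le hr
  obtain ⟨m, hm⟩ := hk
  omega

end T5F

open T5F

variable {F : Type*} [Field F] [Fintype F] {p : ℕ} {ω : F} {x y u z w : GL (Fin 11) F}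
  {M : Subgroup (GL (Fin 11) F)}

local notation "M11" => Matrix (Fin 11) (Fin 11) F
local notation "M5" => Matrix (Fin 5) (Fin 5) F

omit [Fintype F] in
theorem T5F.lift {π : ↥(Cz M z) →* GL (Fin 5) F} (hπ : IsP π) (c : ↥(Cz M z))
    (hc : (r5 ((c : GL (Fin 11) F) : M11)).det ^ 2 = 1) :
    ∃ s : GL (Fin 5) F, (∀ t, s * t = t * s) ∧ s * s = 1 ∧ s * π c ∈ X5 π ∧
      ∃ e : F, e ≠ 0 ∧ ((s * π c : GL (Fin 5) F) : M5) = e • r5 ((c : GL (Fin 11) F) : M11) := by
  set e := (r5 ((c : GL (Fin 11) F) : M11)).det with he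
  have hee : e * e = 1 := by rw [← hc]; ring
  have h0 : e ≠ 0 := fun h => by simp [h] at hee
  have hs : (e • (1 : M5)) * (e • (1 : M5)) = 1 := by
    rw [smul_mul_smul_comm, hee, one_mul, one_smul]
  let s : GL (Fin 5) F := ⟨e • (1 : M5), e • (1 : M5), hs, hs⟩
  have hv : ((s * π c : GL (Fin 5) F) : M5) = e • r5 ((c : GL (Fin 11) F) : M11) := by
    rw [Units.val_mul, hπ c]
    show (e • (1 : M5)) * _ = _
    rw [smul_mul_assoc, one_mul]
  refine ⟨s, fun t => Units.ext ?_, Units.ext hs, (mem_X5 hπ).2 ⟨?_, c, c.2, e, hv⟩, e, h0, hv⟩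
  · show (e • (1 : M5)) * (t : M5) = (t : M5) * (e • (1 : M5))
    rw [smul_mul_assoc, mul_smul_comm, one_mul, mul_one]
  · rw [hv, det_smul, ← he, Fintype.card_fin]
    calc e ^ 5 * e = (e * e) ^ 3 := by ring
      _ = 1 := by rw [hee, one_pow]

theorem Std.t5 (h : Std p ω x y u z w M) {π : ↥(Cz M z) →* GL (Fin 5) F} (hπ : IsP π) :
    ∃ u₅ w₅ a₅ : GL (Fin 5) F, T5 (X5 π) u₅ w₅ (a₅ * w₅ * a₅⁻¹ * w₅⁻¹) ∧ a₅ ∈ X5 π ∧
      (u₅ : M5) = r5 (u : M11) ∧ ∃ e : F, (w₅ : M5) = e • r5 (w : M11) := by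
  obtain ⟨a, ha, hda, hau⟩ := h.exists_h
  let U : ↥(Cz M z) := ⟨u, h.u_cz⟩
  let W : ↥(Cz M z) := ⟨w, h.w_cz⟩
  let Z : ↥(Cz M z) := ⟨z, h.z_cz⟩
  let A : ↥(Cz M z) := ⟨a, ha⟩
  have hZ : π Z = 1 := by
    refine Units.ext ?_
    rw [hπ Z]
    show r5 (z : M11) = 1
    rw [h.hz, r5_z]
  have hWW : π W * π W = 1 := by
    rw [← map_mul, ← hZ]
    congr 1
    exact Subtype.ext h.ww
  have hdw : (r5 ((W : GL (Fin 11) F) : M11)).det ^ 2 = 1 := by
    rw [← hπ W, sq, ← det_mul, ← Units.val_mul, hWW, Units.val_one, det_one]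
  obtain ⟨s, hs, hss, hsm, e, he0, hse⟩ := T5F.lift hπ W hdw
  obtain ⟨t, ht, -, htm, -⟩ := T5F.lift hπ A hda
  let d : Fin 5 → F := fun a => ω ^ (((a : ℕ) + 1) ^ 2)
  have hU : (π U : M5) = diagonal d := by
    rw [hπ U]
    show r5 (u : M11) = _
    rw [h.hu, dqM, r5_diagonal]
    rfl
  have hone : ∀ k : ℕ, ω ^ k = 1 ↔ 11 ∣ k := fun k => h.om.pow_eq_one_iff_dvd k
  have hmod : ∀ k : ℕ, ω ^ k = ω ^ (k % 11) := by
    intro k
    conv_lhs => rw [← Nat.div_add_mod k 11, pow_add, pow_mul, h.om.pow_eq_one, one_pow, one_mul]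
  have hinj : Function.Injective d := by
    intro i j hij
    have h1 : ω ^ ((((i : ℕ) + 1) ^ 2) % 11) = ω ^ ((((j : ℕ) + 1) ^ 2) % 11) := by
      rw [← hmod, ← hmod]; exact hij
    have h2 := h.om.pow_inj (Nat.mod_lt _ (by norm_num)) (Nat.mod_lt _ (by norm_num)) h1
    exact (by decide : ∀ i j : Fin 5, ((i : ℕ) + 1) ^ 2 % 11 = ((j : ℕ) + 1) ^ 2 % 11 → i = j) i j h2
  have hd1 : ∀ i, d i ≠ 1 := by
    intro i hi
    have h2 := (hone _).1 hi
    exact (by decide : ∀ i : Fin 5, ¬ 11 ∣ ((i : ℕ) + 1) ^ 2) i h2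
  have hd2 : ∀ i j, d i * d j ≠ 1 := by
    intro i j hi
    rw [← pow_add] at hi
    have h2 := (hone _).1 hi
    exact (by decide : ∀ i j : Fin 5, ¬ 11 ∣ ((i : ℕ) + 1) ^ 2 + ((j : ℕ) + 1) ^ 2) i j h2
  have hUm : π U ∈ X5 π := by
    refine (mem_X5 hπ).2 ⟨?_, u, h.u_cz, 1, by rw [one_smul]; exact hπ U⟩
    rw [hU, det_diagonal, Finset.prod_pow_eq_pow_sum, hone]
    decide
  have hU11 : π U ^ 11 = 1 := by
    rw [← map_pow, ← map_one π]
    congr 1
    exact Subtype.ext h.u11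
  have hwne : ∀ i j, ((s * π W : GL (Fin 5) F) : M5) i j ≠ 0 := by
    intro i j
    rw [hse, Matrix.smul_apply, smul_eq_mul]
    exact mul_ne_zero he0 (h.r5_w_ne i j)
  have hcomm : t * π A * (s * π W) * (t * π A)⁻¹ * (s * π W)⁻¹ = π (A * W * A⁻¹ * W⁻¹) := by
    have e1 : t * π A * (s * π W) * (t * π A)⁻¹ = s * (π A * π W * (π A)⁻¹) := by
      calc t * π A * (s * π W) * (t * π A)⁻¹ = t * (π A * s * π W * (π A)⁻¹) * t⁻¹ := by group
        _ = π A * s * π W * (π A)⁻¹ := by rw [ht]; group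
        _ = _ := by rw [← hs]; group
    rw [e1, map_mul, map_mul, map_mul, map_inv, map_inv, hs, hs (π W)]
    group
  have hp := h.fld.1
  have hpo : Odd p := hp.odd_of_ne_two h.p_ne_two
  have hcard : ∃ k, Odd k ∧ Fintype.card F = p ^ k := by
    rcases h.fld.2.2 with h1 | h1
    · exact ⟨1, odd_one, by rw [h1.1, pow_one]⟩
    · exact ⟨5, by decide, h1.1⟩
  obtain ⟨k, hk, hck⟩ := hcard
  refine ⟨π U, s * π W, t * π A, ⟨?_, ?_, h.eleven_ne, inf_le_right, hUm, hsm, ?_, hU11, ?_, ?_, ?_, ?_,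
    fun g _ => not_inv hd2 hU, fun g _ h1 h2 => scal_of hinj hU hwne h1 h2, ?_, ?_⟩, htm, hπ U, e, hse⟩
  · rw [hck]; exact hpo.pow
  · rw [hck]; exact not_sq hp hk
  · exact mul_mem (mul_mem (mul_mem htm hsm) (inv_mem htm)) (inv_mem hsm)
  · calc s * π W * (s * π W) = s * (π W * s) * π W := by group
      _ = s * s * (π W * π W) := by rw [← hs]; group
      _ = 1 := by rw [hss, hWW, one_mul]
  · intro h1
    have h2 := hwne 0 1
    rw [h1] at h2
    exact h2 (by simp)
  · intro v hv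
    funext i
    have h1 := congrFun hv i
    rw [hU, mulVec_diagonal] at h1
    have h2 : (d i - 1) * v i = 0 := by linear_combination h1
    exact (mul_eq_zero.1 h2).resolve_left (sub_ne_zero.2 (hd1 i))
  · rw [hcomm, ← map_inv, ← map_mul, ← map_mul, ← map_pow]
    congr 1
    exact Subtype.ext hau
  · intro V h0 h1 hle
    refine h1 (top_of_map hinj (W := V) ?_ ?_ hwne ?_ h0)
    · intro v hv
      rw [← hU]
      exact (hle hUm v).1 hv
    · intro v hv
      rw [← hU]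
      exact (hle hUm v).1 hv
    · intro v hv
      exact (hle hsm v).1 hv
  · intro D hD hle
    obtain ⟨σ, hσ⟩ := hle hUm
    obtain ⟨τ, hτ⟩ := hle hsm
    have hfix : ∀ i, ∀ v ∈ D i, diagonal d *ᵥ v ∈ D i := by
      intro i v hv
      have h1 := map_pow_eq hσ 1200 i
      have h2 : σ ^ 1200 = 1 := by
        have h3 : σ ^ 120 = 1 := by
          have h4 := pow_card_eq_one (x := σ)
          rwa [Fintype.card_perm, Fintype.card_fin] at h4
        rw [show 1200 = 120 * 10 from rfl, pow_mul, h3, one_pow]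
      have h3 : π U ^ 1200 = π U := by
        rw [show 1200 = 11 * 109 + 1 from rfl, pow_succ, pow_mul, hU11, one_pow, one_mul]
      rw [h2, h3, Equiv.Perm.one_apply, hU] at h1
      rw [← h1]
      exact ⟨v, hv, rfl⟩
    have h0 : D 0 ≠ ⊥ := by
      intro h0
      have h1 := hD.finrank_eq 0
      rw [h0, finrank_bot] at h1
      exact zero_ne_one h1
    have h1 : D (τ 0) = ⊤ := by
      refine top_of_map hinj (hfix 0) (hfix _) hwne (fun v hv => ?_) h0
      rw [← hτ]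
      exact ⟨v, hv, rfl⟩
    have h2 := hD.finrank_eq (τ 0)
    rw [h1, finrank_top, Module.finrank_fin_fun] at h2
    exact absurd h2 (by decide)

end Cfsg.Agent.E11C
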